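import Cfsg.Agent.SmallRadical.Large

/-! The radical cannot be the product of a cyclic group of order eight and an elementary abelian group
of order eight. -/

set_option autoImplicit false

namespace CfsgLib.SmallRadical

/-- The action of `L₃(2)` on vectors. -/
abbrev mv (A : SL32) (v : Fin 3 → ZMod 2) : Fin 3 → ZMod 2 :=
  (A : Matrix (Fin 3) (Fin 3) (ZMod 2)).mulVec v

/-- The common centre of the transvections used below. -/
abbrev InCentre (v : Fin 3 → ZMod 2) : Prop := v = 0 ∨ v = red (1, 0, 1)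

theorem inCentre_add : ∀ u v : Fin 3 → ZMod 2, InCentre u → InCentre v → InCentre (u + v) := by
  decide +kernel

theorem inCentre_fix : ∀ v : Fin 3 → ZMod 2, InCentre v →
    mv R0 v = v ∧ mv (R0 * R0) v = v ∧ mv S0 v = v ∧ mv (R0 * R0 * S0) v = v := by
  decide +kernel

theorem transvection_sum : ∀ u v : Fin 3 → ZMod 2, mv (R0 * R0) u = u → mv (R0 * R0) v = v →
    ¬ InCentre u → ¬ InCentre v → InCentre (u + v) := by
  decide +kernel

theorem conj_fix_centre : ∀ K : SL32, (K * (R0 * R0) = S0 * K ∨ K * (R0 * R0) = R0 * R0 * S0 * K) →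
    ∀ v, InCentre v → InCentre (mv K v) := by
  decide +kernel

theorem exists_conj_third : ∃ K : SL32, K * (R0 * R0) = R0 * R0 * S0 * K := by
  decide +kernel

theorem centre_image : ∀ v : Fin 3 → ZMod 2, InCentre (v + mv (R0 * R0) v) ∧ InCentre (v + mv S0 v) ∧
    InCentre (v + mv (R0 * R0 * S0) v) := by
  decide +kernel

theorem centre_preimage : ∀ v : Fin 3 → ZMod 2, InCentre v →
    (∃ u, u + mv (R0 * R0) u = v) ∧ ∃ u, u + mv (R0 * R0 * S0) u = v := by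
  decide +kernel

theorem vec_eq_of_add : ∀ a b : Fin 3 → ZMod 2, a + b = 0 → a = b := by
  decide +kernel

theorem vec_add_self : ∀ a : Fin 3 → ZMod 2, a + a = 0 := by
  decide +kernel

/-- The arithmetic of two commuting involutions modulo a central subgroup. -/
theorem sq_rel {P : Type*} [Group P] {t t2 u q c : P} (ha : ∀ g, Commute (t * t) g)
    (hq : ∀ g, Commute q g) (hc : ∀ g, Commute c g) (h2 : t2 * t2 = t * t) (hu : u * u = t * t)
    (hprod : t * t2 = u * q) (hct : c = t⁻¹ * (t2 * t * t2⁻¹)) :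
    c * c = 1 ∧ t * t = q * q * c⁻¹ := by
  have e1 : t2 * t * t2⁻¹ = t * c := by rw [hct, mul_inv_cancel_left]
  constructor
  · have e2 : t2 * (t * c) * t2⁻¹ = t := by
      rw [← e1]
      calc t2 * (t2 * t * t2⁻¹) * t2⁻¹ = t2 * t2 * t * (t2 * t2)⁻¹ := by group
        _ = t := by rw [h2, (ha t).eq, mul_inv_cancel_right]
    have e3 : t2 * (t * c) * t2⁻¹ = t * c * c := by
      calc t2 * (t * c) * t2⁻¹ = t2 * t * (c * t2⁻¹) := by group
        _ = t2 * t * t2⁻¹ * c := by rw [(hc t2⁻¹).eq, ← mul_assoc]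
        _ = t * c * c := by rw [e1]
    rw [e3, mul_assoc, mul_eq_left] at e2
    exact e2
  · have e4 : t2 * t = t * c * t2 := by rw [← e1]; group
    have e5 : t * t2 * (t * t2) = t * t * (c * (t2 * t2)) := by
      calc t * t2 * (t * t2) = t * (t2 * t) * t2 := by group
        _ = t * (t * c * t2) * t2 := by rw [e4]
        _ = t * t * (c * (t2 * t2)) := by group
    have e6 : u * q * (u * q) = t * t * (q * q) := by
      rw [mul_assoc u q, ← mul_assoc q u q, (hq u).eq, mul_assoc u q q, ← mul_assoc, hu]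
    rw [hprod, e6, h2] at e5
    rw [mul_left_cancel e5, (hc _).eq, mul_inv_cancel_right]

variable {G : Type*} [Group G]

/-- An elementary abelian section of rank five built from a section of rank three and two elements. -/
theorem five_section [Finite G] (hR : RankFour G) {W N : Subgroup G} (hNW : N ≤ W)
    (hcard : Nat.card W = 8 * Nat.card N) (hWN : ∀ w ∈ W, ∀ n ∈ N, w * n * w⁻¹ ∈ N)
    (hsq : ∀ w ∈ W, w * w ∈ N) {t₁ t₂ : G} (hN₁ : ∀ n ∈ N, t₁ * n * t₁⁻¹ ∈ N)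
    (hN₂ : ∀ n ∈ N, t₂ * n * t₂⁻¹ ∈ N) (hW₁ : ∀ w ∈ W, w⁻¹ * (t₁ * w * t₁⁻¹) ∈ N)
    (hW₂ : ∀ w ∈ W, w⁻¹ * (t₂ * w * t₂⁻¹) ∈ N) (h₁ : t₁ * t₁ ∈ N) (h₂ : t₂ * t₂ ∈ N)
    (hc : t₂⁻¹ * (t₁ * t₂ * t₁⁻¹) ∈ N) (hne₂ : t₂ ∉ W) (hne₁ : t₁ ∉ W) (hne : t₁ * t₂⁻¹ ∉ W) : False := by
  have hn : ∀ (t : G), (∀ w ∈ W, w⁻¹ * (t * w * t⁻¹) ∈ N) → t * t ∈ N →
      (∀ w ∈ W, t * w * t⁻¹ ∈ W) ∧ ∀ w ∈ W, t⁻¹ * w * t ∈ W := by
    intro t hW ht
    have h : ∀ w ∈ W, t * w * t⁻¹ ∈ W := fun w hw => by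
      have := W.mul_mem hw (hNW (hW w hw))
      simpa using this
    refine ⟨h, fun w hw => ?_⟩
    have e : t⁻¹ * w * t = (t * t)⁻¹ * (t * w * t⁻¹) * (t * t) := by group
    rw [e]
    exact W.mul_mem (W.mul_mem (W.inv_mem (hNW ht)) (h w hw)) (hNW ht)
  obtain ⟨hW2, hW2'⟩ := hn t₂ hW₂ h₂
  obtain ⟨hW1, hW1'⟩ := hn t₁ hW₁ h₁
  obtain ⟨hn1, hsq1⟩ := extendTwo_sq (W := W) (N := N) (t := t₂) (hc := hW2) (hc' := hW2')
    (ht := hNW h₂) hN₂ hWN hsq h₂ hW₂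
  let W1 := extendTwo W t₂ hW2 hW2' (hNW h₂)
  have ht2W1 : t₂ ∈ W1 := Or.inr (by rw [mul_inv_cancel]; exact W.one_mem)
  have hcom : ∀ x ∈ W1, x⁻¹ * (t₁ * x * t₁⁻¹) ∈ N := by
    rintro x (hx | hx)
    · exact hW₁ x hx
    · have e : x⁻¹ * (t₁ * x * t₁⁻¹) =
          (t₂⁻¹ * ((x * t₂⁻¹)⁻¹ * (t₁ * (x * t₂⁻¹) * t₁⁻¹)) * t₂⁻¹⁻¹) *
            (t₂⁻¹ * (t₁ * t₂ * t₁⁻¹)) := by group
      rw [e]
      exact N.mul_mem (hn1 _ (inv_mem ht2W1) _ (hW₁ _ hx)) hc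
  have h1W : ∀ x ∈ W1, t₁ * x * t₁⁻¹ ∈ W1 := fun x hx => by
    have := W1.mul_mem hx (Or.inl (hNW (hcom x hx)))
    simpa using this
  have h1W' : ∀ x ∈ W1, t₁⁻¹ * x * t₁ ∈ W1 := fun x hx => by
    have e : t₁⁻¹ * x * t₁ = (t₁ * t₁)⁻¹ * (t₁ * x * t₁⁻¹) * (t₁ * t₁) := by group
    rw [e]
    exact W1.mul_mem (W1.mul_mem (W1.inv_mem (Or.inl (hNW h₁))) (h1W x hx)) (Or.inl (hNW h₁))
  obtain ⟨hHn, hHsq⟩ := extendTwo_sq (W := W1) (N := N) (t := t₁) (hc := h1W) (hc' := h1W')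
    (ht := Or.inl (hNW h₁)) hN₁ hn1 hsq1 h₁ hcom
  have hle := hR (extendTwo W1 t₁ h1W h1W' (Or.inl (hNW h₁))) N (fun n hn' => Or.inl (Or.inl (hNW hn')))
    hHn hHsq
  have hc2 : Nat.card (extendTwo W1 t₁ h1W h1W' (Or.inl (hNW h₁))) = 2 * Nat.card W1 :=
    card_extendTwo fun h => (extendTwo_mem.1 h).elim hne₁ hne
  have hc1 : Nat.card W1 = 2 * Nat.card W := card_extendTwo hne₂
  change Nat.card (extendTwo W1 t₁ h1W h1W' (Or.inl (hNW h₁))) ≤ _ at hle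
  rw [hc2, hc1, hcard] at hle
  have := Nat.card_pos (α := N)
  omega

variable [Finite G] {π : G →* SL32}

/-- Commutators with a fixed element are trivial modulo a subgroup when they land in a central section
of exponent two. -/
theorem comm_trivial (hπ : Function.Surjective π) {d : G} (hd : π d = D7) {q : G}
    (hq : ∀ b ∈ π.ker, b * q = q * b) {K N : Subgroup G} [N.Normal]
    (hk : ∀ g, q⁻¹ * (g * q * g⁻¹) ∈ K) (hKc : ∀ a ∈ K, ∀ g, a⁻¹ * (g * a * g⁻¹) ∈ N)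
    (hK2 : ∀ a ∈ K, a * a ∈ N) : ∀ g, q⁻¹ * (g * q * g⁻¹) ∈ N := by
  set p := QuotientGroup.mk' N with hp
  have hmem : ∀ a, p a = 1 ↔ a ∈ N := fun a => QuotientGroup.eq_one_iff a
  have hc : ∀ a ∈ K, ∀ g, p (g * a * g⁻¹) = p a := fun a ha g => by
    have h := (hmem _).2 (hKc a ha g)
    rw [map_mul, map_inv, inv_mul_eq_one] at h
    exact h.symm
  let φ : G →* G ⧸ N := MonoidHom.mk' (fun g => p (q⁻¹ * (g * q * g⁻¹))) fun g h => by
    rw [← hc _ (hk h) g, ← map_mul]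
    congr 1
    group
  have hker : π.ker ≤ φ.ker := fun b hb => by
    show p _ = 1
    rw [hq b hb, mul_inv_cancel_right, inv_mul_cancel, map_one]
  have h7 : φ d ^ 7 = 1 := by
    rw [← map_pow]
    exact hker (by rw [MonoidHom.mem_ker, map_pow, hd, D7_pow])
  have h2 : φ d ^ 2 = 1 := by
    rw [pow_two]
    show p _ * p _ = 1
    rw [← map_mul]
    exact (hmem _).2 (hK2 _ (hk d))
  have h1 : φ d = 1 := by
    have := pow_gcd_eq_one.2 ⟨h7, h2⟩
    simpa using this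
  intro g
  have hg : φ g = 1 := by rw [hom_eq_one₃ hπ φ hker hd h1]; rfl
  exact (hmem _).1 hg

/-- The standing facts in the case of a radical `Z₈ × E₈`. -/
structure EightData (π π' : G →* SL32) (Y Y1 D : Subgroup G) (w x d : G) (ν : G → Fin 3 → ZMod 2) :
    Prop where
  surj : Function.Surjective π
  surj' : Function.Surjective π'
  ker_eq : π'.ker = π.ker
  hd : π d = D7
  ab : ∀ a ∈ π.ker, ∀ b ∈ π.ker, a * b = b * a
  card : Nat.card π.ker = 64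
  sqY : ∀ q ∈ π.ker, q * q ∈ Y
  Ycent : ∀ a ∈ Y, ∀ g, g * a = a * g
  Ytwo : ∀ a ∈ Y, a * a = 1 → a = 1 ∨ a = w
  wY : w ∈ Y
  w2 : w * w = 1
  wne : w ≠ 1
  four : ∀ q ∈ π.ker, q * q * (q * q) = 1 ∨ q * q * (q * q) = w
  Y_le : Y ≤ Y1
  memY1 : ∀ q, q ∈ Y1 ↔ q ∈ π.ker ∧ q * q * (q * q) = 1
  memD : ∀ q, q ∈ D ↔ q ∈ π.ker ∧ q * q = 1
  cardY1 : Nat.card Y1 = 32
  cardD : Nat.card D = 16
  νadd : ∀ a ∈ Y1, ∀ b ∈ Y1, ν (a * b) = ν a + ν b
  νzero : ∀ a ∈ Y1, (ν a = 0 ↔ a ∈ Y)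
  νconj : ∀ g, ∀ a ∈ Y1, ν (g * a * g⁻¹) = mv (π' g) (ν a)
  νsurj : ∀ v, ∃ a ∈ D, ν a = v
  xQ : x ∈ π.ker
  xnot : x ∉ Y1
  δd : ν (x⁻¹ * (d * x * d⁻¹)) = 0
  dfix : ∀ v, mv (π' d) v = v → v = 0

namespace EightData

variable {π' : G →* SL32} {Y Y1 D : Subgroup G} {w x d : G} {ν : G → Fin 3 → ZMod 2}
  (e : EightData π π' Y Y1 D w x d ν)
include e

theorem Y1_le : Y1 ≤ π.ker := fun _ h => ((e.memY1 _).1 h).1

theorem D_le : D ≤ Y1 := fun q h => (e.memY1 q).2 ⟨((e.memD q).1 h).1, by rw [((e.memD q).1 h).2, one_mul]⟩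

theorem conj_ker (g : G) {q : G} (hq : q ∈ π.ker) : g * q * g⁻¹ ∈ π.ker :=
  (MonoidHom.normal_ker π).conj_mem q hq g

theorem sq_central {q : G} (hq : q ∈ π.ker) (g : G) : g * (q * q) * g⁻¹ = q * q := by
  rw [e.Ycent _ (e.sqY q hq) g, mul_inv_cancel_right]

theorem sq_mul {a b : G} (ha : a ∈ π.ker) (hb : b ∈ π.ker) : a * b * (a * b) = a * a * (b * b) := by
  rw [mul_assoc a b, ← mul_assoc b a b, e.ab b hb a ha, mul_assoc a b b, ← mul_assoc]

theorem comm_D (g : G) {q : G} (hq : q ∈ π.ker) : q⁻¹ * (g * q * g⁻¹) ∈ D := by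
  refine (e.memD _).2 ⟨mul_mem (inv_mem hq) (e.conj_ker g hq), ?_⟩
  rw [e.sq_mul (inv_mem hq) (e.conj_ker g hq)]
  have h1 : g * q * g⁻¹ * (g * q * g⁻¹) = q * q := by
    rw [← e.sq_central hq g]; group
  rw [h1]; group

theorem D_conj (g : G) {a : G} (ha : a ∈ D) : g * a * g⁻¹ ∈ D := by
  obtain ⟨h1, h2⟩ := (e.memD a).1 ha
  refine (e.memD _).2 ⟨e.conj_ker g h1, ?_⟩
  calc g * a * g⁻¹ * (g * a * g⁻¹) = g * (a * a) * g⁻¹ := by group
    _ = 1 := by rw [h2]; group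

theorem Y1_conj (g : G) {a : G} (ha : a ∈ Y1) : g * a * g⁻¹ ∈ Y1 := by
  obtain ⟨h1, h2⟩ := (e.memY1 a).1 ha
  refine (e.memY1 _).2 ⟨e.conj_ker g h1, ?_⟩
  calc g * a * g⁻¹ * (g * a * g⁻¹) * (g * a * g⁻¹ * (g * a * g⁻¹)) = g * (a * a * (a * a)) * g⁻¹ := by group
    _ = 1 := by rw [h2]; group

theorem wD : w ∈ D := (e.memD w).2 ⟨e.Y1_le (e.Y_le e.wY), e.w2⟩

theorem inter {a : G} (ha : a ∈ D) (ha' : a ∈ Y) : a = 1 ∨ a = w := e.Ytwo a ha' ((e.memD a).1 ha).2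

theorem sq_Y1 {q : G} (hq : q ∈ Y1) : q * q = 1 ∨ q * q = w :=
  e.Ytwo _ (e.sqY q (e.Y1_le hq)) ((e.memY1 q).1 hq).2

theorem sq_D {q : G} (hq : q ∈ Y1) : q * q ∈ D := by
  rcases e.sq_Y1 hq with h | h <;> rw [h]
  exacts [one_mem D, e.wD]

theorem four_D {q : G} (hq : q ∈ π.ker) : q * q * (q * q) ∈ D := by
  rcases e.four q hq with h | h <;> rw [h]
  exacts [one_mem D, e.wD]

theorem split_Y1 {q : G} (hq : q ∈ π.ker) (hn : q ∉ Y1) : x⁻¹ * q ∈ Y1 := by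
  have hx := (e.four x e.xQ).resolve_left fun h => e.xnot ((e.memY1 x).2 ⟨e.xQ, h⟩)
  have hq' := (e.four q hq).resolve_left fun h => hn ((e.memY1 q).2 ⟨hq, h⟩)
  refine (e.memY1 _).2 ⟨mul_mem (inv_mem e.xQ) hq, ?_⟩
  rw [e.sq_mul (inv_mem e.xQ) hq, e.sq_mul (mul_mem (inv_mem e.xQ) (inv_mem e.xQ)) (mul_mem hq hq), hq',
    show x⁻¹ * x⁻¹ * (x⁻¹ * x⁻¹) = (x * x * (x * x))⁻¹ by group, hx, inv_mul_cancel]

theorem ν_one : ν 1 = 0 := (e.νzero 1 (one_mem Y1)).2 (one_mem Y)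

theorem ν_inv {a : G} (ha : a ∈ Y1) : ν a⁻¹ = ν a := by
  refine vec_eq_of_add _ _ ?_
  rw [← e.νadd _ (inv_mem ha) _ ha, inv_mul_cancel, e.ν_one]

theorem ν_sq {a : G} (ha : a ∈ π.ker) : ν (a * a) = 0 :=
  (e.νzero _ (e.Y_le (e.sqY a ha))).2 (e.sqY a ha)

theorem ν_comm (g : G) {a : G} (ha : a ∈ Y1) : ν (a⁻¹ * (g * a * g⁻¹)) = ν a + mv (π' g) (ν a) := by
  rw [e.νadd _ (inv_mem ha) _ (e.Y1_conj g ha), e.ν_inv ha, e.νconj g a ha]

theorem ν_comm_ker (g : G) {q : G} (hq : q ∈ π.ker) (hn : q ∉ Y1) :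
    ν (q⁻¹ * (g * q * g⁻¹)) =
      ν (x⁻¹ * (g * x * g⁻¹)) + (ν (x⁻¹ * q) + mv (π' g) (ν (x⁻¹ * q))) := by
  have hu := e.split_Y1 hq hn
  have hk := e.comm_D g e.xQ
  rw [← e.ν_comm g hu, ← e.νadd _ (e.D_le hk) _ (e.D_le (e.comm_D g (e.Y1_le hu)))]
  congr 1
  have h1 : (x⁻¹ * q)⁻¹ * (x⁻¹ * (g * x * g⁻¹)) = x⁻¹ * (g * x * g⁻¹) * (x⁻¹ * q)⁻¹ :=
    e.ab _ (inv_mem (e.Y1_le hu)) _ (e.Y1_le (e.D_le hk))
  calc q⁻¹ * (g * q * g⁻¹)
      = (x⁻¹ * q)⁻¹ * (x⁻¹ * (g * x * g⁻¹)) * (g * (x⁻¹ * q) * g⁻¹) := by group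
    _ = _ := by rw [h1, mul_assoc]

theorem π'_ker {q : G} (hq : q ∈ π.ker) : π' q = 1 := MonoidHom.mem_ker.1 (e.ker_eq.symm ▸ hq)

theorem mem_of_π' {q : G} (hq : π' q = 1) : q ∈ π.ker := e.ker_eq ▸ MonoidHom.mem_ker.2 hq

/-- An involution with a fixed point forces a fixed point of the whole group. -/
theorem no_fixed (hmove : ∃ g, ν (x⁻¹ * (g * x * g⁻¹)) ≠ 0) {t : G} (ht : t ∉ π.ker)
    (ht2 : t * t ∈ π.ker) (u : Fin 3 → ZMod 2) :
    u + mv (π' t) u ≠ ν (x⁻¹ * (t * x * t⁻¹)) := by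
  intro hu
  let δ : G → Fin 3 → ZMod 2 := fun g => ν (x⁻¹ * (g * x * g⁻¹))
  let a : G → (Fin 3 → ZMod 2) → (Fin 3 → ZMod 2) := fun g v => mv (π' g) v + δ g
  have hδmul : ∀ g h, δ (g * h) = δ g + mv (π' g) (δ h) := fun g h => by
    have hk := e.comm_D h e.xQ
    simp only [δ]
    rw [← e.νconj g _ (e.D_le hk), ← e.νadd _ (e.D_le (e.comm_D g e.xQ)) _ (e.Y1_conj g (e.D_le hk))]
    congr 1
    group
  have hδker : ∀ q ∈ π.ker, δ q = 0 := fun q hq => by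
    simp only [δ]
    rw [e.ab q hq x e.xQ, mul_inv_cancel_right, inv_mul_cancel, e.ν_one]
  have hamul : ∀ g h v, a (g * h) v = a g (a h v) := fun g h v => by
    simp only [a, mv]
    rw [_root_.map_mul, Matrix.SpecialLinearGroup.coe_mul, ← Matrix.mulVec_mulVec, Matrix.mulVec_add, hδmul]
    abel
  have haker : ∀ q ∈ π.ker, ∀ v, a q v = v := fun q hq v => by
    simp only [a, mv]
    rw [e.π'_ker hq, hδker q hq, Matrix.SpecialLinearGroup.coe_one, Matrix.one_mulVec, add_zero]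
  let φ : G →* Equiv.Perm (Fin 3 → ZMod 2) :=
    { toFun := fun g => ⟨a g, a g⁻¹, fun v => by rw [← hamul, inv_mul_cancel, haker _ (one_mem _)],
        fun v => by rw [← hamul, mul_inv_cancel, haker _ (one_mem _)]⟩
      map_one' := Equiv.ext (haker 1 (one_mem _))
      map_mul' := fun g h => Equiv.ext (hamul g h) }
  have hker : π.ker ≤ φ.ker := fun q hq => MonoidHom.mem_ker.2 (Equiv.ext (haker q hq))
  have huniq : ∀ v, φ d v = v ↔ v = 0 := fun v => by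
    show a d v = v ↔ _
    have h0 : δ d = 0 := e.δd
    simp only [a]
    rw [h0, add_zero]
    exact ⟨e.dfix v, fun h => by rw [h]; exact Matrix.mulVec_zero _⟩
  have hall := eight e.surj φ hker (by rw [Nat.card_eq_fintype_card]; decide) e.hd huniq
    (t := t) (fun h => ht (MonoidHom.mem_ker.2 h)) (by rw [← map_mul]; exact MonoidHom.mem_ker.1 ht2)
    (y := u) (by
      show a t u = u
      simp only [a, δ]
      rw [← hu, ← add_assoc, add_comm (mv (π' t) u) u, add_assoc, vec_add_self, add_zero])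
  obtain ⟨g, hg⟩ := hmove
  have h := hall g
  change mv (π' g) 0 + δ g = 0 at h
  rw [show mv (π' g) (0 : Fin 3 → ZMod 2) = 0 from Matrix.mulVec_zero _, zero_add] at h
  exact hg h

/-- The selection of the elements with central image. -/
theorem exists_sel {K : Subgroup G} (hK : K ≤ Y1) (hsurj : ∀ v, ∃ a ∈ K, ν a = v) :
    ∃ N : Subgroup G, 4 * Nat.card N = Nat.card K ∧ ∀ q, q ∈ N ↔ q ∈ K ∧ InCentre (ν q) := by
  let f : ↥K →* Multiplicative (Fin 3 → ZMod 2) := MonoidHom.mk' (fun a => Multiplicative.ofAdd (ν (a : G)))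
    fun a b => congrArg Multiplicative.ofAdd (e.νadd _ (hK a.2) _ (hK b.2))
  let P : Subgroup (Multiplicative (Fin 3 → ZMod 2)) :=
    { carrier := {v | InCentre v.toAdd}
      one_mem' := Or.inl rfl
      mul_mem' := fun {u v} hu hv => inCentre_add _ _ hu hv
      inv_mem' := fun {v} hv => by
        have h : -v.toAdd = v.toAdd := neg_eq_of_add_eq_zero_left (vec_add_self _)
        show InCentre (-v.toAdd)
        rw [h]
        exact hv }
  have hP : P.index = 4 := by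
    have h1 := P.card_mul_index
    have h2 : Nat.card P = 2 := by
      have hc : Nat.card {v : Fin 3 → ZMod 2 // InCentre v} = 2 := by
        rw [Nat.card_eq_fintype_card]; decide +kernel
      exact hc
    have h3 : Nat.card (Multiplicative (Fin 3 → ZMod 2)) = 8 := by
      rw [Nat.card_eq_fintype_card]; rfl
    rw [h2, h3] at h1
    omega
  have hf : Function.Surjective f := fun v => by
    obtain ⟨a, ha, h⟩ := hsurj v.toAdd
    exact ⟨⟨a, ha⟩, congrArg Multiplicative.ofAdd h⟩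
  refine ⟨(P.comap f).map K.subtype, ?_, fun q => ⟨?_, fun ⟨h1, h2⟩ => ⟨⟨q, h1⟩, h2, rfl⟩⟩⟩
  · rw [Subgroup.card_map_of_injective K.subtype_injective, ← (P.comap f).card_mul_index,
      Subgroup.index_comap_of_surjective _ hf, hP, mul_comm]
  · rintro ⟨a, ha, rfl⟩
    exact ⟨a.2, ha⟩

/-- The lifts of three commuting transvections. -/
theorem exists_lifts : ∃ t t2 t3 : G, π' t = R0 * R0 ∧ π' t2 = S0 ∧ π' t3 = R0 * R0 * S0 ∧
    t * t ∈ Y1 ∧ InCentre (ν (t * t)) ∧ t2 * t2 ∈ Y1 ∧ InCentre (ν (t2 * t2)) ∧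
    t3 * t3 ∈ Y1 ∧ InCentre (ν (t3 * t3)) ∧
    t⁻¹ * (t2 * t * t2⁻¹) ∈ Y1 ∧ InCentre (ν (t⁻¹ * (t2 * t * t2⁻¹))) ∧
    t3⁻¹ * (t * t2) ∈ π.ker ∧
    (∀ N : Subgroup G, N.Normal → (∀ q ∈ π.ker, ∀ g, q⁻¹ * (g * q * g⁻¹) ∈ N) →
      t⁻¹ * (t2 * t * t2⁻¹) * (t⁻¹ * (t2 * t * t2⁻¹)) ∈ N ∧
      (t3⁻¹ * (t * t2) * (t3⁻¹ * (t * t2)) * (t⁻¹ * (t2 * t * t2⁻¹))⁻¹)⁻¹ * (t * t) ∈ N) ∧
    ∃ k : G, t2 * t2 = k * (t * t) * k⁻¹ := by
  obtain ⟨r, hr⟩ := e.surj' R0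
  obtain ⟨K, hK⟩ := exists_conj_S0
  obtain ⟨L, hL⟩ := exists_conj_third
  obtain ⟨k, rfl⟩ := e.surj' K
  obtain ⟨l, rfl⟩ := e.surj' L
  set t := r * r with htdef
  set t2 := k * t * k⁻¹ with ht2def
  set t3 := l * t * l⁻¹ with ht3def
  have ht : π' t = R0 * R0 := by rw [htdef, map_mul, hr]
  have ht2 : π' t2 = S0 := by
    rw [ht2def, map_mul, map_mul, map_inv, ht, hK, mul_inv_cancel_right]
  have ht3 : π' t3 = R0 * R0 * S0 := by
    rw [ht3def, map_mul, map_mul, map_inv, ht, hL, mul_inv_cancel_right]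
  set m := t * t with hm
  have hmQ : m ∈ π.ker := e.mem_of_π' (by rw [hm, map_mul, ht]; decide +kernel)
  set c := t⁻¹ * (t2 * t * t2⁻¹) with hc
  have hcQ : c ∈ π.ker := e.mem_of_π' (by
    rw [hc, map_mul, map_mul, map_mul, map_inv, map_inv, ht, ht2]; decide +kernel)
  set q := t3⁻¹ * (t * t2) with hq
  have hqQ : q ∈ π.ker := e.mem_of_π' (by
    rw [hq, map_mul, map_mul, map_inv, ht, ht2, ht3]; decide +kernel)
  have e2 : t2 * t2 = k * m * k⁻¹ := by rw [ht2def, hm]; group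
  have e3 : t3 * t3 = l * m * l⁻¹ := by rw [ht3def, hm]; group
  have hrel : ∀ N : Subgroup G, N.Normal → (∀ q ∈ π.ker, ∀ g, q⁻¹ * (g * q * g⁻¹) ∈ N) →
      c * c ∈ N ∧ (q * q * c⁻¹)⁻¹ * m ∈ N := by
    intro N hN hcomm
    set p := QuotientGroup.mk' N with hp
    have hmem : ∀ a, p a = 1 ↔ a ∈ N := fun a => QuotientGroup.eq_one_iff a
    have hcen : ∀ a ∈ π.ker, ∀ g, p (g * a * g⁻¹) = p a := fun a ha g => by
      have h := (hmem _).2 (hcomm a ha g)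
      rw [map_mul, map_inv, inv_mul_eq_one] at h
      exact h.symm
    have hcom : ∀ a ∈ π.ker, ∀ g, Commute (p a) g := fun a ha g => by
      obtain ⟨g, rfl⟩ := QuotientGroup.mk'_surjective N g
      have h := hcen a ha g
      rw [map_mul, map_mul, map_inv, mul_inv_eq_iff_eq_mul] at h
      exact h.symm
    obtain ⟨h1, h2⟩ := sq_rel (t := p t) (t2 := p t2) (u := p t3) (q := p q) (c := p c)
      (by rw [← map_mul, ← hm]; exact hcom m hmQ) (hcom q hqQ) (hcom c hcQ)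
      (by rw [← map_mul, ← map_mul, e2, hcen m hmQ, hm])
      (by rw [← map_mul, ← map_mul, e3, hcen m hmQ, hm])
      (by rw [← map_mul, ← map_mul]; congr 1; rw [hq]; group)
      (by simp only [hc, map_mul, map_inv])
    refine ⟨(hmem _).1 (by rw [map_mul, h1]), (hmem _).1 ?_⟩
    rw [map_mul, map_inv, map_mul, map_mul, map_inv, ← h2, hm, map_mul p t t, inv_mul_cancel]
  have hDn : D.Normal := ⟨fun a ha g => e.D_conj g ha⟩
  obtain ⟨hcc, hmc⟩ := hrel D hDn fun q hq g => e.comm_D g hq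
  have hcY1 : c ∈ Y1 := (e.memY1 c).2 ⟨hcQ, ((e.memD _).1 hcc).2⟩
  have hmY1 : m ∈ Y1 := by
    refine (e.memY1 m).2 ⟨hmQ, ?_⟩
    generalize hf : (q * q * c⁻¹)⁻¹ * m = f at hmc
    obtain ⟨hfQ, hf2⟩ := (e.memD f).1 hmc
    have hqc : q * q * c⁻¹ ∈ π.ker := mul_mem (mul_mem hqQ hqQ) (inv_mem hcQ)
    have h1 : m * m = q * q * (q * q) * (c * c)⁻¹ := by
      rw [← mul_inv_cancel_left (q * q * c⁻¹) m, hf, e.sq_mul hqc hfQ, hf2, mul_one,
        e.sq_mul (mul_mem hqQ hqQ) (inv_mem hcQ), mul_inv_rev c c]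
    have h4 : m * m ∈ D := h1 ▸ mul_mem (e.four_D hqQ) (inv_mem hcc)
    exact ((e.memD _).1 h4).2
  have hνm : InCentre (ν m) := by
    refine fix_centre _ (Or.inl ?_)
    have h := e.νconj r m hmY1
    rw [hr, show r * m * r⁻¹ = m by rw [hm, htdef]; group] at h
    exact h.symm
  have hν2 : InCentre (ν (t2 * t2)) := by
    rw [e2, e.νconj k m hmY1]
    exact conj_fix_centre _ (Or.inl hK) _ hνm
  have hν3 : InCentre (ν (t3 * t3)) := by
    rw [e3, e.νconj l m hmY1]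
    exact conj_fix_centre _ (Or.inr hL) _ hνm
  have hνc : InCentre (ν c) := by
    refine fix_centre _ (Or.inr ⟨?_, ?_⟩)
    · have h : ν (t⁻¹ * c * t⁻¹⁻¹) + ν c = ν m + mv S0 (ν m) := by
        rw [← ht2, ← e.ν_comm t2 hmY1, ← e.νadd _ (e.Y1_conj _ hcY1) _ hcY1]
        congr 1
        rw [hc, hm]; group
      rw [e.νconj _ c hcY1, (inCentre_fix _ hνm).2.2.1, vec_add_self, map_inv, ht,
        show (R0 * R0)⁻¹ = R0 * R0 by decide +kernel] at h
      exact vec_eq_of_add _ _ h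
    · have hm2 : t2 * t2 ∈ Y1 := e2 ▸ e.Y1_conj k hmY1
      have h : ν c + ν (t2 * c * t2⁻¹) = ν (t⁻¹ * (t2 * t2) * t⁻¹⁻¹) + ν (t2 * t2) := by
        rw [← e.νadd _ hcY1 _ (e.Y1_conj _ hcY1), ← e.ν_inv hm2,
          ← e.νadd _ (e.Y1_conj _ hm2) _ (inv_mem hm2)]
        congr 1
        rw [hc]; group
      rw [e.νconj _ c hcY1, e.νconj _ _ hm2, map_inv, ht, show (R0 * R0)⁻¹ = R0 * R0 by decide +kernel,
        (inCentre_fix _ hν2).2.1, vec_add_self, ht2] at h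
      exact (vec_eq_of_add _ _ h).symm
  exact ⟨t, t2, t3, ht, ht2, ht3, hmY1, hνm, e2 ▸ e.Y1_conj k hmY1, hν2, e3 ▸ e.Y1_conj l hmY1, hν3,
    hcY1, hνc, hqQ, hrel, k, e2⟩

/-- The case of a fixed coset. -/
theorem false_fixed (hR : RankFour G) (hfix : ∀ g, ν (x⁻¹ * (g * x * g⁻¹)) = 0) : False := by
  obtain ⟨t, t2, -, ht, ht2, -, hm, hνm, hm2, hν2, -, -, hc, hνc, -, -, -⟩ := e.exists_lifts
  haveI : (⊥ : Subgroup G).Normal := inferInstance
  have hx : ∀ g, g * x * g⁻¹ = x := fun g => by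
    have h := comm_trivial e.surj e.hd (fun b hb => e.ab b hb x e.xQ) (K := D ⊓ Y) (N := ⊥)
      (fun g => ⟨e.comm_D g e.xQ, (e.νzero _ (e.D_le (e.comm_D g e.xQ))).1 (hfix g)⟩)
      (fun a ha g => by rw [Subgroup.mem_bot, e.Ycent a ha.2 g, mul_inv_cancel_right, inv_mul_cancel])
      (fun a ha => Subgroup.mem_bot.2 ((e.memD a).1 ha.1).2) g
    rw [Subgroup.mem_bot, inv_mul_eq_one] at h
    exact h.symm
  obtain ⟨N, hN, hNmem⟩ := e.exists_sel le_rfl fun v => by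
    obtain ⟨a, ha, h⟩ := e.νsurj v
    exact ⟨a, e.D_le ha, h⟩
  rw [e.cardY1] at hN
  have hNQ : N ≤ π.ker := fun n hn => e.Y1_le ((hNmem n).1 hn).1
  have hNconj : ∀ (g : G), (∀ v, InCentre v → mv (π' g) v = v) → ∀ n ∈ N, g * n * g⁻¹ ∈ N := by
    intro g hg n hn
    obtain ⟨h1, h2⟩ := (hNmem n).1 hn
    refine (hNmem _).2 ⟨e.Y1_conj g h1, ?_⟩
    rw [e.νconj g n h1, hg _ h2]
    exact h2
  have hW : ∀ (g : G), (∀ v, InCentre (v + mv (π' g) v)) → ∀ q ∈ π.ker, q⁻¹ * (g * q * g⁻¹) ∈ N := by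
    intro g hg q hq
    refine (hNmem _).2 ⟨e.D_le (e.comm_D g hq), ?_⟩
    by_cases hq1 : q ∈ Y1
    · rw [e.ν_comm g hq1]; exact hg _
    · rw [e.ν_comm_ker g hq hq1, hfix, zero_add]; exact hg _
  have hsq : ∀ q ∈ π.ker, q * q ∈ N := fun q hq =>
    (hNmem _).2 ⟨e.Y_le (e.sqY q hq), Or.inl (e.ν_sq hq)⟩
  have hout : ∀ g : G, π' g ≠ 1 → g ∉ π.ker := fun g hg h => hg (e.π'_ker h)
  refine five_section hR (W := π.ker) (N := N) hNQ (by rw [e.card]; omega)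
    (fun q hq n hn => by rw [e.ab q hq n (hNQ hn), mul_inv_cancel_right]; exact hn) hsq
    (t₁ := t2) (t₂ := t) (hNconj t2 fun v hv => by rw [ht2]; exact (inCentre_fix v hv).2.2.1)
    (hNconj t fun v hv => by rw [ht]; exact (inCentre_fix v hv).2.1)
    (hW t2 fun v => by rw [ht2]; exact (centre_image v).2.1)
    (hW t fun v => by rw [ht]; exact (centre_image v).1)
    ((hNmem _).2 ⟨hm2, hν2⟩) ((hNmem _).2 ⟨hm, hνm⟩) ((hNmem _).2 ⟨hc, hνc⟩)
    (hout t (by rw [ht]; decide +kernel)) (hout t2 (by rw [ht2]; decide +kernel))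
    (hout _ (by rw [map_mul, map_inv, ht, ht2]; decide +kernel))

/-- The case of a moved coset. -/
theorem false_moved (hR : RankFour G) (hmove : ∃ g, ν (x⁻¹ * (g * x * g⁻¹)) ≠ 0) : False := by
  obtain ⟨t, t2, t3, ht, ht2, ht3, hm, hνm, hm2, hν2, hm3, hν3, hc, hνc, hqQ, hrel, k, hk⟩ := e.exists_lifts
  have hout : ∀ g : G, π' g ≠ 1 → g ∉ π.ker := fun g hg h => hg (e.π'_ker h)
  have htQ : t ∉ π.ker := hout t (by rw [ht]; decide +kernel)
  -- the third square root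
  have hqY1 : t3⁻¹ * (t * t2) ∈ Y1 := by
    by_contra hn
    set q := t3⁻¹ * (t * t2) with hq
    set c := t⁻¹ * (t2 * t * t2⁻¹) with hcdef
    have hB := e.comm_D t3 hqQ
    have hqq := e.Y_le (e.sqY q hqQ)
    have h1 : q * q * (q⁻¹ * (t3 * q * t3⁻¹)) * (t3 * t3) = t * t * c * (t2 * t2) := by
      have h2 : t * t * c * (t2 * t2) = t3 * q * t3⁻¹ * (t3 * t3) * q := by rw [hq, hcdef]; group
      rw [h2, mul_assoc q q, mul_inv_cancel_left,
        e.ab q hqQ (t3 * q * t3⁻¹) (e.conj_ker t3 hqQ), mul_assoc (t3 * q * t3⁻¹) q,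
        e.ab q hqQ _ (e.Y1_le hm3), ← mul_assoc]
    have h3 := congrArg ν h1
    rw [e.νadd _ (mul_mem hqq (e.D_le hB)) _ hm3, e.νadd _ hqq _ (e.D_le hB), e.ν_sq hqQ, zero_add,
      e.νadd _ (mul_mem hm hc) _ hm2, e.νadd _ hm _ hc, e.ν_comm_ker t3 hqQ hn, ht3] at h3
    have h4 : InCentre (ν (x⁻¹ * (t3 * x * t3⁻¹))) := by
      have h5 := inCentre_add _ _ (inCentre_add _ _ (inCentre_add _ _ hνm hνc) hν2) hν3
      rw [← h3, add_assoc, vec_add_self, add_zero] at h5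
      have h6 := inCentre_add _ _ h5 (centre_image (ν (x⁻¹ * q))).2.2
      rwa [add_assoc, vec_add_self, add_zero] at h6
    obtain ⟨u, hu⟩ := (centre_preimage _ h4).2
    exact e.no_fixed hmove (hout t3 (by rw [ht3]; decide +kernel)) (e.Y1_le hm3) u (by rw [ht3]; exact hu)
  -- the complement
  haveI hDn : D.Normal := ⟨fun a ha g => e.D_conj g ha⟩
  have hDQ : D ≤ π.ker := e.D_le.trans e.Y1_le
  let ψ : G →* MulAut ↥D := MulAut.conjNormal
  have hψk : π.ker ≤ ψ.ker := conjNormal_ker fun a ha q hq => e.ab a (hDQ ha) q hq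
  have hwc : ∀ g, g * w * g⁻¹ = w := fun g => by rw [e.Ycent w e.wY g, mul_inv_cancel_right]
  have s : Seven ↥D (ψ d) ⟨w, e.wD⟩ :=
    { h2 := fun v => Subtype.ext ((e.memD v).1 v.2).2
      card := e.cardD
      h7 := by
        rw [← map_pow]
        exact hψk (by rw [MonoidHom.mem_ker, map_pow, e.hd, D7_pow])
      ne_one := fun h => e.wne (congrArg Subtype.val h)
      fix := fun v => by
        constructor
        · intro hv
          have h1 : d * (v : G) * d⁻¹ = v := (MulAut.conjNormal_apply d v).symm.trans (congrArg Subtype.val hv)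
          have h2 := congrArg ν h1
          rw [e.νconj d _ (e.D_le v.2)] at h2
          rcases e.inter v.2 ((e.νzero _ (e.D_le v.2)).1 (e.dfix _ h2)) with h | h
          exacts [Or.inl (Subtype.ext h), Or.inr (Subtype.ext h)]
        · rintro (rfl | rfl)
          · exact map_one _
          · exact Subtype.ext ((MulAut.conjNormal_apply d _).trans (hwc d)) }
  have hz : ∀ g, ψ g (⟨w, e.wD⟩ : ↥D) = ⟨w, e.wD⟩ := fun g =>
    Subtype.ext ((MulAut.conjNormal_apply g _).trans (hwc g))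
  have hmc : ∀ a ∈ π.ker, t * t * a * (t * t)⁻¹ = a := fun a ha => by
    rw [e.ab _ (e.Y1_le hm) a ha, mul_inv_cancel_right]
  have hkfix : ∀ a ∈ π.ker, t * (a⁻¹ * (t * a * t⁻¹)) * t⁻¹ = a⁻¹ * (t * a * t⁻¹) := fun a ha => by
    calc t * (a⁻¹ * (t * a * t⁻¹)) * t⁻¹ = (t * a * t⁻¹)⁻¹ * (t * t * a * (t * t)⁻¹) := by group
      _ = (a⁻¹ * (t * a * t⁻¹))⁻¹ := by rw [hmc a ha]; group
      _ = _ := inv_eq_of_mul_eq_one_right ((e.memD _).1 (e.comm_D t ha)).2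
  have hcent : ∀ f ∈ D, InCentre (ν f) → t * f * t⁻¹ = f := by
    intro f hf hνf
    obtain ⟨u, hu⟩ := (centre_preimage _ hνf).1
    obtain ⟨a, ha, rfl⟩ := e.νsurj u
    have hg := e.comm_D t (hDQ ha)
    set g := a⁻¹ * (t * a * t⁻¹) with hgdef
    have h1 : g⁻¹ * f ∈ Y := by
      rw [← e.νzero _ (mul_mem (inv_mem (e.D_le hg)) (e.D_le hf)),
        e.νadd _ (inv_mem (e.D_le hg)) _ (e.D_le hf), e.ν_inv (e.D_le hg), hgdef,
        e.ν_comm t (e.D_le ha), ht, hu, vec_add_self]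
    calc t * f * t⁻¹ = (t * g * t⁻¹) * (t * (g⁻¹ * f) * t⁻¹) := by group
      _ = g * (g⁻¹ * f) := by rw [hkfix a (hDQ ha), e.Ycent _ h1 t, mul_inv_cancel_right]
      _ = f := mul_inv_cancel_left g f
  have hinv := complement16 e.surj hψk e.hd s hz (t := t) (fun h => htQ h)
    (by rw [← map_mul]; exact MonoidHom.mem_ker.1 (e.Y1_le hm)) (by
    intro v hv
    obtain ⟨a, ha⟩ := v
    have haw : t * a * t⁻¹ = a * w := by
      have h := congrArg Subtype.val hv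
      rw [Subgroup.coe_mul, MulAut.conjNormal_apply] at h
      change a * (t * a * t⁻¹) = w at h
      rw [← h, ← mul_assoc a a, ((e.memD a).1 ha).2, one_mul]
    have hνa : ¬ InCentre (ν a) := fun h => e.wne (mul_eq_left.1 (haw.symm.trans (hcent a ha h)))
    have hfa : mv (R0 * R0) (ν a) = ν a := by
      rw [← ht, ← e.νconj t a (e.D_le ha), haw, e.νadd _ (e.D_le ha) _ (e.D_le e.wD),
        (e.νzero w (e.D_le e.wD)).2 e.wY, add_zero]
    set f := x⁻¹ * (t * x * t⁻¹) with hfdef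
    have hf := e.comm_D t e.xQ
    have hνf : ¬ InCentre (ν f) := fun h => by
      obtain ⟨u, hu⟩ := (centre_preimage _ h).1
      exact e.no_fixed hmove htQ (e.Y1_le hm) u (by rw [ht]; exact hu)
    have hff : mv (R0 * R0) (ν f) = ν f := by
      rw [← ht, ← e.νconj t f (e.D_le hf), hfdef, hkfix x e.xQ]
    have h1 := hcent _ (mul_mem ha hf)
      (by rw [e.νadd _ (e.D_le ha) _ (e.D_le hf)]; exact transvection_sum _ _ hfa hff hνa hνf)
    apply e.wne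
    have h2 : t * (a * f) * t⁻¹ = a * w * f := by
      calc t * (a * f) * t⁻¹ = (t * a * t⁻¹) * (t * f * t⁻¹) := by group
        _ = a * w * f := by rw [haw, hfdef, hkfix x e.xQ]
    rw [h2] at h1
    exact mul_eq_left.1 (mul_right_cancel h1))
  let D0 := (diffs s.h2 (ψ d)).map D.subtype
  haveI hD0n : D0.Normal := ⟨by
    rintro _ ⟨a, ha, rfl⟩ g
    exact ⟨ψ g a, hinv g a ha, MulAut.conjNormal_apply g a⟩⟩
  have hD0D : D0 ≤ D := Subgroup.map_subtype_le _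
  have hwD0 : w ∉ D0 := by
    rintro ⟨a, ha, he⟩
    obtain rfl : a = ⟨w, e.wD⟩ := Subtype.ext he
    exact s.z_notMem ha
  have hsplit : ∀ a ∈ D, a ∈ D0 ∨ w * a ∈ D0 := by
    intro a ha
    by_cases h : (⟨a, ha⟩ : ↥D) ∈ diffs s.h2 (ψ d)
    · exact Or.inl ⟨_, h, rfl⟩
    · exact Or.inr ⟨_, (Subgroup.mul_mem_iff_of_index_two s.index_diffs).2 (iff_of_false s.z_notMem h), rfl⟩
  have hcom0 : ∀ q ∈ π.ker, ∀ g, q⁻¹ * (g * q * g⁻¹) ∈ D0 := fun q hq =>
    comm_trivial e.surj e.hd (fun b hb => e.ab b hb q hq) (K := D) (fun g => e.comm_D g hq)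
      (fun a ha g => by
        rcases hsplit a ha with h | h
        · exact mul_mem (inv_mem h) (hD0n.conj_mem a h g)
        · have h1 : a⁻¹ * (g * a * g⁻¹) = (w * a)⁻¹ * (g * (w * a) * g⁻¹) := by
            calc a⁻¹ * (g * a * g⁻¹) = a⁻¹ * w⁻¹ * (w * (g * a * g⁻¹)) := by group
              _ = a⁻¹ * w⁻¹ * ((g * w * g⁻¹) * (g * a * g⁻¹)) := by rw [hwc g]
              _ = _ := by group
          rw [h1]
          exact mul_mem (inv_mem h) (hD0n.conj_mem _ h g))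
      (fun a ha => by rw [((e.memD a).1 ha).2]; exact one_mem D0)
  obtain ⟨hcc, hmq⟩ := hrel D0 hD0n hcom0
  have hcD : t⁻¹ * (t2 * t * t2⁻¹) ∈ D :=
    (e.memD _).2 ⟨e.Y1_le hc, (e.sq_Y1 hc).resolve_right fun h => hwD0 (h ▸ hcc)⟩
  have hmD : t * t ∈ D := by
    have h := mul_mem (mul_mem (e.sq_D hqY1) (inv_mem hcD)) (hD0D hmq)
    rwa [mul_inv_cancel_left] at h
  have hm2D : t2 * t2 ∈ D := hk ▸ e.D_conj k hmD
  obtain ⟨N, hN, hNmem⟩ := e.exists_sel e.D_le e.νsurj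
  rw [e.cardD] at hN
  have hNY1 : N ≤ Y1 := fun n hn => e.D_le ((hNmem n).1 hn).1
  have hNconj : ∀ (g : G), (∀ v, InCentre v → mv (π' g) v = v) → ∀ n ∈ N, g * n * g⁻¹ ∈ N := by
    intro g hg n hn
    obtain ⟨h1, h2⟩ := (hNmem n).1 hn
    refine (hNmem _).2 ⟨e.D_conj g h1, ?_⟩
    rw [e.νconj g n (e.D_le h1), hg _ h2]
    exact h2
  have hW : ∀ (g : G), (∀ v, InCentre (v + mv (π' g) v)) → ∀ q ∈ Y1, q⁻¹ * (g * q * g⁻¹) ∈ N := by
    intro g hg q hq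
    refine (hNmem _).2 ⟨e.comm_D g (e.Y1_le hq), ?_⟩
    rw [e.ν_comm g hq]; exact hg _
  have hsq : ∀ q ∈ Y1, q * q ∈ N := fun q hq =>
    (hNmem _).2 ⟨e.sq_D hq, Or.inl (e.ν_sq (e.Y1_le hq))⟩
  have houtY : ∀ g : G, π' g ≠ 1 → g ∉ Y1 := fun g hg h => hout g hg (e.Y1_le h)
  refine five_section hR (W := Y1) (N := N) hNY1 (by rw [e.cardY1]; omega)
    (fun q hq n hn => by rw [e.ab q (e.Y1_le hq) n (e.Y1_le (hNY1 hn)), mul_inv_cancel_right]; exact hn) hsq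
    (t₁ := t2) (t₂ := t) (hNconj t2 fun v hv => by rw [ht2]; exact (inCentre_fix v hv).2.2.1)
    (hNconj t fun v hv => by rw [ht]; exact (inCentre_fix v hv).2.1)
    (hW t2 fun v => by rw [ht2]; exact (centre_image v).2.1)
    (hW t fun v => by rw [ht]; exact (centre_image v).1)
    ((hNmem _).2 ⟨hm2D, hν2⟩) ((hNmem _).2 ⟨hmD, hνm⟩) ((hNmem _).2 ⟨hcD, hνc⟩)
    (houtY t (by rw [ht]; decide +kernel)) (houtY t2 (by rw [ht2]; decide +kernel))
    (houtY _ (by rw [map_mul, map_inv, ht, ht2]; decide +kernel))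

end EightData

set_option maxHeartbeats 1000000 in
/-- The radical is not `Z₈ × E₈`. -/
theorem false_cyclic_eight (hπ : Function.Surjective π) (hR : RankFour G)
    (hab : ∀ a ∈ π.ker, ∀ b ∈ π.ker, a * b = b * a) (hcard : Nat.card π.ker = 64) {x₀ : G}
    (hx₀ : x₀ ∈ π.ker) (hx8 : x₀ ^ 8 = 1) (hx4 : x₀ ^ 4 ≠ 1)
    (hsq : ∀ q ∈ π.ker, q * q ∈ Subgroup.zpowers (x₀ * x₀))
    (hact : ∃ g : G, ∃ a ∈ π.ker, a⁻¹ * (g * a * g⁻¹) ∉ Subgroup.zpowers (x₀ * x₀)) : False := by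
  classical
  obtain ⟨d, hd⟩ := hπ D7
  set y := x₀ * x₀ with hy
  set Y := Subgroup.zpowers y with hYdef
  have hy4 : orderOf y = 4 := by
    haveI : Fact (Nat.Prime 2) := ⟨Nat.prime_two⟩
    refine orderOf_eq_prime_pow (p := 2) (n := 1) ?_ ?_
    · rw [pow_one, hy, ← pow_two, ← pow_mul]; exact hx4
    · rw [hy, ← pow_two, ← pow_mul]; exact hx8
  have hp4 : y ^ 4 = 1 := hy4 ▸ pow_orderOf_eq_one y
  have hp2 : y ^ 2 ≠ 1 := pow_ne_one_of_lt_orderOf (by norm_num) (by rw [hy4]; norm_num)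
  have hlist : ∀ a ∈ Y, ∃ j < 4, a = y ^ j := by
    intro a ha
    obtain ⟨j, hj⟩ := (Submonoid.mem_powers_iff a y).1 ((mem_powers_iff_mem_zpowers).2 ha)
    exact ⟨j % 4, Nat.mod_lt _ (by norm_num), by rw [← hj, ← hy4, pow_mod_orderOf]⟩
  have hYQ : Y ≤ π.ker := Subgroup.zpowers_le.2 (mul_mem hx₀ hx₀)
  have hyY : y ∈ Y := Subgroup.mem_zpowers y
  haveI hYn : Y.Normal := ⟨fun n hn g => by
    obtain ⟨k, -, rfl⟩ := hlist n hn
    rw [← conj_pow]
    refine Y.pow_mem ?_ k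
    have e : g * y * g⁻¹ = (g * x₀ * g⁻¹) * (g * x₀ * g⁻¹) := by rw [hy]; group
    rw [e]
    exact hsq _ ((MonoidHom.normal_ker π).conj_mem _ hx₀ g)⟩
  have hY2 : ∀ a ∈ Y, a * a = 1 → a = 1 ∨ a = y * y := by
    intro a ha ha2
    obtain ⟨j, hj, rfl⟩ := hlist a ha
    interval_cases j
    · exact Or.inl (pow_zero y)
    · rw [pow_one, ← pow_two] at ha2; exact absurd ha2 hp2
    · exact Or.inr (pow_two y)
    · rw [← pow_add, show 3 + 3 = 4 + 2 from rfl, pow_add, hp4, one_mul] at ha2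
      exact absurd ha2 hp2
  -- the squares are central
  have hyc : ∀ g, g * y = y * g := by
    let φ : G →* MulAut ↥Y := MulAut.conjNormal
    have hk : π.ker ≤ φ.ker := conjNormal_ker fun a ha q hq => hab a (hYQ ha) q hq
    have hσ : φ d = 1 := by
      obtain ⟨j, hj, hdy⟩ := hlist _ (hYn.conj_mem y hyY d)
      have hj1 : j = 1 := by
        have hn : ∀ n : ℕ, d ^ n * y * (d ^ n)⁻¹ = y ^ (j ^ n) := by
          intro n
          induction n with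
          | zero => simp
          | succ n ih =>
            calc d ^ (n + 1) * y * (d ^ (n + 1))⁻¹ = d ^ n * (d * y * d⁻¹) * (d ^ n)⁻¹ := by
                  rw [pow_succ]; group
              _ = y ^ (j ^ (n + 1)) := by rw [hdy, ← conj_pow, ih, ← pow_mul, ← pow_succ]
        have h7 := hn 7
        rw [hab (d ^ 7) (by rw [MonoidHom.mem_ker, map_pow, hd, D7_pow]) y (hYQ hyY),
          mul_inv_cancel_right] at h7
        have h := (pow_inj_mod (x := y) (n := 1) (m := j ^ 7)).1 (by rw [pow_one]; exact h7)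
        rw [hy4] at h
        interval_cases j <;> first | rfl | norm_num at h
      refine MulEquiv.ext fun a => Subtype.ext ?_
      obtain ⟨i, -, hi⟩ := hlist a a.2
      rw [MulAut.conjNormal_apply, MulAut.one_apply, hi, ← conj_pow, hdy, hj1, pow_one]
    intro g
    have h1 := congrArg (fun ψ : G →* MulAut ↥Y => ((ψ g ⟨y, hyY⟩ : ↥Y) : G)) (hom_eq_one₃ hπ φ hk hd hσ)
    simp only [φ, MulAut.conjNormal_apply, MonoidHom.one_apply, MulAut.one_apply] at h1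
    exact mul_inv_eq_iff_eq_mul.1 h1
  have hYc : ∀ a ∈ Y, ∀ g, g * a = a * g := fun a ha g => by
    obtain ⟨j, -, rfl⟩ := hlist a ha
    exact ((show Commute g y from hyc g).pow_right j).eq
  have hsqmul : ∀ a ∈ π.ker, ∀ b ∈ π.ker, a * b * (a * b) = a * a * (b * b) := fun a ha b hb => by
    rw [mul_assoc a b, ← mul_assoc b a b, hab b hb a ha, mul_assoc a b b, ← mul_assoc]
  -- the squaring maps
  let s : ↥π.ker →* G := MonoidHom.mk' (fun a => (a : G) * a) fun a b => hsqmul a a.2 b b.2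
  let s2 : ↥π.ker →* G := MonoidHom.mk' (fun a => (a : G) * a * ((a : G) * a)) fun a b => by
    rw [Subgroup.coe_mul, hsqmul a a.2 b b.2,
      hsqmul _ (mul_mem a.2 a.2) _ (mul_mem b.2 b.2)]
  have hrs : s.range = Y := le_antisymm (by rintro _ ⟨a, rfl⟩; exact hsq a a.2)
    (Subgroup.zpowers_le.2 ⟨⟨x₀, hx₀⟩, rfl⟩)
  have hfour : ∀ q ∈ π.ker, q * q * (q * q) = 1 ∨ q * q * (q * q) = y * y := fun q hq => by
    obtain ⟨j, hj, hjq⟩ := hlist _ (hsq q hq)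
    rw [hjq, ← pow_add]
    interval_cases j
    · left; rw [Nat.add_zero, pow_zero]
    · right; exact pow_two y
    · left; exact hp4
    · right
      rw [show 3 + 3 = 4 + 2 from rfl, pow_add, hp4, one_mul, pow_two]
  have hyy2 : y * y * (y * y) = 1 := by rw [← pow_two, ← pow_two, ← pow_mul]; exact hp4
  have hrs2 : s2.range = Subgroup.zpowers (y * y) := le_antisymm
    (by
      rintro _ ⟨a, rfl⟩
      rcases hfour a a.2 with h | h
      · show (a : G) * a * ((a : G) * a) ∈ _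
        rw [h]; exact one_mem _
      · show (a : G) * a * ((a : G) * a) ∈ _
        rw [h]; exact Subgroup.mem_zpowers _)
    (Subgroup.zpowers_le.2 ⟨⟨x₀, hx₀⟩, rfl⟩)
  let D := s.ker.map π.ker.subtype
  let Y1 := s2.ker.map π.ker.subtype
  have memD : ∀ q, q ∈ D ↔ q ∈ π.ker ∧ q * q = 1 := fun q =>
    ⟨by rintro ⟨a, ha, rfl⟩; exact ⟨a.2, ha⟩, fun ⟨h1, h2⟩ => ⟨⟨q, h1⟩, h2, rfl⟩⟩
  have memY1 : ∀ q, q ∈ Y1 ↔ q ∈ π.ker ∧ q * q * (q * q) = 1 := fun q =>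
    ⟨by rintro ⟨a, ha, rfl⟩; exact ⟨a.2, ha⟩, fun ⟨h1, h2⟩ => ⟨⟨q, h1⟩, h2, rfl⟩⟩
  have cardD : Nat.card D = 16 := by
    have h := s.ker.card_mul_index
    rw [Subgroup.index_ker, hrs, Nat.card_zpowers, hy4, hcard,
      ← Subgroup.card_map_of_injective π.ker.subtype_injective] at h
    change Nat.card D * 4 = 64 at h
    omega
  have hyyne : y * y ≠ 1 := by rw [← pow_two]; exact hp2
  have cardY1 : Nat.card Y1 = 32 := by
    have h := s2.ker.card_mul_index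
    rw [Subgroup.index_ker, hrs2, Nat.card_zpowers,
      orderOf_eq_prime (p := 2) (by rw [pow_two, hyy2]) hyyne, hcard,
      ← Subgroup.card_map_of_injective π.ker.subtype_injective] at h
    change Nat.card Y1 * 2 = 64 at h
    omega
  have hY_le : Y ≤ Y1 := fun a ha => by
    refine (memY1 a).2 ⟨hYQ ha, ?_⟩
    obtain ⟨j, -, rfl⟩ := hlist a ha
    rw [← pow_add, ← pow_add, show j + j + (j + j) = 4 * j by ring, pow_mul, hp4, one_pow]
  have hY1Q : Y1 ≤ π.ker := fun q h => ((memY1 q).1 h).1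
  haveI hY1n : Y1.Normal := ⟨fun a ha g => by
    obtain ⟨h1, h2⟩ := (memY1 a).1 ha
    refine (memY1 _).2 ⟨(MonoidHom.normal_ker π).conj_mem a h1 g, ?_⟩
    calc g * a * g⁻¹ * (g * a * g⁻¹) * (g * a * g⁻¹ * (g * a * g⁻¹)) = g * (a * a * (a * a)) * g⁻¹ := by
          group
      _ = 1 := by rw [h2]; group⟩
  have hDY1 : D ≤ Y1 := fun q h => (memY1 q).2 ⟨((memD q).1 h).1, by rw [((memD q).1 h).2, one_mul]⟩
  have hcD : ∀ q ∈ π.ker, ∀ g, q⁻¹ * (g * q * g⁻¹) ∈ D := fun q hq g => by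
    have hqg := (MonoidHom.normal_ker π).conj_mem q hq g
    refine (memD _).2 ⟨mul_mem (inv_mem hq) hqg, ?_⟩
    rw [hsqmul _ (inv_mem hq) _ hqg, show g * q * g⁻¹ * (g * q * g⁻¹) = g * (q * q) * g⁻¹ by group,
      hYc _ (hsq q hq) g, mul_inv_cancel_right]
    group
  -- the natural module
  let W := ↥Y1 ⧸ Y.subgroupOf Y1
  have hW8 : Nat.card W = 8 := by
    have h := card_quot_sub hY_le
    rw [show Nat.card Y = 4 by rw [hYdef, Nat.card_zpowers, hy4], cardY1] at h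
    change Nat.card (↥Y1 ⧸ Y.subgroupOf Y1) = 8
    omega
  have hW2 : ∀ v : W, v * v = 1 := quot_sq fun a ha => hsq a (hY1Q ha)
  have hψk : π.ker ≤ (secAut Y1 Y).ker := secAut_ker_of_comm fun q hq a ha => by
    rw [hab q hq a (hY1Q ha), mul_inv_cancel_right, inv_mul_cancel]; exact one_mem Y
  have hψne : secAut Y1 Y ≠ 1 := by
    intro h
    obtain ⟨g, a, ha, hga⟩ := hact
    refine hga (comm_trivial hπ hd (fun b hb => hab b hb a ha) (K := Y1) (fun g => hDY1 (hcD a ha g))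
      (fun b hb g => ?_) (fun b hb => hsq b (hY1Q hb)) g)
    have h1 : secAut Y1 Y g ((⟨b, hb⟩ : ↥Y1) : W) = ((⟨b, hb⟩ : ↥Y1) : W) := by rw [h]; rfl
    rw [secAut_mk, eq_comm, mk_eq_mk_iff, MulAut.conjNormal_apply] at h1
    exact h1
  obtain ⟨e, π', he, hπ's, hπ'k, hπ'⟩ := exists_proj hπ hW2 hW8 (secAut Y1 Y) hψk hψne
  have he1 : e 1 = 0 := by
    have := he 1 1
    rw [mul_one] at this
    exact left_eq_add.1 this
  let ν : G → Fin 3 → ZMod 2 := fun q => if h : q ∈ Y1 then e ((⟨q, h⟩ : ↥Y1) : W) else 0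
  have hν : ∀ a : ↥Y1, ν a = e (a : W) := fun a => by simp only [ν, dif_pos a.2]
  have νadd : ∀ a ∈ Y1, ∀ b ∈ Y1, ν (a * b) = ν a + ν b := fun a ha b hb => by
    have h := hν (⟨a, ha⟩ * ⟨b, hb⟩)
    rw [QuotientGroup.mk_mul, he, ← hν, ← hν] at h
    exact h
  have νzero : ∀ a ∈ Y1, (ν a = 0 ↔ a ∈ Y) := fun a ha => by
    rw [hν ⟨a, ha⟩, ← he1, e.injective.eq_iff, QuotientGroup.eq_one_iff, Subgroup.mem_subgroupOf]
  have νconj : ∀ g, ∀ a ∈ Y1, ν (g * a * g⁻¹) = mv (π' g) (ν a) := fun g a ha => by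
    have h := hπ' g ((⟨a, ha⟩ : ↥Y1) : W)
    rw [secAut_mk, ← hν, ← hν, MulAut.conjNormal_apply] at h
    exact h
  have νsurj : ∀ v, ∃ a ∈ D, ν a = v := by
    intro v
    obtain ⟨a, ha⟩ := QuotientGroup.mk_surjective (e.symm v)
    have hva : ν a = v := by rw [hν a, ha, e.apply_symm_apply]
    obtain ⟨haQ, ha4⟩ := (memY1 a).1 a.2
    rcases hY2 _ (hsq _ haQ) ha4 with h | h
    · exact ⟨a, (memD _).2 ⟨haQ, h⟩, hva⟩
    · refine ⟨(a : G) * y, (memD _).2 ⟨mul_mem haQ (hYQ hyY), ?_⟩, ?_⟩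
      · rw [hsqmul _ haQ _ (hYQ hyY), h, hyy2]
      · rw [νadd _ a.2 _ (hY_le hyY), (νzero y (hY_le hyY)).2 hyY, add_zero, hva]
  have dfix : ∀ v, mv (π' d) v = v → v = 0 := by
    intro v hv
    rcases seven_fixed hW2 (by rw [hW8]; norm_num)
      (σ := secAut Y1 Y d) (by rw [← map_pow]; exact hψk (by rw [MonoidHom.mem_ker, map_pow, hd, D7_pow]))
      (fun h => hψne (hom_eq_one₃ hπ _ hψk hd h)) with ⟨-, h⟩ | ⟨h, -⟩
    · have h1 : e.symm v ∈ fixed (secAut Y1 Y d) := mem_fixed.2 (e.injective (by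
        rw [hπ', e.apply_symm_apply]; exact hv))
      rw [Subgroup.card_eq_one.1 h, Subgroup.mem_bot, e.symm_apply_eq, he1] at h1
      exact h1
    · rw [hW8] at h; omega
  -- a coset fixed by the element of order seven
  have hx1 : x₀ ∉ Y1 := fun h => hx4 (by
    rw [← ((memY1 x₀).1 h).2]; simp only [pow_succ, pow_zero, one_mul, mul_assoc])
  have hxk := hDY1 (hcD x₀ hx₀ d)
  have hinj : Function.Injective fun v => v + mv (π' d) v := by
    intro a b hab'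
    apply vec_eq_of_add
    apply dfix
    have h1 : a + b + mv (π' d) (a + b) = 0 := by
      have h2 : mv (π' d) (a + b) = mv (π' d) a + mv (π' d) b := Matrix.mulVec_add _ _ _
      simp only at hab'
      rw [h2, add_add_add_comm, hab', vec_add_self]
    exact (vec_eq_of_add _ _ h1).symm
  obtain ⟨u, hu⟩ := Finite.injective_iff_surjective.1 hinj (ν (x₀⁻¹ * (d * x₀ * d⁻¹)))
  simp only at hu
  obtain ⟨a, ha, rfl⟩ := νsurj u
  have haY1 := hDY1 ha
  have hx : x₀ * a ∉ Y1 := fun h => hx1 (by simpa using mul_mem h (inv_mem haY1))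
  have E : EightData π π' Y Y1 D (y * y) (x₀ * a) d ν :=
    { surj := hπ
      surj' := hπ's
      ker_eq := hπ'k
      hd := hd
      ab := hab
      card := hcard
      sqY := hsq
      Ycent := hYc
      Ytwo := hY2
      wY := mul_mem hyY hyY
      w2 := hyy2
      wne := hyyne
      four := hfour
      Y_le := hY_le
      memY1 := memY1
      memD := memD
      cardY1 := cardY1
      cardD := cardD
      νadd := νadd
      νzero := νzero
      νconj := νconj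
      νsurj := νsurj
      xQ := mul_mem hx₀ (hY1Q haY1)
      xnot := hx
      δd := by
        have hinv : ν a⁻¹ = ν a := vec_eq_of_add _ _ (by
          rw [← νadd _ (inv_mem haY1) _ haY1, inv_mul_cancel, (νzero 1 (one_mem _)).2 (one_mem Y)])
        have e1 : (x₀ * a)⁻¹ * (d * (x₀ * a) * d⁻¹) =
            a⁻¹ * (x₀⁻¹ * (d * x₀ * d⁻¹)) * (d * a * d⁻¹) := by group
        rw [e1, νadd _ (mul_mem (inv_mem haY1) hxk) _ (hY1n.conj_mem a haY1 d),
          νadd _ (inv_mem haY1) _ hxk, νconj d a haY1, hinv, ← hu, ← add_assoc, vec_add_self, zero_add,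
          vec_add_self]
      dfix := dfix }
  by_cases hmove : ∃ g, ν ((x₀ * a)⁻¹ * (g * (x₀ * a) * g⁻¹)) ≠ 0
  · exact E.false_moved hR hmove
  · exact E.false_fixed hR fun g => not_not.1 fun h => hmove ⟨g, h⟩

end CfsgLib.SmallRadical
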