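import Cfsg.Agent.SmallRadical.Linear

/-! The Frattini part of order sixteen, and the centrality. -/

set_option autoImplicit false

namespace CfsgLib.SmallRadical

/-- On a group of order eight with a fixed point free element of order seven, an invariant predicate
is all or nothing away from the identity. -/
theorem const_eight {W : Type*} [Group W] [Finite W] (h8 : Nat.card W = 8) {σ : MulAut W}
    (h7 : σ ^ 7 = 1) (hfix : ∀ w, σ w = w → w = 1) (P : W → Prop) (hP : ∀ v, P (σ v) ↔ P v) {x : W}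
    (hx1 : x ≠ 1) (hPx : P x) : ∀ y, y ≠ 1 → P y := by
  haveI : Fact (Nat.Prime 7) := ⟨by norm_num⟩
  classical
  haveI := Fintype.ofFinite W
  have hperm : (MulEquiv.toEquiv σ : Equiv.Perm W) ^ 7 = 1 := by
    have := congrArg (MulAut.toPerm W) h7
    rwa [map_pow, map_one] at this
  have h := modEq_one_of_invariant _ 7 hperm (fun v => v = 1 ∨ P v)
    (fun v => by
      show σ v = 1 ∨ P (σ v) ↔ v = 1 ∨ P v
      rw [hP, MulEquiv.map_eq_one_iff]) (a₀ := 1) (Or.inl rfl) (map_one σ) hfix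
  have h2 : 2 ≤ Nat.card {v : W // v = 1 ∨ P v} := by
    rw [Nat.card_eq_fintype_card, Fintype.card_subtype, ← Finset.card_pair (Ne.symm hx1)]
    refine Finset.card_le_card fun v hv => ?_
    rw [Finset.mem_filter]
    simp only [Finset.mem_insert, Finset.mem_singleton] at hv
    rcases hv with rfl | rfl
    exacts [⟨Finset.mem_univ _, Or.inl rfl⟩, ⟨Finset.mem_univ _, Or.inr hPx⟩]
  have h3 : Nat.card {v : W // v = 1 ∨ P v} ≤ 8 := (Finite.card_subtype_le _).trans h8.le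
  rw [Nat.ModEq] at h
  have h4 : Nat.card {v : W // v = 1 ∨ P v} = Nat.card W := by omega
  intro y hy
  by_contra hPy
  have h5 : Nat.card {v : W // v = 1 ∨ P v} < Nat.card W := by
    rw [Nat.card_eq_fintype_card, Nat.card_eq_fintype_card]
    exact Fintype.card_subtype_lt (x := y) (by simp [hy, hPy])
  omega

/-- Three independent vectors in a subgroup of order eight. -/
theorem exists_three {V : Type*} [Group V] [Finite V] (h2 : ∀ v : V, v * v = 1) (H : Subgroup V)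
    (hH : Nat.card H = 8) : ∃ a ∈ H, ∃ b ∈ H, ∃ e ∈ H,
      a ≠ 1 ∧ b ≠ 1 ∧ e ≠ 1 ∧ b * e ≠ 1 ∧ a * b ≠ 1 ∧ a * e ≠ 1 ∧ a * (b * e) ≠ 1 := by
  obtain ⟨f, hf⟩ := exists_coord (W := ↥H) (fun v => Subtype.ext (h2 v)) hH
  have hs : ∀ x y, f.symm (x + y) = f.symm x * f.symm y := fun x y => by
    rw [Equiv.symm_apply_eq, hf, f.apply_symm_apply, f.apply_symm_apply]
  have hne : ∀ x, x ≠ 0 → ((f.symm x : ↥H) : V) ≠ 1 := fun x hx h => hx (by
    have h1 : f.symm x = 1 := Subtype.ext h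
    have h2 : f 1 = 0 := by
      have := hf 1 1
      rw [mul_one] at this
      exact left_eq_add.1 this
    rw [← f.apply_symm_apply x, h1, h2])
  refine ⟨f.symm ![1, 0, 0], SetLike.coe_mem _, f.symm ![0, 1, 0], SetLike.coe_mem _,
    f.symm ![0, 0, 1], SetLike.coe_mem _, hne _ (by decide), hne _ (by decide), hne _ (by decide), ?_⟩
  simp only [← Subgroup.coe_mul, ← hs]
  exact ⟨hne _ (by decide), hne _ (by decide), hne _ (by decide), hne _ (by decide)⟩

variable {G : Type*} [Group G] [Finite G] {π : G →* SL32} {F : Subgroup G}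

namespace Ctx3

variable (c : Ctx3 π F)
include c

/-- The case of a fixed point. -/
theorem false_large_fixed [F.Normal] (hF : Nat.card F = 16) {d : G} (hd : π d = D7) {u : ↥F}
    (s : Seven ↥F (MulAut.conjNormal d) u) (hu : ∀ g : G, g * (u : G) = u * g) : False := by
  haveI : Fact (Nat.Prime 2) := ⟨Nat.prime_two⟩
  have hu2 : (u : G) * u = 1 := c.exp _ u.2
  have hu1 : (u : G) ≠ 1 := fun h => s.ne_one (Subtype.ext h)
  have hN : ∀ n ∈ Subgroup.zpowers (u : G), n = 1 ∨ n = u := by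
    rintro _ ⟨m, rfl⟩
    rcases Int.even_or_odd m with ⟨j, rfl⟩ | ⟨j, rfl⟩
    · left
      show (u : G) ^ (j + j) = 1
      rw [← two_mul, zpow_mul, zpow_two, hu2, one_zpow]
    · right
      show (u : G) ^ (2 * j + 1) = u
      rw [zpow_add, zpow_one, zpow_mul, zpow_two, hu2, one_zpow, one_mul]
  haveI : (Subgroup.zpowers (u : G)).Normal := ⟨fun n hn g => by
    rcases hN n hn with rfl | rfl
    · simp
    · rw [hu, mul_inv_cancel_right]; exact Subgroup.mem_zpowers _⟩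
  set N := Subgroup.zpowers (u : G) with hNdef
  have hNF : N ≤ F := Subgroup.zpowers_le.2 u.2
  set p := QuotientGroup.mk' N with hp
  obtain ⟨π', hker, c'⟩ := c.quot N (hNF.trans c.le) (by
    obtain ⟨g, a, ha, h⟩ := c.act
    exact ⟨g, a, ha, by rwa [sup_eq_left.2 hNF]⟩)
  haveI := c'.normal
  have hN2 : Nat.card N = 2 := by
    rw [hNdef, Nat.card_zpowers, orderOf_eq_prime (by rw [pow_two, hu2]) hu1]
  have hmapcard : ∀ K : Subgroup G, N ≤ K → 2 * Nat.card (K.map p) = Nat.card K := by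
    intro K hK
    have h4 := (N.subgroupOf K).card_mul_index
    rw [Nat.card_congr (Subgroup.subgroupOfEquivOfLe hK).toEquiv, hN2] at h4
    have h6 : (N.subgroupOf K).index = Nat.card (K.map p) := by
      rw [Subgroup.index, show K.map p = (p.comp K.subtype).range by
        rw [MonoidHom.range_comp, Subgroup.range_subtype]]
      refine Nat.card_congr ((QuotientGroup.quotientMulEquivOfEq ?_).trans
        (QuotientGroup.quotientKerEquivRange (p.comp K.subtype))).toEquiv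
      ext x
      rw [Subgroup.mem_subgroupOf, MonoidHom.mem_ker]
      exact (QuotientGroup.eq_one_iff _).symm
    rw [← h6]
    exact h4
  have hF' : Nat.card (F.map p) = 8 := by
    have := hmapcard F hNF
    omega
  have hV' : Nat.card (↥π'.ker ⧸ (F.map p).subgroupOf π'.ker) =
      Nat.card (↥π.ker ⧸ F.subgroupOf π.ker) := by
    have h1 := card_quot_sub c'.le
    have h2 := card_quot_sub c.le
    have h3 : 2 * Nat.card π'.ker = Nat.card π.ker := by rw [hker]; exact hmapcard _ (hNF.trans c.le)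
    rw [← hp, hF'] at h1
    rw [hF] at h2
    omega
  have hact' : ∃ g, ∃ w ∈ F.map p, g * w ≠ w * g := by
    obtain ⟨v, hv, hne⟩ := moves_diffs s
    refine ⟨p d, p v, ⟨v, v.2, rfl⟩, fun h => ?_⟩
    rw [← map_mul, ← map_mul, hp, QuotientGroup.mk'_apply, QuotientGroup.mk'_apply, QuotientGroup.eq] at h
    have hw := mul_mem (inv_mem hv) (diffs_apply (h2 := s.h2) hv)
    have h1 := ‹N.Normal›.conj_mem _ (inv_mem h) d
    have e : d * ((d * (v : G))⁻¹ * (v * d))⁻¹ * d⁻¹ =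
        ((v⁻¹ * MulAut.conjNormal d v : ↥F) : G) := by
      rw [Subgroup.coe_mul, Subgroup.coe_inv, MulAut.conjNormal_apply]
      group
    rw [e] at h1
    rcases hN _ h1 with h2 | h2
    · exact hne (Subtype.ext h2)
    · rw [show v⁻¹ * MulAut.conjNormal d v = u from Subtype.ext h2] at hw
      exact s.z_notMem hw
  rcases c'.card_cases with h | h
  · exact c'.false_small h hF' hact'
  · exact c'.false_mid h hF' hact'

set_option maxHeartbeats 1000000 in
/-- The large case. -/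
theorem false_large [F.Normal] (hF : Nat.card F = 16)
    (hactF : ∃ g : G, ∃ w ∈ F, g * w ≠ w * g) : False := by
  classical
  obtain ⟨d, hd⟩ := c.surj D7
  let χ : G →* MulAut ↥F := MulAut.conjNormal
  have hχk : π.ker ≤ χ.ker := conjNormal_ker c.cent
  obtain ⟨u, su⟩ := seven_of (W := ↥F) (fun w => Subtype.ext (c.exp w w.2)) hF (c.pow_seven χ hχk hd)
    (fun e => conjNormal_ne_one hactF (hom_eq_one₃ c.surj χ hχk hd e))
  by_cases hufix : ∀ g, χ g u = u
  · exact c.false_large_fixed hF hd su fun g => mul_inv_eq_iff_eq_mul.1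
      ((MulAut.conjNormal_apply g u).symm.trans (congrArg Subtype.val (hufix g)))
  have hUinv := (split16 c.surj hχk hd su).resolve_left hufix
  set U := diffs su.h2 (χ d) with hU
  let W := U.map F.subtype
  have hWF : W ≤ F := Subgroup.map_subtype_le U
  have hWmem : ∀ f : ↥F, (f : G) ∈ W ↔ f ∈ U := fun f => Subgroup.mem_map_iff_mem F.subtype_injective
  haveI hWn : W.Normal := ⟨by
    rintro _ ⟨f, hf, rfl⟩ g
    exact ⟨χ g f, hUinv g f hf, MulAut.conjNormal_apply g f⟩⟩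
  have hW8 : Nat.card W = 8 := by
    rw [Subgroup.card_map_of_injective F.subtype_injective]; exact su.card_diffs
  have hxor : ∀ a ∈ F, ∀ b ∈ F, (a * b ∈ W ↔ (a ∈ W ↔ b ∈ W)) := by
    intro a ha b hb
    have h1 := Subgroup.mul_mem_iff_of_index_two su.index_diffs (a := (⟨a, ha⟩ : ↥F)) (b := ⟨b, hb⟩)
    rw [← hWmem, ← hWmem, ← hWmem] at h1
    exact h1
  have huW : (u : G) ∉ W := fun h => su.z_notMem ((hWmem u).1 h)
  have hactW : ∃ g : G, ∃ w ∈ W, g * w ≠ w * g := by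
    obtain ⟨v, hv, hne⟩ := moves_diffs su
    refine ⟨d, v, (hWmem v).2 hv, fun h => hne ?_⟩
    rw [inv_mul_eq_one]
    apply Subtype.ext
    rw [MulAut.conjNormal_apply, h, mul_inv_cancel_right]
  have hnofix : ∀ f ∈ F, f ∉ W → ¬ ∀ g, g * f * g⁻¹ = f := by
    intro f hf hfW h
    have h1 : χ d ⟨f, hf⟩ = ⟨f, hf⟩ := Subtype.ext (by rw [MulAut.conjNormal_apply]; exact h d)
    rcases (su.fix _).1 h1 with e | e
    · rw [show f = 1 from congrArg Subtype.val e] at hfW; exact hfW W.one_mem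
    · exact hufix fun g => by
        rw [← e]
        exact Subtype.ext (by rw [MulAut.conjNormal_apply]; exact h g)
  -- the polar
  let κ : G → G → G := fun a b => a⁻¹ * (b * a * b⁻¹)
  have hκF : ∀ a ∈ π.ker, ∀ b ∈ π.ker, κ a b ∈ F := fun a ha b hb => c.comm_mem ha hb
  have hκr : ∀ a ∈ π.ker, ∀ b ∈ π.ker, ∀ e ∈ π.ker, κ a (b * e) = κ a b * κ a e := by
    intro a ha b hb e he
    have h1 : κ a (b * e) = a⁻¹ * b * a * (κ a e * b⁻¹) := by simp only [κ]; group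
    rw [h1, c.cent _ (hκF a ha e he) _ (inv_mem hb)]
    simp only [κ]
    group
  have hκl : ∀ a ∈ π.ker, ∀ b ∈ π.ker, ∀ e ∈ π.ker, κ (a * b) e = κ a e * κ b e := by
    intro a ha b hb e he
    have h1 : κ (a * b) e = b⁻¹ * κ a e * (e * b * e⁻¹) := by simp only [κ]; group
    rw [h1, ← c.cent _ (hκF a ha e he) _ (inv_mem hb)]
    simp only [κ]
    group
  have hκf : ∀ f ∈ F, ∀ e ∈ π.ker, κ f e = 1 := by
    intro f hf e he
    simp only [κ]
    rw [← c.cent f hf e he]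
    group
  have hκf' : ∀ a ∈ π.ker, ∀ f ∈ F, κ a f = 1 := by
    intro a ha f hf
    simp only [κ]
    rw [c.cent f hf a ha]
    group
  have hsqmul : ∀ a ∈ π.ker, ∀ b ∈ π.ker, a * b * (a * b) = a * a * κ a b * (b * b) := fun a _ b _ => by
    simp only [κ]; group
  have hgenW : ¬ ∀ q ∈ π.ker, q * q ∈ W := fun h => huW (by
    refine (c.gen.trans ?_) u.2
    rw [Subgroup.closure_le]
    rintro _ ⟨q, hq, rfl⟩
    exact h q hq)
  let ψ := secAut π.ker F
  have hmk : ∀ a b : ↥π.ker, (a : ↥π.ker ⧸ F.subgroupOf π.ker) = b ↔ (a : G)⁻¹ * b ∈ F :=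
    mk_eq_mk_iff π.ker F
  have hsqwd : ∀ a b : ↥π.ker, (a : ↥π.ker ⧸ F.subgroupOf π.ker) = b → (a : G) * a = (b : G) * b := by
    intro a b hab
    rw [hmk] at hab
    generalize hf : (a : G)⁻¹ * b = f at hab
    have hb : (b : G) = a * f := by rw [← hf]; group
    rw [hb, mul_assoc, ← mul_assoc f, c.cent f hab a a.2, mul_assoc (a : G) f f, c.exp f hab, mul_one]
  have hmkmul : ∀ a b : ↥π.ker, ((a * b : ↥π.ker) : ↥π.ker ⧸ F.subgroupOf π.ker) =
      (a : ↥π.ker ⧸ F.subgroupOf π.ker) * b := fun a b => rfl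
  have hsqinv : ∀ g (a : ↥π.ker), ((MulAut.conjNormal g a : ↥π.ker) : G) * (MulAut.conjNormal g a : ↥π.ker) =
      g * ((a : G) * a) * g⁻¹ := fun g a => by rw [MulAut.conjNormal_apply]; group
  have hWconj : ∀ g x, g * x * g⁻¹ ∈ W ↔ x ∈ W := fun g x => by
    refine ⟨fun h => ?_, fun h => hWn.conj_mem x h g⟩
    have := hWn.conj_mem _ h g⁻¹
    simpa [mul_assoc] using this
  -- squares on a subgroup of order eight with constant predicates
  have allW : ∀ H : Subgroup (↥π.ker ⧸ F.subgroupOf π.ker), Nat.card H = 8 →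
      (∀ P : (↥π.ker ⧸ F.subgroupOf π.ker) → Prop, (∀ v, P (ψ d v) ↔ P v) → ∀ x ∈ H, x ≠ 1 → P x →
        ∀ y ∈ H, y ≠ 1 → P y) →
      ∀ a : ↥π.ker, (a : ↥π.ker ⧸ F.subgroupOf π.ker) ∈ H → (a : G) * a ∈ W := by
    intro H hH hconst a haH
    let P : (↥π.ker ⧸ F.subgroupOf π.ker) → Prop := fun v =>
      ∀ b : ↥π.ker, (b : ↥π.ker ⧸ F.subgroupOf π.ker) = v → (b : G) * b ∈ W
    have hPmk : ∀ b : ↥π.ker, P b ↔ (b : G) * b ∈ W := fun b =>
      ⟨fun h => h b rfl, fun h b' hb' => by rw [hsqwd b' b hb']; exact h⟩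
    have hPinv : ∀ v, P (ψ d v) ↔ P v := by
      intro v
      obtain ⟨b, rfl⟩ := QuotientGroup.mk_surjective v
      rw [secAut_mk, hPmk, hPmk, hsqinv, hWconj]
    by_cases h1 : (a : ↥π.ker ⧸ F.subgroupOf π.ker) = 1
    · rw [QuotientGroup.eq_one_iff, Subgroup.mem_subgroupOf] at h1
      rw [c.exp _ h1]; exact W.one_mem
    rw [← hPmk]
    by_contra hnot
    have hall : ∀ b : ↥π.ker, (b : ↥π.ker ⧸ F.subgroupOf π.ker) ∈ H →
        (b : ↥π.ker ⧸ F.subgroupOf π.ker) ≠ 1 → (b : G) * b ∉ W := fun b hb hb1 h =>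
      hnot (hconst P hPinv _ hb hb1 ((hPmk b).2 h) _ haH h1)
    obtain ⟨x, hx, y, hy, z, hz, h1, h2, h3, h4, h5, h6, h7⟩ := exists_three (quot_sq c.sq) H hH
    obtain ⟨x, rfl⟩ := QuotientGroup.mk_surjective x
    obtain ⟨y, rfl⟩ := QuotientGroup.mk_surjective y
    obtain ⟨z, rfl⟩ := QuotientGroup.mk_surjective z
    have key : ∀ a b : ↥π.ker, (a : ↥π.ker ⧸ F.subgroupOf π.ker) ∈ H → (b : ↥π.ker ⧸ F.subgroupOf π.ker) ∈ H →
        (a : ↥π.ker ⧸ F.subgroupOf π.ker) ≠ 1 → (b : ↥π.ker ⧸ F.subgroupOf π.ker) ≠ 1 →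
        (a : ↥π.ker ⧸ F.subgroupOf π.ker) * b ≠ 1 → κ a b ∉ W := by
      intro a b ha hb ha1 hb1 hab hk
      refine hall (a * b) (by rw [hmkmul]; exact mul_mem ha hb) (by rw [hmkmul]; exact hab) ?_
      rw [Subgroup.coe_mul, hsqmul _ a.2 _ b.2, hxor _ (F.mul_mem (c.sq _ a.2) (hκF _ a.2 _ b.2)) _ (c.sq _ b.2),
        hxor _ (c.sq _ a.2) _ (hκF _ a.2 _ b.2)]
      simp [hall a ha ha1, hall b hb hb1, hk]
    have e1 := key x y hx hy h1 h2 h5
    have e2 := key x z hx hz h1 h3 h6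
    have e3 := key x (y * z) hx (by rw [hmkmul]; exact mul_mem hy hz) h1 (by rw [hmkmul]; exact h4)
      (by rw [hmkmul]; exact h7)
    rw [Subgroup.coe_mul, hκr _ x.2 _ y.2 _ z.2, hxor _ (hκF _ x.2 _ y.2) _ (hκF _ x.2 _ z.2)] at e3
    exact e3 (iff_of_false e1 e2)
  have hsec7 := c.pow_seven (secAut π.ker F) c.sec_ker hd
  have hsecne : secAut π.ker F d ≠ 1 := fun e => c.sec_ne (hom_eq_one₃ c.surj _ c.sec_ker hd e)
  rcases c.card_cases with hV | hV
  · refine hgenW fun q hq => allW ⊤ (by rw [Subgroup.card_top]; exact hV) ?_ ⟨q, hq⟩ (Subgroup.mem_top _)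
    intro P hP x _ hx1 hPx y _ hy
    refine const_eight hV hsec7 ?_ P hP hx1 hPx y hy
    rcases seven_fixed (quot_sq c.sq) (hV.le.trans (by norm_num)) hsec7 hsecne with ⟨-, h⟩ | ⟨h, -⟩
    · intro v hv
      exact Subgroup.mem_bot.1 ((Subgroup.card_eq_one.1 h) ▸ mem_fixed.2 hv)
    · rw [hV] at h; omega
  obtain ⟨z, s⟩ := c.seven_V hV hd
  obtain ⟨z0, rfl⟩ := QuotientGroup.mk_surjective z
  have hzQ : (z0 : G) ∈ π.ker := z0.2
  set H0 := diffs s.h2 (ψ d) with hH0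
  have hallH : ∀ a : ↥π.ker, (a : ↥π.ker ⧸ F.subgroupOf π.ker) ∈ H0 → (a : G) * a ∈ W :=
    allW H0 s.card_diffs fun P hP x hx hx1 hPx y hy hy1 => s.const_diffs P hP hx hx1 hPx y hy hy1
  -- the polar with the fixed element
  have hdz : (z0 : G)⁻¹ * (d * z0 * d⁻¹) ∈ F := by
    have h1 := ((s.fix _).2 (Or.inr rfl) : ψ d (z0 : ↥π.ker ⧸ F.subgroupOf π.ker) = z0)
    rw [secAut_mk, eq_comm, hmk, MulAut.conjNormal_apply] at h1
    exact h1
  let R : (↥π.ker ⧸ F.subgroupOf π.ker) → Prop := fun v =>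
    ∀ b : ↥π.ker, (b : ↥π.ker ⧸ F.subgroupOf π.ker) = v → κ b z0 ∈ W
  have hκwd : ∀ a b : ↥π.ker, (a : ↥π.ker ⧸ F.subgroupOf π.ker) = b → κ a z0 = κ b z0 := by
    intro a b hab
    rw [hmk] at hab
    have hb : (b : G) = a * ((a : G)⁻¹ * b) := by group
    rw [hb, hκl _ a.2 _ (c.le hab) _ hzQ, hκf _ hab _ hzQ, mul_one]
  have hRmk : ∀ b : ↥π.ker, R b ↔ κ b z0 ∈ W := fun b =>
    ⟨fun h => h b rfl, fun h b' hb' => by rw [hκwd b' b hb']; exact h⟩
  have hRinv : ∀ v, R (ψ d v) ↔ R v := by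
    intro v
    obtain ⟨b, rfl⟩ := QuotientGroup.mk_surjective v
    rw [secAut_mk, hRmk, hRmk, MulAut.conjNormal_apply]
    have e : d * κ b z0 * d⁻¹ = κ (d * b * d⁻¹) (z0 * ((z0 : G)⁻¹ * (d * z0 * d⁻¹))) := by
      simp only [κ]; group
    have hbQ : d * (b : G) * d⁻¹ ∈ π.ker := (MonoidHom.normal_ker π).conj_mem _ b.2 d
    rw [hκr _ hbQ _ hzQ _ (c.le hdz), hκf' _ hbQ _ hdz, mul_one] at e
    rw [← e, hWconj]
  have hκH : ∀ a : ↥π.ker, (a : ↥π.ker ⧸ F.subgroupOf π.ker) ∈ H0 → κ a z0 ∈ W := by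
    intro a haH
    by_cases h1 : (a : ↥π.ker ⧸ F.subgroupOf π.ker) = 1
    · rw [QuotientGroup.eq_one_iff, Subgroup.mem_subgroupOf] at h1
      rw [hκf _ h1 _ hzQ]; exact W.one_mem
    rw [← hRmk]
    obtain ⟨x, hx, y, hy, -, -, hx1, hy1, -, -, hxy, -, -⟩ := exists_three s.h2 H0 s.card_diffs
    by_cases hRx : R x
    · exact s.const_diffs R hRinv hx hx1 hRx _ haH h1
    by_cases hRy : R y
    · exact s.const_diffs R hRinv hy hy1 hRy _ haH h1
    refine s.const_diffs R hRinv (mul_mem hx hy) hxy ?_ _ haH h1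
    obtain ⟨x, rfl⟩ := QuotientGroup.mk_surjective x
    obtain ⟨y, rfl⟩ := QuotientGroup.mk_surjective y
    rw [hRmk] at hRx hRy
    rw [← hmkmul, hRmk, Subgroup.coe_mul, hκl _ x.2 _ y.2 _ hzQ,
      hxor _ (hκF _ x.2 _ hzQ) _ (hκF _ y.2 _ hzQ)]
    exact iff_of_false hRx hRy
  let P := pre H0
  have hPQ : P ≤ π.ker := pre_le H0
  have hFP : F ≤ P := le_pre c.le H0
  have hzP : (z0 : G) ∉ P := fun h => s.z_notMem (mem_pre.1 h).2
  have hsplit : ∀ q ∈ π.ker, q ∉ P → (z0 : G)⁻¹ * q ∈ P := by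
    intro q hq hqP
    refine mem_pre.2 ⟨mul_mem (inv_mem hzQ) hq, ?_⟩
    rw [show (⟨(z0 : G)⁻¹ * q, mul_mem (inv_mem hzQ) hq⟩ : ↥π.ker) = z0⁻¹ * ⟨q, hq⟩ from rfl,
      QuotientGroup.mk_mul, QuotientGroup.mk_inv]
    exact (Subgroup.mul_mem_iff_of_index_two s.index_diffs).2 (iff_of_false
      (fun h => s.z_notMem (inv_mem_iff.1 h)) (fun h => hqP (mem_pre.2 ⟨hq, h⟩)))
  have hκz : ∀ p ∈ P, κ (z0 : G) p = (κ p z0)⁻¹ := by
    intro p hp
    have hpQ := hPQ hp
    have h1 := hκr p hpQ _ hzQ _ (inv_mem hzQ)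
    rw [mul_inv_cancel, hκf' p hpQ 1 F.one_mem] at h1
    have h2 : κ p (z0 : G)⁻¹ = κ (z0 : G) p := by
      have e : κ (z0 : G) p = p * κ p (z0 : G)⁻¹ * p⁻¹ := by simp only [κ]; group
      rw [e, ← c.cent _ (hκF _ hpQ _ (inv_mem hzQ)) p hpQ, mul_inv_cancel_right]
    rw [← h2]
    exact eq_inv_of_mul_eq_one_right h1.symm
  have hsqP : ∀ a ∈ P, a * a ∈ W := fun a ha => hallH ⟨a, hPQ ha⟩ (mem_pre.1 ha).2
  have hz0W : (z0 : G) * z0 ∉ W := by
    intro h
    refine hgenW fun q hq => ?_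
    by_cases hqP : q ∈ P
    · exact hsqP q hqP
    · have hp := hsplit q hq hqP
      have e : q = (z0 : G) * ((z0 : G)⁻¹ * q) := by group
      rw [e, hsqmul _ hzQ _ (hPQ hp), hκz _ hp]
      exact W.mul_mem (W.mul_mem h (W.inv_mem (hκH ⟨_, hPQ hp⟩ (mem_pre.1 hp).2))) (hsqP _ hp)
  have hPiff : ∀ q ∈ π.ker, q * q ∈ W → q ∈ P := by
    intro q hq h
    by_contra hqP
    have hp := hsplit q hq hqP
    have e : q = (z0 : G) * ((z0 : G)⁻¹ * q) := by group
    rw [e, hsqmul _ hzQ _ (hPQ hp), hκz _ hp] at h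
    apply hz0W
    have := W.mul_mem (W.mul_mem h (W.inv_mem (hsqP _ hp))) (hκH ⟨_, hPQ hp⟩ (mem_pre.1 hp).2)
    simpa [mul_assoc] using this
  haveI hPn : P.Normal := ⟨fun p hp g => hPiff _ ((MonoidHom.normal_ker π).conj_mem p (hPQ hp) g) (by
    have e : g * p * g⁻¹ * (g * p * g⁻¹) = g * (p * p) * g⁻¹ := by group
    rw [e]
    exact hWn.conj_mem _ (hsqP p hp) g)⟩
  have hcP : Nat.card P = 8 * Nat.card F := by rw [card_pre c.le, s.card_diffs]
  have hactP : ∃ g : G, ∃ a ∈ P, a⁻¹ * (g * a * g⁻¹) ∉ F := by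
    obtain ⟨v, hv, hne⟩ := moves_diffs s
    obtain ⟨a, rfl⟩ := QuotientGroup.mk_surjective v
    refine ⟨d, a, mem_pre.2 ⟨a.2, hv⟩, fun h => hne ?_⟩
    rw [inv_mul_eq_one, secAut_mk, hmk, MulAut.conjNormal_apply]
    exact h
  have hWQ : ∀ w ∈ W, ∀ q ∈ π.ker, w * q = q * w := fun w hw => c.cent w (hWF hw)
  obtain ⟨hab, hker, hroot⟩ := square_linear c.surj c.rank (P := P) (F := F) (W := W) hFP hPQ hWF
    c.exp (fun f hf a ha => c.cent f hf a (hPQ ha)) hWQ (fun q hq a ha => c.comm_mem (hPQ ha) hq)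
    hcP hW8 hsqP hactP hactW
  have hgz : ∀ g, (z0 : G)⁻¹ * (g * z0 * g⁻¹) ∈ P := fun g => by
    refine hsplit _ ((MonoidHom.normal_ker π).conj_mem _ hzQ g) fun h => hzP ?_
    have := hPn.conj_mem _ h g⁻¹
    simpa [mul_assoc] using this
  -- the action of the fixed element on `P`
  have hVP8 : Nat.card (↥P ⧸ F.subgroupOf P) = 8 := by
    have := card_quot_sub hFP
    rw [hcP] at this
    exact Nat.eq_of_mul_eq_mul_right Nat.card_pos this
  obtain ⟨e, π₁, he, hπ₁, -, hπe⟩ := exists_proj c.surj (quot_sq fun a ha => hWF (hsqP a ha)) hVP8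
    (secAut P F) (secAut_ker_of_comm fun q hq a ha => c.comm_mem (hPQ ha) hq) (secAut_ne_one' hactP)
  have he1 : e 1 = 0 := by
    have := he 1 1
    rw [mul_one] at this
    exact left_eq_add.1 this
  have hrt : ∀ a : ↥P, ∃ b : ↥P, (b : G) * b = κ a z0 := fun a => by
    obtain ⟨b, hb, hb'⟩ := hroot _ (hκH ⟨a, hPQ a.2⟩ (mem_pre.1 a.2).2)
    exact ⟨⟨b, hb⟩, hb'⟩
  choose rt hrt using hrt
  have huniq : ∀ b b' : ↥P, (b : G) * b = (b' : G) * b' →
      (b : ↥P ⧸ F.subgroupOf P) = (b' : ↥P ⧸ F.subgroupOf P) := by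
    intro b b' h
    rw [mk_eq_mk_iff]
    refine hker _ (P.mul_mem (P.inv_mem b.2) b'.2) ?_
    have hcb : (b' : G) * (b : G)⁻¹ = (b : G)⁻¹ * b' := hab _ b'.2 _ (P.inv_mem b.2)
    calc (b : G)⁻¹ * b' * ((b : G)⁻¹ * b') = (b : G)⁻¹ * ((b' : G) * (b : G)⁻¹) * b' := by group
      _ = ((b : G) * b)⁻¹ * ((b' : G) * b') := by rw [hcb]; group
      _ = 1 := by rw [h, inv_mul_cancel]
  choose L hL using fun x : Fin 3 → ZMod 2 => QuotientGroup.mk_surjective (e.symm x)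
  have hκPwd : ∀ a b : ↥P, (a : ↥P ⧸ F.subgroupOf P) = b → κ a z0 = κ b z0 := fun a b h =>
    hκwd ⟨a, hPQ a.2⟩ ⟨b, hPQ b.2⟩ ((hmk ⟨a, hPQ a.2⟩ ⟨b, hPQ b.2⟩).2 ((mk_eq_mk_iff P F a b).1 h))
  let β : (Fin 3 → ZMod 2) →+ (Fin 3 → ZMod 2) :=
    AddMonoidHom.mk' (fun x => e (rt (L x) : ↥P ⧸ F.subgroupOf P)) fun x y => by
      rw [← he, ← QuotientGroup.mk_mul]
      congr 1
      refine huniq _ _ ?_
      have h1 : κ (L (x + y)) z0 = κ (L x) z0 * κ (L y) z0 := by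
        rw [← hκl _ (hPQ (L x).2) _ (hPQ (L y).2) _ hzQ, ← Subgroup.coe_mul]
        refine hκPwd _ _ (e.injective ?_)
        rw [hL, e.apply_symm_apply, QuotientGroup.mk_mul, he, hL, hL, e.apply_symm_apply, e.apply_symm_apply]
      rw [hrt, h1, ← hrt, ← hrt, Subgroup.coe_mul]
      simp only [mul_assoc]
      congr 1
      rw [← mul_assoc, ← mul_assoc, hab _ (rt (L y)).2 _ (rt (L x)).2]
  have hβ : ∀ (g : SL32) x, β ((g : Matrix (Fin 3) (Fin 3) (ZMod 2)).mulVec x) =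
      (g : Matrix (Fin 3) (Fin 3) (ZMod 2)).mulVec (β x) := by
    intro g x
    obtain ⟨g, rfl⟩ := hπ₁ g
    show e _ = Matrix.mulVec _ (e _)
    rw [← hπe, secAut_mk]
    congr 1
    refine huniq _ _ ?_
    rw [hrt, MulAut.conjNormal_apply]
    have hxQ := hPQ (hPn.conj_mem _ (L x).2 g)
    have h1 : κ (L ((π₁ g : Matrix (Fin 3) (Fin 3) (ZMod 2)).mulVec x)) z0 = κ (g * (L x : G) * g⁻¹) z0 := by
      have h2 : (L ((π₁ g : Matrix (Fin 3) (Fin 3) (ZMod 2)).mulVec x) : ↥P ⧸ F.subgroupOf P) =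
          secAut P F g (L x : ↥P ⧸ F.subgroupOf P) := e.injective (by
        rw [hL, e.apply_symm_apply, hπe, hL, e.apply_symm_apply])
      rw [secAut_mk] at h2
      rw [hκPwd _ _ h2, MulAut.conjNormal_apply]
    have h3 : g * κ (L x) z0 * g⁻¹ = κ (g * (L x : G) * g⁻¹) z0 := by
      have e1 : g * κ (L x) z0 * g⁻¹ = κ (g * (L x : G) * g⁻¹) ((z0 : G) * ((z0 : G)⁻¹ * (g * z0 * g⁻¹))) := by
        simp only [κ]; group
      rw [e1, hκr _ hxQ _ hzQ _ (hPQ (hgz g))]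
      have e2 : κ (g * (L x : G) * g⁻¹) ((z0 : G)⁻¹ * (g * z0 * g⁻¹)) = 1 := by
        simp only [κ]
        rw [hab _ (hgz g) _ (hPn.conj_mem _ (L x).2 g)]
        group
      rw [e2, mul_one]
    rw [h1, ← h3, ← hrt]
    group
  have hβdef : ∀ a : ↥P, β (e a) = e (rt a : ↥P ⧸ F.subgroupOf P) := by
    intro a
    show e _ = e _
    congr 1
    refine huniq _ _ ?_
    rw [hrt, hrt]
    exact hκPwd _ _ (by rw [hL, e.symm_apply_apply])
  rcases scalar_hom β hβ with hzero | hid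
  swap
  · -- inversion
    apply hnofix _ (c.sq _ hzQ) hz0W
    intro g
    have hp := hgz g
    generalize hp' : (z0 : G)⁻¹ * (g * z0 * g⁻¹) = p at hp
    have e1 : g * ((z0 : G) * z0) * g⁻¹ = (z0 : G) * p * (z0 * p) := by rw [← hp']; group
    have h1 : κ p z0 = p * p := by
      have h2 := hid (e (⟨p, hp⟩ : ↥P))
      rw [hβdef, e.injective.eq_iff] at h2
      rw [← hrt ⟨p, hp⟩]
      have h3 : (rt ⟨p, hp⟩ : G)⁻¹ * p ∈ F := (mk_eq_mk_iff _ _ _ _).1 h2
      exact hsqwd ⟨_, hPQ (rt ⟨p, hp⟩).2⟩ ⟨p, hPQ hp⟩ ((hmk _ _).2 h3)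
    rw [e1, hsqmul _ hzQ _ (hPQ hp), hκz _ hp, h1, inv_mul_cancel_right]
  have hzc : ∀ p ∈ P, (z0 : G) * p = p * z0 := by
    intro p hp
    have h2 := hzero (e (⟨p, hp⟩ : ↥P))
    rw [hβdef, ← he1, e.injective.eq_iff, QuotientGroup.eq_one_iff, Subgroup.mem_subgroupOf] at h2
    have h1 := hrt ⟨p, hp⟩
    rw [c.exp _ h2] at h1
    simp only [κ] at h1
    rw [eq_comm, inv_mul_eq_one] at h1
    conv_rhs => rw [h1]
    group
  have habQ : ∀ a ∈ π.ker, ∀ b ∈ π.ker, a * b = b * a := by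
    have h1 : ∀ a ∈ π.ker, ∀ p ∈ P, a * p = p * a := by
      intro a ha p hp
      by_cases haP : a ∈ P
      · exact hab a haP p hp
      · have e1 : a = (z0 : G) * ((z0 : G)⁻¹ * a) := by group
        rw [e1, mul_assoc, hab _ (hsplit a ha haP) p hp, ← mul_assoc, hzc p hp, mul_assoc]
    intro a ha b hb
    by_cases hbP : b ∈ P
    · exact h1 a ha b hbP
    · have e1 : b = (z0 : G) * ((z0 : G)⁻¹ * b) := by group
      have hbp := hsplit b hb hbP
      have hza : a * (z0 : G) = (z0 : G) * a := by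
        by_cases haP : a ∈ P
        · exact (h1 _ hzQ a haP).symm
        · have e2 : a = (z0 : G) * ((z0 : G)⁻¹ * a) := by group
          rw [e2, mul_assoc, ← h1 _ hzQ _ (hsplit a ha haP)]
      rw [e1, ← mul_assoc, hza, mul_assoc, h1 a ha _ hbp, ← mul_assoc]
  -- no involution fixes a point outside
  have hnoF : ∀ t : G, t ∉ π.ker → t * t ∈ π.ker → ∀ f ∈ F, f ∉ W → t * f * t⁻¹ ≠ f := by
    intro t ht ht2 f hf hfW hfix
    let α := {v : ↥F // v ∉ U}
    have hα : ∀ g (v : α), χ g v.1 ∉ U := fun g v h => v.2 (by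
      have := hUinv g⁻¹ _ h
      simpa using this)
    let φ : G →* Equiv.Perm α :=
      { toFun := fun g => ⟨fun v => ⟨χ g v.1, hα g v⟩, fun v => ⟨χ g⁻¹ v.1, hα g⁻¹ v⟩,
          fun v => Subtype.ext (by simp), fun v => Subtype.ext (by simp)⟩
        map_one' := Equiv.ext fun v => Subtype.ext (show χ 1 v.1 = v.1 by simp)
        map_mul' := fun g h => Equiv.ext fun v => Subtype.ext
          (show χ (g * h) v.1 = χ g (χ h v.1) by simp) }
    have hcard : Nat.card α = 8 := by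
      rw [← su.card_diffs]
      refine Nat.card_congr
        { toFun := fun v => ⟨v.1 * u, (Subgroup.mul_mem_iff_of_index_two su.index_diffs).2
            (iff_of_false v.2 su.z_notMem)⟩
          invFun := fun w => ⟨w.1 * u, fun h => su.z_notMem ((Subgroup.mul_mem_cancel_left _ w.2).1 h)⟩
          left_inv := fun v => Subtype.ext (by simp [mul_assoc, su.h2 u])
          right_inv := fun w => Subtype.ext (by simp [mul_assoc, su.h2 u]) }
    have hall := eight c.surj φ (fun q hq => MonoidHom.mem_ker.2 (Equiv.ext fun v => Subtype.ext (by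
        show χ q v.1 = v.1
        rw [MonoidHom.mem_ker.1 (hχk hq)]; rfl))) hcard.le hd (x₀ := ⟨u, su.z_notMem⟩)
      (fun v => ⟨fun h => Subtype.ext (((su.fix v.1).1 (congrArg Subtype.val h)).resolve_left
          fun e => v.2 (e ▸ one_mem U)), fun h => h ▸ Subtype.ext ((su.fix u).2 (Or.inr rfl))⟩)
      (fun h => ht h) (by rw [← map_mul]; exact ht2) (y := ⟨⟨f, hf⟩, fun h => hfW ((hWmem _).2 h)⟩)
      (Subtype.ext (Subtype.ext (by
        show ((χ t ⟨f, hf⟩ : ↥F) : G) = f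
        rw [MulAut.conjNormal_apply]; exact hfix)))
    exact hufix fun g => congrArg Subtype.val (hall g)
  have hnoV : ∀ t : G, t ∉ π.ker → t * t ∈ π.ker → ∀ v, v ∉ H0 → ψ t v ≠ v := by
    intro t ht ht2 v hv hfix
    have hH0inv : ∀ g, ∀ w ∈ H0, ψ g w ∈ H0 := by
      intro g w hw
      obtain ⟨a, rfl⟩ := QuotientGroup.mk_surjective w
      rw [secAut_mk]
      obtain ⟨_, h⟩ := mem_pre.1 (hPn.conj_mem _ (mem_pre.2 ⟨a.2, hw⟩ : (a : G) ∈ P) g)
      convert h using 2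
      exact Subtype.ext (MulAut.conjNormal_apply g a)
    let α := {w : ↥π.ker ⧸ F.subgroupOf π.ker // w ∉ H0}
    have hα : ∀ g (w : α), ψ g w.1 ∉ H0 := fun g w h => w.2 (by
      have := hH0inv g⁻¹ _ h
      simpa using this)
    let φ : G →* Equiv.Perm α :=
      { toFun := fun g => ⟨fun w => ⟨ψ g w.1, hα g w⟩, fun w => ⟨ψ g⁻¹ w.1, hα g⁻¹ w⟩,
          fun w => Subtype.ext (by simp), fun w => Subtype.ext (by simp)⟩
        map_one' := Equiv.ext fun w => Subtype.ext (show ψ 1 w.1 = w.1 by simp)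
        map_mul' := fun g h => Equiv.ext fun w => Subtype.ext
          (show ψ (g * h) w.1 = ψ g (ψ h w.1) by simp) }
    have hcard : Nat.card α = 8 := by
      rw [← s.card_diffs]
      refine Nat.card_congr
        { toFun := fun w => ⟨w.1 * z0, (Subgroup.mul_mem_iff_of_index_two s.index_diffs).2
            (iff_of_false w.2 s.z_notMem)⟩
          invFun := fun w => ⟨w.1 * z0, fun h => s.z_notMem ((Subgroup.mul_mem_cancel_left _ w.2).1 h)⟩
          left_inv := fun w => Subtype.ext (by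
            show w.1 * (z0 : ↥π.ker ⧸ F.subgroupOf π.ker) * z0 = w.1
            rw [mul_assoc, s.h2, mul_one])
          right_inv := fun w => Subtype.ext (by
            show w.1 * (z0 : ↥π.ker ⧸ F.subgroupOf π.ker) * z0 = w.1
            rw [mul_assoc, s.h2, mul_one]) }
    have hall := eight c.surj φ (fun q hq => MonoidHom.mem_ker.2 (Equiv.ext fun w => Subtype.ext (by
        show ψ q w.1 = w.1
        rw [MonoidHom.mem_ker.1 (c.sec_ker hq)]; rfl))) hcard.le hd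
      (x₀ := ⟨(z0 : ↥π.ker ⧸ F.subgroupOf π.ker), s.z_notMem⟩)
      (fun w => ⟨fun h => Subtype.ext (((s.fix w.1).1 (congrArg Subtype.val h)).resolve_left
          fun e => w.2 (e ▸ one_mem H0)), fun h => h ▸ Subtype.ext ((s.fix _).2 (Or.inr rfl))⟩)
      (fun h => ht h) (by rw [← map_mul]; exact ht2) (y := ⟨v, hv⟩) (Subtype.ext hfix)
    apply hnofix _ (c.sq _ hzQ) hz0W
    intro g
    rw [← hsqinv]
    exact hsqwd _ _ (congrArg Subtype.val (hall g))
  -- a complement to `u` modulo `W`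
  have hWP : W ≤ P := hWF.trans hFP
  have hcPW : Nat.card (↥P ⧸ W.subgroupOf P) = 16 := by
    have := card_quot_sub hWP
    rw [hcP, hF, hW8] at this
    omega
  have hsecPk : π.ker ≤ (secAut P W).ker := secAut_ker_of_comm fun q hq a ha => by
    rw [habQ q hq a (hPQ ha)]; simp
  have hmkP : ∀ a b : ↥P, (a : ↥P ⧸ W.subgroupOf P) = b ↔ (a : G)⁻¹ * b ∈ W := mk_eq_mk_iff P W
  let uP : ↥P := ⟨u, hFP u.2⟩
  have hufd : ∀ g : G, (u : G)⁻¹ * (g * u * g⁻¹) ∈ W := by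
    intro g
    rw [hxor _ (F.inv_mem u.2) _ (‹F.Normal›.conj_mem _ u.2 g), W.inv_mem_iff, hWconj]
  have huP1 : (uP : ↥P ⧸ W.subgroupOf P) ≠ 1 := fun h =>
    huW ((QuotientGroup.eq_one_iff uP).1 h)
  have hufixP : ∀ g, secAut P W g (uP : ↥P ⧸ W.subgroupOf P) = uP := fun g => by
    rw [secAut_mk, eq_comm, hmkP, MulAut.conjNormal_apply]
    exact hufd g
  have hPne : secAut P W d ≠ 1 := by
    intro h
    obtain ⟨g, a, ha, hga⟩ := hactP
    refine hga (hWF ?_)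
    have h1 : secAut P W = 1 := hom_eq_one₃ c.surj _ hsecPk hd h
    have h2 : secAut P W g ((⟨a, ha⟩ : ↥P) : ↥P ⧸ W.subgroupOf P) = ((⟨a, ha⟩ : ↥P) : ↥P ⧸ W.subgroupOf P) := by
      rw [h1]; rfl
    rw [secAut_mk, eq_comm, hmkP, MulAut.conjNormal_apply] at h2
    exact h2
  obtain ⟨zP, sP⟩ := seven_of (quot_sq hsqP) hcPW (c.pow_seven _ hsecPk hd) hPne
  obtain rfl : (uP : ↥P ⧸ W.subgroupOf P) = zP := ((sP.fix _).1 (hufixP d)).resolve_left huP1
  obtain ⟨t0, ht0⟩ := c.surj (R0 * R0)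
  have ht0ne : t0 ∉ π.ker := fun h => absurd (ht0.symm.trans h) (by decide +kernel)
  have ht0Q : t0 * t0 ∈ π.ker := by rw [MonoidHom.mem_ker, map_mul, ht0]; decide +kernel
  have hH1inv := complement16 c.surj hsecPk hd sP hufixP (t := t0) (by rw [ht0]; decide +kernel)
    (by rw [ht0]; decide +kernel) (fun v hv => by
      obtain ⟨a, rfl⟩ := QuotientGroup.mk_surjective v
      have haQ : (a : G) ∈ π.ker := hPQ a.2
      have h1 : secAut P W t0 (a : ↥P ⧸ W.subgroupOf P) = ((a * uP : ↥P) : ↥P ⧸ W.subgroupOf P) := by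
        rw [QuotientGroup.mk_mul, ← hv, ← mul_assoc, sP.h2, one_mul]
      rw [secAut_mk, eq_comm, hmkP, MulAut.conjNormal_apply, Subgroup.coe_mul] at h1
      set k := (a : G)⁻¹ * (t0 * a * t0⁻¹) with hk
      have hkF : (u : G)⁻¹ * k ∈ W := by
        have e1 : (u : G)⁻¹ * k = ((a : G) * u)⁻¹ * (t0 * a * t0⁻¹) := by rw [hk]; group
        rw [e1]
        exact h1
      have hkF' : k ∈ F := by
        have := F.mul_mem u.2 (hWF hkF)
        simpa using this
      refine hnoF t0 ht0ne ht0Q k hkF' (fun h => huW ?_) ?_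
      · have := W.mul_mem h (W.inv_mem hkF)
        simpa [mul_assoc] using this
      · have e1 : t0 * t0 * (a : G) * (t0 * t0)⁻¹ = a := by rw [habQ _ ht0Q _ haQ, mul_inv_cancel_right]
        have e2 : t0 * k * t0⁻¹ = (t0 * a * t0⁻¹)⁻¹ * (t0 * t0 * (a : G) * (t0 * t0)⁻¹) := by rw [hk]; group
        rw [e2, e1]
        calc (t0 * (a : G) * t0⁻¹)⁻¹ * a = k⁻¹ := by rw [hk]; group
          _ = k := inv_eq_of_mul_eq_one_right (c.exp k hkF'))
  set H1 := diffs sP.h2 (secAut P W d) with hH1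
  let M := pre H1
  haveI hMn : M.Normal := pre_normal H1 hH1inv
  have hMP : M ≤ P := pre_le H1
  have hWM : W ≤ M := le_pre hWP H1
  have huM : (u : G) ∉ M := fun h => sP.z_notMem (mem_pre.1 h).2
  have hMxor : ∀ y ∈ P, y ∉ M → (u : G)⁻¹ * y ∈ M := by
    intro y hy hyM
    refine mem_pre.2 ⟨mul_mem (inv_mem (hFP u.2)) hy, ?_⟩
    rw [show (⟨(u : G)⁻¹ * y, mul_mem (inv_mem (hFP u.2)) hy⟩ : ↥P) = uP⁻¹ * ⟨y, hy⟩ from rfl,
      QuotientGroup.mk_mul, QuotientGroup.mk_inv]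
    exact (Subgroup.mul_mem_iff_of_index_two sP.index_diffs).2 (iff_of_false
      (fun h => sP.z_notMem (inv_mem_iff.1 h)) (fun h => hyM (mem_pre.2 ⟨hy, h⟩)))
  have hMker : ∀ a ∈ M, a * a = 1 → a ∈ W := by
    intro a ha ha2
    by_contra haW
    have haF := hker a (hMP ha) ha2
    apply huM
    have h1 : a⁻¹ * u ∈ W := by
      rw [hxor _ (F.inv_mem haF) _ u.2, W.inv_mem_iff]
      exact iff_of_false haW huW
    have := M.mul_mem ha (hWM h1)
    simpa using this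
  have hMact : ∃ g : G, ∃ a ∈ M, a⁻¹ * (g * a * g⁻¹) ∉ W := by
    obtain ⟨v, hv, hne⟩ := moves_diffs sP
    obtain ⟨a, rfl⟩ := QuotientGroup.mk_surjective v
    refine ⟨d, a, mem_pre.2 ⟨a.2, hv⟩, fun h => hne ?_⟩
    rw [inv_mul_eq_one, secAut_mk, hmkP, MulAut.conjNormal_apply]
    exact h
  obtain ⟨π', hπ', hk', ⟨C⟩⟩ := exists_coordM c.surj (M := M) (W := W) hWM
    (fun a ha b hb => hab a (hMP ha) b (hMP hb)) (by rw [card_pre hWP, sP.card_diffs, hW8]) hW8
    (fun w hw => c.exp w (hWF hw)) (fun a ha => hsqP a (hMP ha)) hMker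
    (fun q hq a ha => by rw [habQ q hq a (hPQ (hMP ha))]; simp) hMact
  have huc : ∀ v, (u : G) * C.φ v = C.φ v * u := fun v => c.cent _ u.2 _ (hPQ (hMP (C.mem v)))
  have hu2 : (u : G) * u = 1 := c.exp _ u.2
  have hW2 : ∀ w ∈ W, ∃ a, w = C.φ (2 • a) := fun w hw => by
    obtain ⟨a, rfl⟩ := C.surj w (hWM hw)
    have h1 : C.φ (a + a) = C.φ 0 := by rw [C.map_add, c.exp _ (hWF hw), C.map_zero]
    obtain ⟨b, hb⟩ := exists_half a (by rw [two_nsmul]; exact C.inj h1)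
    exact ⟨b, by rw [hb]⟩
  have hredfix : ∀ g v (m : ℤ), g * ((u : G) * C.φ v) * g⁻¹ = (u : G) * C.φ (m • v) → Odd m →
      ((π' g : SL32) : Matrix (Fin 3) (Fin 3) (ZMod 2)).mulVec (red v) = red v := by
    intro g v m h hm
    have e1 : g * ((u : G) * C.φ v) * g⁻¹ = (u : G) * (((u : G)⁻¹ * (g * u * g⁻¹)) * C.φ (C.act g v)) := by
      rw [← C.act_spec]; group
    rw [e1] at h
    obtain ⟨b, hb⟩ := hW2 _ (hufd g)
    rw [hb, ← C.map_add] at h
    have h1 := C.inj (mul_left_cancel h)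
    rw [← C.act_red, red_eq_iff]
    obtain ⟨j, rfl⟩ := hm
    have h3 := congrArg (fun w : V4 => (2 : ℕ) • w) h1
    simp only [smul_add] at h3
    rw [(by decide +kernel : ∀ u : V4, (2 : ℕ) • ((2 : ℕ) • u) = 0) b, zero_add] at h3
    rw [h3, add_zsmul, one_zsmul, smul_add, mul_zsmul, two_zsmul, smul_add,
      (by decide +kernel : ∀ u : V4, (2 : ℕ) • u + (2 : ℕ) • u = 0), zero_add]
  have hui : ∀ v, ((u : G) * C.φ v)⁻¹ = (u : G) * C.φ ((-1 : ℤ) • v) := fun v => by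
    rw [neg_one_zsmul, C.map_neg, mul_inv_rev, inv_eq_of_mul_eq_one_right hu2, ← C.map_neg, huc]
  have hfixed : ∀ t k, π' t = R0 * R0 → t * t ∈ π.ker → k ∈ π.ker →
      (t * k * t⁻¹ = k ∨ t * k * t⁻¹ = k⁻¹) →
      (∀ v, k = (u : G) * C.φ v → red v = 0 ∨ red v = red (1, 0, 1)) → k ∈ M := by
    intro t k ht ht2 hkQ hcase hcent
    have htne : t ∉ π.ker := fun h => by
      rw [MonoidHom.mem_ker.1 (hk'.symm ▸ h : t ∈ π'.ker)] at ht
      exact absurd ht (by decide +kernel)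
    by_cases hkP : k ∈ P
    · by_contra hkM
      obtain ⟨v, hv⟩ := C.surj _ (hMxor k hkP hkM)
      have hkv : k = (u : G) * C.φ v := by rw [hv]; group
      have htt : ∀ w, C.act t (C.act t w) = w := fun w => by
        rw [← AddMonoidHom.comp_apply, ← C.act_mul,
          C.act_of_commute (t * t) fun a => habQ _ ht2 _ (hPQ (hMP (C.mem a)))]
        rfl
      obtain ⟨w, hw⟩ := C.fixed_in_coset huc hu2 ht htt (hcent v hkv) (by rw [← hkv]; exact hcase)
      have h2 : C.φ (2 • w) ∈ W := by rw [two_nsmul, C.map_add]; exact hsqP _ (hMP (C.mem w))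
      refine hnoF t htne ht2 _ (F.mul_mem u.2 (hWF h2)) (fun h => huW ?_) hw
      have := W.mul_mem h (W.inv_mem h2)
      simpa [mul_assoc] using this
    · exfalso
      refine hnoV t htne ht2 ((⟨k, hkQ⟩ : ↥π.ker) : ↥π.ker ⧸ F.subgroupOf π.ker)
        (fun h => hkP (mem_pre.2 ⟨hkQ, h⟩)) ?_
      rw [secAut_mk]
      rcases hcase with h | h
      · congr 1
        exact Subtype.ext ((MulAut.conjNormal_apply t _).trans h)
      · rw [← inv_eq_of_mul_eq_one_right (s.h2 ((⟨k, hkQ⟩ : ↥π.ker) : ↥π.ker ⧸ F.subgroupOf π.ker)),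
          ← QuotientGroup.mk_inv]
        congr 1
        exact Subtype.ext ((MulAut.conjNormal_apply t _).trans h)
  obtain ⟨r, hrc, hr⟩ := exists_commutator_lift hπ' R0
  have hkQ : r * r * (r * r) ∈ π.ker := by
    rw [← hk', MonoidHom.mem_ker, map_mul, map_mul, hr]; decide +kernel
  refine C.false_of_lifts c.rank hπ' hr hrc (hfixed (r * r) _ (by rw [map_mul, hr]) hkQ hkQ
    (Or.inl (mul_inv_eq_iff_eq_mul.2 (by simp only [mul_assoc]))) fun v hv => ?_) ?_
  · refine fix_centre _ (Or.inl ?_)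
    have hfx := hredfix r v 1 (by
      rw [one_zsmul, ← hv]; exact mul_inv_eq_iff_eq_mul.2 (by simp only [mul_assoc])) odd_one
    rwa [hr] at hfx
  · intro y₁ y₂ h1 h2 e1 e2
    have i1 := inv_eq_of_mul_eq_one_right e1
    have i2 := inv_eq_of_mul_eq_one_right e2
    have inv1 : y₁ * (y₁ * y₂ * (y₁ * y₂)) * y₁⁻¹ = (y₁ * y₂ * (y₁ * y₂))⁻¹ := by
      simp only [mul_inv_rev, i1, i2, mul_assoc]
      rw [← mul_assoc y₁ y₁, e1, one_mul]
    have inv2 : y₂ * (y₁ * y₂ * (y₁ * y₂)) * y₂⁻¹ = (y₁ * y₂ * (y₁ * y₂))⁻¹ := by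
      simp only [mul_inv_rev, i1, i2, mul_assoc]
      rw [e2, mul_one]
    refine hfixed y₁ _ h1 (by rw [e1]; exact one_mem _) ?_ (Or.inr inv1) fun v hv => ?_
    · rw [← hk', MonoidHom.mem_ker, map_mul, map_mul, h1, h2]; decide +kernel
    refine fix_centre _ (Or.inr ⟨?_, ?_⟩)
    · have hfx := hredfix y₁ v (-1) (by rw [← hui, ← hv]; exact inv1) (by decide)
      rwa [h1] at hfx
    · have hfx := hredfix y₂ v (-1) (by rw [← hui, ← hv]; exact inv2) (by decide)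
      rwa [h2] at hfx

/-- The Frattini part is central. -/
theorem F_central : ∀ g : G, ∀ f ∈ F, g * f = f * g := by
  haveI := c.normal
  by_contra hne
  simp only [not_forall] at hne
  obtain ⟨g, f, hf, hgf⟩ := hne
  have hactF : ∃ g : G, ∃ w ∈ F, g * w ≠ w * g := ⟨g, f, hf, hgf⟩
  obtain ⟨d, hd⟩ := c.surj D7
  have hk : π.ker ≤ (MulAut.conjNormal : G →* MulAut ↥F).ker := conjNormal_ker c.cent
  have h16 : Nat.card F ≤ 16 := by
    have h := c.rank F ⊥ bot_le (fun h _ n hn => by rw [Subgroup.mem_bot.1 hn]; simp)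
      (fun f hf => by rw [Subgroup.mem_bot]; exact c.exp f hf)
    simpa using h
  rcases seven_fixed (W := ↥F) (fun w => Subtype.ext (c.exp w w.2)) h16 (c.pow_seven _ hk hd)
    (fun e => conjNormal_ne_one hactF (hom_eq_one₃ c.surj _ hk hd e)) with ⟨hF, -⟩ | ⟨hF, -⟩
  · rcases c.card_cases with h | h
    · exact c.false_small h hF hactF
    · exact c.false_mid h hF hactF
  · exact c.false_large hF hactF

end Ctx3

end CfsgLib.SmallRadical
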