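import Cfsg.Agent.SmallRadical.Linear

/-! Commutators in a radical acted on by an element of order seven. -/

set_option autoImplicit false

namespace CfsgLib.SmallRadical

theorem mem_zpowers_two {G : Type*} [Group G] {w a : G} (hw : w * w = 1) (ha : a ∈ Subgroup.zpowers w) :
    a = 1 ∨ a = w := by
  obtain ⟨m, rfl⟩ := Subgroup.mem_zpowers_iff.1 ha
  rcases Int.even_or_odd m with ⟨j, rfl⟩ | ⟨j, rfl⟩
  · left
    rw [← two_mul, zpow_mul, zpow_two, hw, one_zpow]
  · right
    rw [zpow_add, zpow_one, zpow_mul, zpow_two, hw, one_zpow, one_mul]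

/-- An alternating two-valued form on a group of order eight has a radical. -/
theorem alternating_radical {H A : Type*} [Group H] [Finite H] [Group A] (h2 : ∀ u : H, u * u = 1)
    (h8 : Nat.card H = 8) (β : H → H → A) (hl : ∀ u v x, β (u * v) x = β u x * β v x)
    (hr : ∀ u v x, β x (u * v) = β x u * β x v) (halt : ∀ u, β u u = 1) {w : A} (hw : w * w = 1)
    (hval : ∀ u v, β u v = 1 ∨ β u v = w) : ∃ r, r ≠ 1 ∧ ∀ v, β r v = 1 := by
  have hone : ∀ x, β x 1 = 1 := fun x => by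
    have h := hr 1 1 x
    rw [mul_one] at h
    exact mul_eq_left.1 h.symm
  have hsymm : ∀ u v, β u v = 1 → β v u = 1 := fun u v h => by
    have h1 := halt (u * v)
    rw [hl, hr, hr, halt, halt, h, one_mul, mul_one, one_mul] at h1
    exact h1
  obtain ⟨a, ha⟩ : ∃ a : H, a ≠ 1 := by
    haveI : Nontrivial H := Finite.one_lt_card_iff_nontrivial.1 (by omega)
    exact exists_ne 1
  by_cases hab : ∀ b, β a b = 1
  · exact ⟨a, ha, hab⟩
  simp only [not_forall] at hab
  obtain ⟨b, hb⟩ := hab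
  let f : H →* A × A := MonoidHom.mk' (fun v => (β a v, β b v)) fun u v => by rw [hr, hr]; rfl
  have hrange : Nat.card f.range ≤ 4 := by
    classical
    have hsub : (f.range : Set (A × A)) ⊆ ↑({(1, 1), (1, w), (w, 1), (w, w)} : Finset (A × A)) := by
      rintro _ ⟨v, rfl⟩
      rcases hval a v with h1 | h1 <;> rcases hval b v with h3 | h3 <;> simp [f, h1, h3]
    have h := Set.ncard_le_ncard hsub (Finset.finite_toSet _)
    rw [Set.ncard_coe_finset, ← Nat.card_coe_set_eq] at h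
    exact h.trans Finset.card_le_four
  obtain ⟨r, hr', hr1⟩ := (Subgroup.bot_or_exists_ne_one f.ker).resolve_left fun h => by
    have hk := f.ker.card_mul_index
    rw [Subgroup.index_ker, h, Subgroup.card_bot, h8] at hk
    omega
  have hra : β a r = 1 := congrArg Prod.fst hr'
  have hrb : β b r = 1 := congrArg Prod.snd hr'
  let K : Subgroup H :=
    { carrier := {v | β r v = 1}
      one_mem' := hone r
      mul_mem' := fun {u v} hu hv => by
        show β r (u * v) = 1
        rw [hr, hu, hv, one_mul]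
      inv_mem' := fun {u} hu => by rwa [inv_eq_of_mul_eq_one_right (h2 u)] }
  have haK : a ∈ K := hsymm _ _ hra
  have hbK : b ∈ K := hsymm _ _ hrb
  have hrK : r ∈ K := halt r
  refine ⟨r, hr1, fun v => ?_⟩
  suffices K = ⊤ from (this ▸ Subgroup.mem_top v : v ∈ K)
  classical
  haveI := Fintype.ofFinite H
  haveI := Fintype.ofFinite ↥K
  have hba : β b a ≠ 1 := fun h => hb (hsymm _ _ h)
  have n1 : a ≠ b := fun h => hb (h ▸ halt a)
  have n2 : (1 : H) ≠ b := fun h => hb (h ▸ hone a)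
  have n3 : a * b ≠ 1 := fun h => n1 ((eq_inv_of_mul_eq_one_left h).trans (inv_eq_of_mul_eq_one_right (h2 b)))
  have n4 : a * b ≠ a := fun h => n2 (mul_eq_left.1 h).symm
  have n5 : a * b ≠ b := fun h => ha (mul_eq_right.1 h)
  have n6 : r ≠ a := fun h => hba (h ▸ hrb)
  have n7 : r ≠ b := fun h => hb (h ▸ hra)
  have n8 : r ≠ a * b := fun h => hb (by
    have h1 := hra
    rw [h, hr, halt, one_mul] at h1
    exact h1)
  have h5 : ({1, a, b, a * b, r} : Finset H).card = 5 := by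
    rw [Finset.card_insert_of_notMem (by
        simp only [Finset.mem_insert, Finset.mem_singleton, not_or]
        exact ⟨Ne.symm ha, n2, Ne.symm n3, Ne.symm hr1⟩),
      Finset.card_insert_of_notMem (by
        simp only [Finset.mem_insert, Finset.mem_singleton, not_or]
        exact ⟨n1, Ne.symm n4, Ne.symm n6⟩),
      Finset.card_insert_of_notMem (by
        simp only [Finset.mem_insert, Finset.mem_singleton, not_or]
        exact ⟨Ne.symm n5, Ne.symm n7⟩),
      Finset.card_insert_of_notMem (by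
        simp only [Finset.mem_singleton]
        exact Ne.symm n8), Finset.card_singleton]
  have hle : ({1, a, b, a * b, r} : Finset H).card ≤ Fintype.card ↥K := by
    rw [Fintype.card_subtype]
    refine Finset.card_le_card fun u hu => ?_
    simp only [Finset.mem_insert, Finset.mem_singleton] at hu
    simp only [Finset.mem_filter, Finset.mem_univ, true_and]
    rcases hu with rfl | rfl | rfl | rfl | rfl
    exacts [one_mem K, haK, hbK, mul_mem haK hbK, hrK]
  have hdvd := K.card_subgroup_dvd_card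
  rw [h8] at hdvd
  rw [h5, ← Nat.card_eq_fintype_card] at hle
  apply Subgroup.eq_top_of_card_eq
  rw [h8]
  have hle8 := Nat.le_of_dvd (by norm_num) hdvd
  interval_cases h : Nat.card ↥K <;> omega

/-- The commutator in the form used for the polar maps. -/
def polar {G : Type*} [Group G] (a b : G) : G := a⁻¹ * (b * a * b⁻¹)

theorem polar_eq_one_iff {G : Type*} [Group G] {a b : G} : polar a b = 1 ↔ a * b = b * a := by
  rw [polar, inv_mul_eq_one, eq_mul_inv_iff_mul_eq]

theorem polar_self {G : Type*} [Group G] (a : G) : polar a a = 1 := polar_eq_one_iff.2 rfl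

theorem polar_right {G : Type*} [Group G] {a b e : G} (h : Commute (polar a e) b) :
    polar a (b * e) = polar a b * polar a e := by
  have h1 : polar a (b * e) = a⁻¹ * b * a * (polar a e * b⁻¹) := by simp only [polar]; group
  rw [h1, h.inv_right.eq]
  simp only [polar]
  group

theorem polar_left {G : Type*} [Group G] {a b e : G} (h : Commute (polar a e) b) :
    polar (a * b) e = polar a e * polar b e := by
  have h1 : polar (a * b) e = b⁻¹ * polar a e * (e * b * e⁻¹) := by simp only [polar]; group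
  rw [h1, ← h.inv_right.eq]
  simp only [polar]
  group

/-- The polar map on the section is well defined. -/
theorem polar_congr {G : Type*} [Group G] {Q F : Subgroup G}
    (hcent : ∀ f ∈ F, ∀ q ∈ Q, f * q = q * f) (hF : F ≤ Q) {a b a' b' : G} (_ha : a ∈ Q) (hb : b ∈ Q)
    (ha' : a⁻¹ * a' ∈ F) (hb' : b⁻¹ * b' ∈ F) (hQ : ∀ e ∈ Q, Commute (polar a b) e) :
    polar a' b' = polar a b := by
  generalize hf : a⁻¹ * a' = f at ha'
  generalize hk : b⁻¹ * b' = k at hb'
  have ea : a' = a * f := by rw [← hf]; group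
  have eb : b' = b * k := by rw [← hk]; group
  have h1 : polar a k = 1 := polar_eq_one_iff.2 (hcent k hb' a _ha).symm
  have h2 : polar a (b * k) = polar a b := by
    rw [polar_right (by rw [h1]; exact Commute.one_left b), h1, mul_one]
  have h3 : polar f (b * k) = 1 := polar_eq_one_iff.2 (hcent f ha' _ (mul_mem hb (hF hb')))
  rw [ea, eb, polar_left (by rw [h2]; exact hQ f (hF ha')), h2, h3, mul_one]

theorem diffs_pow_mem {V : Type*} [Group V] {h2 : ∀ v : V, v * v = 1} {σ : MulAut V} (n : ℕ) {v : V}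
    (hv : v ∈ diffs h2 σ) : (σ ^ n) v ∈ diffs h2 σ := by
  induction n with
  | zero => exact hv
  | succ n ih =>
    rw [pow_succ', MulAut.mul_apply]
    exact diffs_apply ih

section Abelian

variable {G : Type*} [Group G] [Finite G] {Q F : Subgroup G} [Q.Normal] [F.Normal]

/-- The commutators vanish once they vanish on the complement of the fixed point. -/
theorem comm_of_seven {d : G} {z : ↥Q ⧸ F.subgroupOf Q} (hFQ : F ≤ Q)
    (s : Seven (↥Q ⧸ F.subgroupOf Q) (secAut Q F d) z) (hcent : ∀ f ∈ F, ∀ q ∈ Q, f * q = q * f)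
    (hκc : ∀ a ∈ Q, ∀ b ∈ Q, ∀ g, g * polar a b * g⁻¹ = polar a b)
    (hκ2 : ∀ a ∈ Q, ∀ b ∈ Q, polar a b * polar a b = 1)
    (hH : ∀ a b : ↥Q, (a : ↥Q ⧸ F.subgroupOf Q) ∈ diffs s.h2 (secAut Q F d) →
      (b : ↥Q ⧸ F.subgroupOf Q) ∈ diffs s.h2 (secAut Q F d) → polar (a : G) b = 1) :
    ∀ a ∈ Q, ∀ b ∈ Q, a * b = b * a := by
  obtain ⟨z0, rfl⟩ := QuotientGroup.mk_surjective z
  set H := diffs s.h2 (secAut Q F d) with hHdef
  have hκQ : ∀ a ∈ Q, ∀ b ∈ Q, ∀ e, Commute (polar a b) e := fun a ha b hb e =>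
    (mul_inv_eq_iff_eq_mul.1 (hκc a ha b hb e)).symm
  have hmk : ∀ a b : ↥Q, (a : ↥Q ⧸ F.subgroupOf Q) = b ↔ (a : G)⁻¹ * b ∈ F := mk_eq_mk_iff Q F
  have hwd : ∀ a b a' b' : ↥Q, (a : ↥Q ⧸ F.subgroupOf Q) = a' → (b : ↥Q ⧸ F.subgroupOf Q) = b' →
      polar (a' : G) b' = polar (a : G) b := fun a b a' b' h1 h2 =>
    polar_congr hcent hFQ a.2 b.2 ((hmk a a').1 h1) ((hmk b b').1 h2) fun e _ => hκQ a a.2 b b.2 e
  let β : (↥Q ⧸ F.subgroupOf Q) → G := fun v => polar (z0 : G) (v.out : ↥Q)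
  have hβ : ∀ a : ↥Q, β (a : ↥Q ⧸ F.subgroupOf Q) = polar (z0 : G) a := fun a =>
    hwd z0 a z0 _ rfl (QuotientGroup.out_eq' _).symm
  have hmul : ∀ u v, β (u * v) = β u * β v := by
    intro u v
    obtain ⟨a, rfl⟩ := QuotientGroup.mk_surjective u
    obtain ⟨b, rfl⟩ := QuotientGroup.mk_surjective v
    rw [← QuotientGroup.mk_mul, hβ, hβ, hβ, Subgroup.coe_mul, polar_right (hκQ _ z0.2 _ b.2 _)]
  have hinv : ∀ v, β (secAut Q F d v) = β v := by
    intro v
    obtain ⟨a, rfl⟩ := QuotientGroup.mk_surjective v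
    have hz : secAut Q F d (z0 : ↥Q ⧸ F.subgroupOf Q) = z0 := (s.fix _).2 (Or.inr rfl)
    rw [secAut_mk] at hz ⊢
    rw [hβ, hβ, hwd _ (MulAut.conjNormal d a) z0 _ hz rfl, MulAut.conjNormal_apply, MulAut.conjNormal_apply,
      ← hκc _ z0.2 _ a.2 d]
    simp only [polar]
    group
  have hzH : ∀ v ∈ H, β v = 1 := by
    by_contra hne
    simp only [not_forall] at hne
    obtain ⟨v, hv, hβv⟩ := hne
    have hv1 : v ≠ 1 := fun h => hβv (by rw [h, ← QuotientGroup.mk_one, hβ]; simp [polar])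
    have hall := s.const_diffs (fun u => β u = β v) (fun u => by rw [hinv]) hv hv1 rfl
    have h1 : secAut Q F d v ≠ v := fun h => hv1 (s.fix_diffs hv h)
    have h2 : v * secAut Q F d v ≠ 1 := fun h =>
      h1 ((eq_inv_of_mul_eq_one_right h).trans (inv_eq_of_mul_eq_one_right (s.h2 v)))
    have h3 := hall _ (mul_mem hv (diffs_apply hv)) h2
    rw [hmul, hinv] at h3
    exact hβv (mul_eq_left.1 h3)
  have hkey : ∀ a : ↥Q, (a : ↥Q ⧸ F.subgroupOf Q) ∈ H ∨ ∃ h : ↥Q, (h : ↥Q ⧸ F.subgroupOf Q) ∈ H ∧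
      (a : G) = z0 * h := by
    intro a
    by_cases ha : (a : ↥Q ⧸ F.subgroupOf Q) ∈ H
    · exact Or.inl ha
    · refine Or.inr ⟨z0⁻¹ * a, ?_, by simp⟩
      rw [QuotientGroup.mk_mul, QuotientGroup.mk_inv]
      exact (Subgroup.mul_mem_iff_of_index_two s.index_diffs).2
        (iff_of_false (fun h => s.z_notMem (inv_mem_iff.1 h)) ha)
  have hzc : ∀ h : ↥Q, (h : ↥Q ⧸ F.subgroupOf Q) ∈ H → (z0 : G) * h = h * z0 := fun h hh =>
    polar_eq_one_iff.1 (by rw [← hβ]; exact hzH _ hh)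
  have hHc : ∀ a b : ↥Q, (a : ↥Q ⧸ F.subgroupOf Q) ∈ H → (b : ↥Q ⧸ F.subgroupOf Q) ∈ H → (a : G) * b = b * a :=
    fun a b ha hb => polar_eq_one_iff.1 (hH a b ha hb)
  intro a ha b hb
  suffices Commute a b from this.eq
  rcases hkey ⟨a, ha⟩ with h1 | ⟨h, h1, e1⟩ <;> rcases hkey ⟨b, hb⟩ with h2 | ⟨k, h2, e2⟩
  · exact hHc _ _ h1 h2
  · change b = _ at e2
    rw [e2]
    exact Commute.mul_right (hzc ⟨a, ha⟩ h1).symm (hHc _ _ h1 h2)
  · change a = _ at e1
    rw [e1]
    exact Commute.mul_left (hzc ⟨b, hb⟩ h2) (hHc _ _ h1 h2)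
  · change b = _ at e2
    change a = _ at e1
    rw [e1, e2]
    exact ((Commute.refl _).mul_right (hzc k h2)).mul_left
      ((show Commute (h : G) z0 from (hzc h h1).symm).mul_right (hHc _ _ h1 h2))

/-- Two-valued commutators vanish on the complement of the fixed point. -/
theorem comm_diffs_of_two {d : G} {z : ↥Q ⧸ F.subgroupOf Q} (hFQ : F ≤ Q)
    (s : Seven (↥Q ⧸ F.subgroupOf Q) (secAut Q F d) z) (hcent : ∀ f ∈ F, ∀ q ∈ Q, f * q = q * f)
    {w : G} (hw : w * w = 1) (hwc : ∀ g, g * w * g⁻¹ = w)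
    (hval : ∀ a ∈ Q, ∀ b ∈ Q, polar a b = 1 ∨ polar a b = w) :
    ∀ a b : ↥Q, (a : ↥Q ⧸ F.subgroupOf Q) ∈ diffs s.h2 (secAut Q F d) →
      (b : ↥Q ⧸ F.subgroupOf Q) ∈ diffs s.h2 (secAut Q F d) → polar (a : G) b = 1 := by
  set H := diffs s.h2 (secAut Q F d) with hHdef
  have hκQ : ∀ a ∈ Q, ∀ b ∈ Q, ∀ e, Commute (polar a b) e := fun a ha b hb e => by
    rcases hval a ha b hb with h | h <;> rw [h]
    · exact Commute.one_left e
    · exact (mul_inv_eq_iff_eq_mul.1 (hwc e)).symm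
  let β : (↥Q ⧸ F.subgroupOf Q) → (↥Q ⧸ F.subgroupOf Q) → G := fun u v =>
    polar ((u.out : ↥Q) : G) (v.out : ↥Q)
  have hmk : ∀ a b : ↥Q, (a : ↥Q ⧸ F.subgroupOf Q) = b ↔ (a : G)⁻¹ * b ∈ F := mk_eq_mk_iff Q F
  have hβ : ∀ a b : ↥Q, β a b = polar (a : G) b := fun a b =>
    polar_congr hcent hFQ a.2 b.2 ((hmk a _).1 (QuotientGroup.out_eq' _).symm)
      ((hmk b _).1 (QuotientGroup.out_eq' _).symm) fun e _ => hκQ a a.2 b b.2 e
  have hl : ∀ u v x, β (u * v) x = β u x * β v x := fun u v x => by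
    obtain ⟨a, rfl⟩ := QuotientGroup.mk_surjective u
    obtain ⟨b, rfl⟩ := QuotientGroup.mk_surjective v
    obtain ⟨e, rfl⟩ := QuotientGroup.mk_surjective x
    rw [← QuotientGroup.mk_mul, hβ, hβ, hβ, Subgroup.coe_mul, polar_left (hκQ _ a.2 _ e.2 _)]
  have hr : ∀ u v x, β x (u * v) = β x u * β x v := fun u v x => by
    obtain ⟨a, rfl⟩ := QuotientGroup.mk_surjective u
    obtain ⟨b, rfl⟩ := QuotientGroup.mk_surjective v
    obtain ⟨e, rfl⟩ := QuotientGroup.mk_surjective x
    rw [← QuotientGroup.mk_mul, hβ, hβ, hβ, Subgroup.coe_mul, polar_right (hκQ _ e.2 _ b.2 _)]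
  obtain ⟨r, hr1, hrad⟩ := alternating_radical (H := ↥H) (fun u => Subtype.ext (s.h2 _)) s.card_diffs
    (fun u v => β u v) (fun u v x => hl _ _ _) (fun u v x => hr _ _ _)
    (fun u => polar_self _) hw (fun u v => hval _ (SetLike.coe_mem _) _ (SetLike.coe_mem _))
  have hinv : ∀ u v, β (secAut Q F d u) (secAut Q F d v) = β u v := by
    intro u v
    obtain ⟨a, rfl⟩ := QuotientGroup.mk_surjective u
    obtain ⟨b, rfl⟩ := QuotientGroup.mk_surjective v
    rw [secAut_mk, secAut_mk, hβ, hβ, MulAut.conjNormal_apply, MulAut.conjNormal_apply]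
    have e : polar (d * (a : G) * d⁻¹) (d * b * d⁻¹) = d * polar (a : G) b * d⁻¹ := by
      simp only [polar]; group
    rw [e]
    rcases hval _ a.2 _ b.2 with h | h <;> rw [h]
    · group
    · exact hwc d
  have hall := s.const_diffs (fun u => ∀ v ∈ H, β u v = 1) (fun u => ⟨fun h v hv => by
      rw [← hinv]; exact h _ (diffs_apply hv), fun h v hv => by
      have h6 : secAut Q F d (((secAut Q F d) ^ 6) v) = v := by
        rw [← MulAut.mul_apply, ← pow_succ', s.h7, MulAut.one_apply]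
      rw [← h6, hinv]
      exact h _ (diffs_pow_mem 6 hv)⟩) r.2 (fun h => hr1 (Subtype.ext h)) (fun v hv => hrad ⟨v, hv⟩)
  intro a b ha hb
  rw [← hβ]
  by_cases ha1 : (a : ↥Q ⧸ F.subgroupOf Q) = 1
  · have h := hl 1 1 (b : ↥Q ⧸ F.subgroupOf Q)
    rw [mul_one] at h
    rw [ha1]
    exact mul_eq_left.1 h.symm
  · exact hall _ ha ha1 _ hb

end Abelian

end CfsgLib.SmallRadical
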