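import Cfsg.Agent.SmallRadical.Main
import Cfsg.Agent.SmallRadical.Large
import Cfsg.Agent.SmallRadical.Polar
import Cfsg.Agent.SmallRadical.EightCyclic

/-! The radical of a 2-constrained group of sectional 2-rank four over `L₃(2)`. -/

set_option autoImplicit false

namespace CfsgLib.SmallRadical

open scoped commutatorElement

variable {G : Type*} [Group G]

theorem card_map_mk [Finite G] (N : Subgroup G) [N.Normal] {K : Subgroup G} (hK : N ≤ K) :
    Nat.card (K.map (QuotientGroup.mk' N)) * Nat.card N = Nat.card K := by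
  have h := (N.subgroupOf K).card_mul_index
  rw [Nat.card_congr (Subgroup.subgroupOfEquivOfLe hK).toEquiv] at h
  have h6 : (N.subgroupOf K).index = Nat.card (K.map (QuotientGroup.mk' N)) := by
    rw [Subgroup.index, show K.map (QuotientGroup.mk' N) = ((QuotientGroup.mk' N).comp K.subtype).range by
      rw [MonoidHom.range_comp, Subgroup.range_subtype]]
    refine Nat.card_congr ((QuotientGroup.quotientMulEquivOfEq ?_).trans
      (QuotientGroup.quotientKerEquivRange ((QuotientGroup.mk' N).comp K.subtype))).toEquiv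
    ext x
    rw [Subgroup.mem_subgroupOf, MonoidHom.mem_ker]
    exact (QuotientGroup.eq_one_iff _).symm
  rw [← h6, mul_comm]
  exact h

theorem act_of_selfCentralizing₃ [Finite G] {π : G →* SL32} (hπ : Function.Surjective π)
    (hQ : IsPGroup 2 π.ker) (hC : Subgroup.centralizer (π.ker : Set G) ≤ π.ker) :
    ∃ g : G, ∃ q ∈ π.ker, g * q * g⁻¹ * q⁻¹ ∉ sqs π.ker := by
  haveI : Fact (Nat.Prime 7) := ⟨by norm_num⟩
  haveI : Fact (Nat.Prime 2) := ⟨Nat.prime_two⟩
  by_contra hall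
  simp only [not_exists, not_and, not_not] at hall
  have h7 : 7 ∣ Nat.card G := by
    refine Dvd.dvd.trans ?_ (Subgroup.card_dvd_of_surjective π hπ)
    rw [← orderOf_eq_prime D7_pow D7_ne]
    exact orderOf_dvd_natCard _
  obtain ⟨g, hg⟩ := exists_prime_orderOf_dvd_card' (G := G) 7 h7
  have hσ : (MulAut.conjNormal g : MulAut ↥π.ker) ^ 7 ^ 1 = 1 := by
    have hg7 := pow_orderOf_eq_one g
    rw [hg] at hg7
    rw [pow_one, ← map_pow, hg7, map_one]
  have hone := CfsgLib.Frobenius57.aut_eq_one_of_frattini (show (2 : ℕ) ≠ 7 by norm_num) hQ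
    (MulAut.conjNormal g) hσ (fun x => by
      have hle : sqs π.ker ≤ (frattini ↥π.ker).map π.ker.subtype := by
        rw [sqs, Subgroup.closure_le]
        rintro _ ⟨q, hq, rfl⟩
        refine ⟨(⟨q, hq⟩ : ↥π.ker) ^ 2, (CfsgLib.Frobenius57.pow_mem_frattini hQ _ 1).1, ?_⟩
        simp [pow_two]
      have h1 := hall g x x.2
      obtain ⟨u, hu, he⟩ := hle ((sqs_normal π.ker).conj_mem _ h1 (x : G)⁻¹)
      have hxu : x⁻¹ * (MulAut.conjNormal g : MulAut ↥π.ker) x = u := by
        apply Subtype.ext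
        rw [Subgroup.coe_mul, Subgroup.coe_inv, MulAut.conjNormal_apply]
        exact Eq.trans (by group) he.symm
      rw [hxu]
      exact hu)
  have hgQ : g ∈ π.ker := hC (Subgroup.mem_centralizer_iff.2 fun y hy => by
    have h := congrArg (fun a : MulAut ↥π.ker => ((a ⟨y, hy⟩ : ↥π.ker) : G)) hone
    simp only [MulAut.conjNormal_apply, MulAut.one_apply] at h
    exact (mul_inv_eq_iff_eq_mul.1 h).symm)
  obtain ⟨k, hk⟩ := IsPGroup.iff_orderOf.1 hQ ⟨g, hgQ⟩
  rw [Subgroup.orderOf_mk, hg] at hk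
  have h2 : 7 ∣ 2 := (show Nat.Prime 7 by norm_num).dvd_of_dvd_pow (dvd_of_eq hk)
  norm_num at h2

namespace Ctx3

variable [Finite G] {π : G →* SL32} {F : Subgroup G} (c : Ctx3 π F)
include c

theorem polar_mem {a b : G} (ha : a ∈ π.ker) (hb : b ∈ π.ker) : polar a b ∈ F := c.comm_mem ha hb

theorem polar_comm {a b : G} (ha : a ∈ π.ker) (hb : b ∈ π.ker) (e : G) : Commute (polar a b) e :=
  (c.F_central e _ (c.polar_mem ha hb)).symm

/-- Squares and commutators are trivial on an invariant subgroup with constant predicates. -/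
theorem trivial_on [F.Normal] {d : G} (H : Subgroup (↥π.ker ⧸ F.subgroupOf π.ker))
    (hH8 : Nat.card H = 8)
    (hconst : ∀ P : (↥π.ker ⧸ F.subgroupOf π.ker) → Prop, (∀ v, P (secAut π.ker F d v) ↔ P v) →
      ∀ x ∈ H, x ≠ 1 → P x → ∀ y ∈ H, y ≠ 1 → P y) :
    (∀ a : ↥π.ker, (a : ↥π.ker ⧸ F.subgroupOf π.ker) ∈ H → (a : G) * a = 1) ∧
      ∀ a b : ↥π.ker, (a : ↥π.ker ⧸ F.subgroupOf π.ker) ∈ H → (b : ↥π.ker ⧸ F.subgroupOf π.ker) ∈ H →
        polar (a : G) b = 1 := by
  have hmk : ∀ a b : ↥π.ker, (a : ↥π.ker ⧸ F.subgroupOf π.ker) = b ↔ (a : G)⁻¹ * b ∈ F :=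
    mk_eq_mk_iff π.ker F
  have hsqwd : ∀ a b : ↥π.ker, (a : ↥π.ker ⧸ F.subgroupOf π.ker) = b → (a : G) * a = (b : G) * b := by
    intro a b hab
    rw [hmk] at hab
    generalize hf : (a : G)⁻¹ * b = f at hab
    have hb : (b : G) = a * f := by rw [← hf]; group
    rw [hb, mul_assoc, ← mul_assoc f, c.cent f hab a a.2, mul_assoc (a : G) f f, c.exp f hab, mul_one]
  obtain ⟨x, hx, y, hy, z, hz, h1, h2, h3, h4, h5, h6, h7⟩ := exists_three (quot_sq c.sq) H hH8
  obtain ⟨x, rfl⟩ := QuotientGroup.mk_surjective x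
  let P : (↥π.ker ⧸ F.subgroupOf π.ker) → Prop := fun v =>
    ∀ b : ↥π.ker, (b : ↥π.ker ⧸ F.subgroupOf π.ker) = v → (b : G) * b = (x : G) * x
  have hPmk : ∀ b : ↥π.ker, P b ↔ (b : G) * b = (x : G) * x := fun b =>
    ⟨fun h => h b rfl, fun h b' hb' => by rw [hsqwd b' b hb']; exact h⟩
  have hPinv : ∀ v, P (secAut π.ker F d v) ↔ P v := by
    intro v
    obtain ⟨b, rfl⟩ := QuotientGroup.mk_surjective v
    rw [secAut_mk, hPmk, hPmk, MulAut.conjNormal_apply,
      show d * (b : G) * d⁻¹ * (d * b * d⁻¹) = d * ((b : G) * b) * d⁻¹ by group,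
      c.F_central d _ (c.sq _ b.2), mul_inv_cancel_right]
  have hsq : ∀ a : ↥π.ker, (a : ↥π.ker ⧸ F.subgroupOf π.ker) ∈ H →
      (a : ↥π.ker ⧸ F.subgroupOf π.ker) ≠ 1 → (a : G) * a = (x : G) * x := fun a ha ha1 =>
    (hPmk a).1 (hconst P hPinv _ hx h1 ((hPmk x).2 rfl) _ ha ha1)
  have hw2 : (x : G) * x * ((x : G) * x) = 1 := c.exp _ (c.sq _ x.2)
  have hpol : ∀ a b : ↥π.ker, (a : ↥π.ker ⧸ F.subgroupOf π.ker) ∈ H →
      (b : ↥π.ker ⧸ F.subgroupOf π.ker) ∈ H → (a : ↥π.ker ⧸ F.subgroupOf π.ker) ≠ 1 →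
      (b : ↥π.ker ⧸ F.subgroupOf π.ker) ≠ 1 → (a : ↥π.ker ⧸ F.subgroupOf π.ker) * b ≠ 1 →
      polar (a : G) b = (x : G) * x := by
    intro a b ha hb ha1 hb1 hab
    have h := hsq (a * b) (by rw [QuotientGroup.mk_mul]; exact mul_mem ha hb)
      (by rw [QuotientGroup.mk_mul]; exact hab)
    rw [Subgroup.coe_mul] at h
    have e : (a : G) * b * (a * b) = a * a * polar (a : G) b * (b * b) := by simp only [polar]; group
    rw [e, hsq a ha ha1, hsq b hb hb1, mul_assoc ((x : G) * x), (c.polar_comm a.2 b.2 _).eq, ← mul_assoc,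
      hw2, one_mul] at h
    exact h
  obtain ⟨y, rfl⟩ := QuotientGroup.mk_surjective y
  obtain ⟨z, rfl⟩ := QuotientGroup.mk_surjective z
  have hx1 : (x : G) * x = 1 := by
    have h := hpol x (y * z) hx (by rw [QuotientGroup.mk_mul]; exact mul_mem hy hz) h1
      (by rw [QuotientGroup.mk_mul]; exact h4) (by rw [QuotientGroup.mk_mul]; exact h7)
    rw [Subgroup.coe_mul, polar_right (c.polar_comm x.2 z.2 _), hpol x y hx hy h1 h2 h5,
      hpol x z hx hz h1 h3 h6, hw2] at h
    exact h.symm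
  have hall : ∀ a : ↥π.ker, (a : ↥π.ker ⧸ F.subgroupOf π.ker) ∈ H → (a : G) * a = 1 := fun a ha => by
    by_cases ha1 : (a : ↥π.ker ⧸ F.subgroupOf π.ker) = 1
    · rw [QuotientGroup.eq_one_iff, Subgroup.mem_subgroupOf] at ha1
      exact c.exp _ ha1
    · rw [hsq a ha ha1, hx1]
  refine ⟨hall, fun a b ha hb => ?_⟩
  have h := hall (a * b) (by rw [QuotientGroup.mk_mul]; exact mul_mem ha hb)
  rw [Subgroup.coe_mul,
    show (a : G) * b * (a * b) = a * a * polar (a : G) b * (b * b) by simp only [polar]; group,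
    hall a ha, hall b hb, one_mul, mul_one] at h
  exact h

/-- The two shapes when the Frattini part is central elementary. -/
theorem central_cases [F.Normal] :
    (Nat.card (↥π.ker ⧸ F.subgroupOf π.ker) = 8 ∧ F = ⊥) ∨
      (Nat.card (↥π.ker ⧸ F.subgroupOf π.ker) = 16 ∧ (∀ a ∈ π.ker, ∀ b ∈ π.ker, a * b = b * a) ∧
        ∃ z ∈ π.ker, ∀ f ∈ F, f = 1 ∨ f = z * z) := by
  obtain ⟨d, hd⟩ := c.surj D7
  rcases c.card_cases with hV | hV
  · refine Or.inl ⟨hV, ?_⟩
    have hfix : ∀ v, secAut π.ker F d v = v → v = 1 := by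
      rcases seven_fixed (quot_sq c.sq) (hV.le.trans (by norm_num)) (c.pow_seven _ c.sec_ker hd)
        (fun e => c.sec_ne (hom_eq_one₃ c.surj _ c.sec_ker hd e)) with ⟨-, h⟩ | ⟨h, -⟩
      · intro v hv
        exact Subgroup.mem_bot.1 ((Subgroup.card_eq_one.1 h) ▸ mem_fixed.2 hv)
      · rw [hV] at h; omega
    obtain ⟨hsq, -⟩ := c.trivial_on (d := d) ⊤ (by rw [Subgroup.card_top]; exact hV) fun P hP x _ hx1 hPx y _ hy =>
      const_eight hV (c.pow_seven _ c.sec_ker hd) hfix P hP hx1 hPx y hy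
    rw [eq_bot_iff]
    refine c.gen.trans ?_
    rw [Subgroup.closure_le]
    rintro _ ⟨q, hq, rfl⟩
    exact Subgroup.mem_bot.2 (hsq ⟨q, hq⟩ (Subgroup.mem_top _))
  · obtain ⟨z, s⟩ := c.seven_V hV hd
    obtain ⟨hsq, hpol⟩ := c.trivial_on (d := d) (diffs s.h2 (secAut π.ker F d)) s.card_diffs
      fun P hP x hx hx1 hPx y hy hy1 => s.const_diffs P hP hx hx1 hPx y hy hy1
    have hab := comm_of_seven c.le s c.cent
      (fun a ha b hb g => mul_inv_eq_iff_eq_mul.2 (c.polar_comm ha hb g).symm.eq)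
      (fun a ha b hb => c.exp _ (c.polar_mem ha hb)) hpol
    refine Or.inr ⟨hV, hab, ?_⟩
    obtain ⟨z0, rfl⟩ := QuotientGroup.mk_surjective z
    refine ⟨z0, z0.2, fun f hf => mem_zpowers_two (c.exp _ (c.sq _ z0.2)) ?_⟩
    refine (c.gen.trans ((Subgroup.closure_le _).2 ?_)) hf
    rintro _ ⟨q, hq, rfl⟩
    by_cases hqH : ((⟨q, hq⟩ : ↥π.ker) : ↥π.ker ⧸ F.subgroupOf π.ker) ∈ diffs s.h2 (secAut π.ker F d)
    · show q * q ∈ _
      rw [hsq ⟨q, hq⟩ hqH]; exact one_mem _
    · have h1 := hsq (z0⁻¹ * ⟨q, hq⟩) (by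
        rw [QuotientGroup.mk_mul, QuotientGroup.mk_inv]
        exact (Subgroup.mul_mem_iff_of_index_two s.index_diffs).2
          (iff_of_false (fun h => s.z_notMem (inv_mem_iff.1 h)) hqH))
      rw [Subgroup.coe_mul, Subgroup.coe_inv] at h1
      change (z0 : G)⁻¹ * q * ((z0 : G)⁻¹ * q) = 1 at h1
      show q * q ∈ _
      have hc : Commute (z0 : G) q := hab _ z0.2 _ hq
      have h2 : q * q = (z0 : G) * z0 * ((z0 : G)⁻¹ * q * ((z0 : G)⁻¹ * q)) := by
        rw [mul_assoc ((z0 : G)⁻¹) q, ← mul_assoc q, hc.inv_left.symm.eq]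
        group
      rw [h2, h1, mul_one]
      exact Subgroup.mem_zpowers _

end Ctx3

set_option maxHeartbeats 1000000 in
/-- The kernel is elementary abelian of order eight or sixteen or `Z₄ × E₈`. -/
theorem kernel_structure₃ [Finite G] {π : G →* SL32} (hπ : Function.Surjective π)
    (hQ : IsPGroup 2 π.ker) (hC : Subgroup.centralizer (π.ker : Set G) ≤ π.ker) (hR4 : RankFour G) :
    ((∀ q ∈ π.ker, q * q = 1) ∧ (Nat.card π.ker = 8 ∨ Nat.card π.ker = 16)) ∨
      ((∀ a ∈ π.ker, ∀ b ∈ π.ker, a * b = b * a) ∧ Nat.card π.ker = 32 ∧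
        ∃ x ∈ π.ker, x * x ≠ 1 ∧ x * x * (x * x) = 1 ∧ ∀ q ∈ π.ker, q * q = 1 ∨ q * q = x * x) := by
  haveI : Fact (Nat.Prime 2) := ⟨Nat.prime_two⟩
  obtain ⟨g0, q0, hq0, hg0'⟩ := act_of_selfCentralizing₃ hπ hQ hC
  have hg0 : q0⁻¹ * (g0 * q0 * g0⁻¹) ∉ sqs π.ker := fun h => hg0' (by
    have := (sqs_normal π.ker).conj_mem _ h q0
    simpa [mul_assoc] using this)
  set Q := π.ker with hQdef
  set F := sqs Q with hFdef
  haveI hFn : F.Normal := sqs_normal Q
  haveI : (sqs F).Normal := sqs_normal F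
  set R := ⁅Q, F⁆ ⊔ sqs F with hRdef
  have hRF : R ≤ F := sup_le (Subgroup.commutator_le_right Q F) (sqs_le F)
  have hFQ : F ≤ Q := sqs_le Q
  haveI hRn : R.Normal := by rw [hRdef]; infer_instance
  have hRbot : R = ⊥ := by
    set p := QuotientGroup.mk' R with hp
    let π' : G ⧸ R →* SL32 := QuotientGroup.lift R π ((hRF.trans hFQ).trans hQdef.le)
    have hker : π'.ker = Q.map p := by
      ext u
      obtain ⟨u, rfl⟩ := QuotientGroup.mk_surjective u
      constructor
      · intro hu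
        exact ⟨u, hu, rfl⟩
      · rintro ⟨v, hv, he⟩
        rw [← he]
        exact hv
    haveI : (F.map p).Normal := hFn.map p (QuotientGroup.mk'_surjective R)
    have hpmem : ∀ u : G, p u ∈ F.map p ↔ u ∈ F := by
      intro u
      refine ⟨fun ⟨v, hv, he⟩ => ?_, fun h => ⟨u, h, rfl⟩⟩
      rw [hp, QuotientGroup.mk'_eq_mk'] at he
      obtain ⟨r, hr, rfl⟩ := he
      exact mul_mem hv (hRF hr)
    have c : Ctx3 π' (F.map p) :=
      { surj := fun a => by obtain ⟨g, rfl⟩ := hπ a; exact ⟨p g, rfl⟩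
        le := by rw [hker]; exact Subgroup.map_mono hFQ
        normal := inferInstance
        sq := by
          rw [hker]
          rintro _ ⟨q, hq, rfl⟩
          exact ⟨q * q, sq_mem_sqs hq, map_mul p q q⟩
        cent := by
          rw [hker]
          rintro _ ⟨f, hf, rfl⟩ _ ⟨q, hq, rfl⟩
          have h1 : p ⁅q, f⁆ = 1 := (QuotientGroup.eq_one_iff _).2
            (Subgroup.mem_sup_left (Subgroup.commutator_mem_commutator hq hf))
          rw [map_commutatorElement, commutatorElement_eq_one_iff_commute] at h1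
          exact h1.symm.eq
        exp := by
          rintro _ ⟨f, hf, rfl⟩
          rw [← map_mul]
          exact (QuotientGroup.eq_one_iff _).2 (Subgroup.mem_sup_right (sq_mem_sqs hf))
        rank := hR4.quotient R
        act := ⟨p g0, p q0, by rw [hker]; exact ⟨q0, hq0, rfl⟩, fun h => hg0 (by
          rwa [← map_inv, ← map_inv, ← map_mul, ← map_mul, ← map_mul, hpmem] at h)⟩
        gen := by rw [hFdef, map_sqs, hker, sqs] }
    set R2 := ⁅Q, R⁆ ⊔ sqs R with hR2
    haveI : (sqs R).Normal := sqs_normal R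
    haveI hR2n : R2.Normal := by rw [hR2]; infer_instance
    have hR2R : R2 ≤ R := sup_le (Subgroup.commutator_le_right Q R) (sqs_le R)
    refine eq_bot_of_le_comm_sqs hQ (hRF.trans hFQ) ?_
    change R ≤ R2
    set p2 := QuotientGroup.mk' R2 with hp2
    have hRc : ∀ r ∈ R, ∀ q ∈ Q, Commute (p2 r) (p2 q) := fun r hr q hq => by
      have h1 : p2 ⁅q, r⁆ = 1 := (QuotientGroup.eq_one_iff _).2
        (Subgroup.mem_sup_left (Subgroup.commutator_mem_commutator hq hr))
      rw [map_commutatorElement, commutatorElement_eq_one_iff_commute] at h1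
      exact h1.symm
    have hR2' : ∀ r ∈ R, p2 r * p2 r = 1 := fun r hr => by
      rw [← map_mul]
      exact (QuotientGroup.eq_one_iff _).2 (Subgroup.mem_sup_right (sq_mem_sqs hr))
    suffices hsuf : (∀ q ∈ Q, ∀ f ∈ F, Commute (p2 q) (p2 f)) ∧ ∀ f ∈ F, p2 f * p2 f = 1 by
      refine sup_le (Subgroup.commutator_le.2 fun q hq f hf => ?_) ?_
      · refine (QuotientGroup.eq_one_iff _).1 ?_
        show p2 ⁅q, f⁆ = 1
        rw [map_commutatorElement, commutatorElement_eq_one_iff_commute]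
        exact hsuf.1 q hq f hf
      · rw [sqs, Subgroup.closure_le]
        rintro _ ⟨f, hf, rfl⟩
        refine (QuotientGroup.eq_one_iff _).1 ?_
        show p2 (f * f) = 1
        rw [map_mul]
        exact hsuf.2 f hf
    by_cases hbot : F.map p = ⊥
    · have hFR : ∀ f ∈ F, f ∈ R := fun f hf => (QuotientGroup.eq_one_iff f).1
        (Subgroup.mem_bot.1 (hbot ▸ ⟨f, hf, rfl⟩ : p f ∈ (⊥ : Subgroup (G ⧸ R))))
      exact ⟨fun q hq f hf => (hRc f (hFR f hf) q hq).symm, fun f hf => hR2' f (hFR f hf)⟩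
    obtain ⟨hV, hab', u, hu, huF⟩ := (c.central_cases).resolve_left fun h => hbot h.2
    rw [hker] at hu hab'
    obtain ⟨x0, hx0, rfl⟩ := hu
    set z := x0 * x0 with hzdef
    have hzF : z ∈ F := sq_mem_sqs hx0
    have hpz : p z = p x0 * p x0 := map_mul p x0 x0
    have hzR : z ∉ R := fun h => hbot (eq_bot_iff.2 fun f hf => by
      rcases huF f hf with e | e
      · exact Subgroup.mem_bot.2 e
      · rw [Subgroup.mem_bot, e, ← hpz]; exact (QuotientGroup.eq_one_iff z).2 h)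
    have htwo : ∀ f ∈ F, f ∈ R ∨ z⁻¹ * f ∈ R := by
      intro f hf
      rcases huF (p f) ⟨f, hf, rfl⟩ with e | e
      · exact Or.inl ((QuotientGroup.eq_one_iff f).1 e)
      · refine Or.inr (QuotientGroup.eq.1 ?_)
        rw [← hpz] at e
        exact e.symm
    -- commutators modulo `R2`
    have hκR : ∀ a ∈ Q, ∀ b ∈ Q, polar a b ∈ R := fun a ha b hb => by
      refine (QuotientGroup.eq_one_iff _).1 ?_
      show p (polar a b) = 1
      rw [polar, map_mul, map_inv, map_mul, map_mul, map_inv, inv_mul_eq_one,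
        eq_mul_inv_iff_mul_eq]
      exact hab' _ ⟨a, ha, rfl⟩ _ ⟨b, hb, rfl⟩
    have hpκ : ∀ a b, p2 (polar a b) = polar (p2 a) (p2 b) := fun a b => by simp [polar]
    have hsqc : ∀ a ∈ Q, ∀ b ∈ Q, Commute (p2 (a * a)) (p2 b) := fun a ha b hb => by
      refine polar_eq_one_iff.1 ?_
      rw [map_mul, polar_left (by rw [← hpκ]; exact hRc _ (hκR a ha b hb) a ha), ← hpκ]
      exact hR2' _ (hκR a ha b hb)
    have hFc : ∀ q ∈ Q, ∀ f ∈ F, Commute (p2 q) (p2 f) := by
      intro q hq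
      suffices F ≤ (Subgroup.centralizer ({p2 q} : Set (G ⧸ R2))).comap p2 from fun f hf =>
        (show Commute (p2 f) (p2 q) from Subgroup.mem_centralizer_singleton_iff.1 (this hf)).symm
      rw [hFdef, sqs, Subgroup.closure_le]
      rintro _ ⟨a, ha, rfl⟩
      exact Subgroup.mem_centralizer_singleton_iff.2 (hsqc a ha q hq).eq
    have hFsq : ∀ f ∈ F, p2 f * p2 f = 1 ∨ p2 f * p2 f = p2 z * p2 z := by
      intro f hf
      rcases htwo f hf with h | h
      · exact Or.inl (hR2' f h)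
      · refine Or.inr ?_
        have hc4 : Commute (p2 (z⁻¹ * f)) (p2 z) := hRc _ h z (hFQ hzF)
        have hfe : p2 f = p2 z * p2 (z⁻¹ * f) := by rw [← map_mul, mul_inv_cancel_left]
        rw [hfe, mul_assoc, ← mul_assoc (p2 (z⁻¹ * f)), hc4.eq, mul_assoc (p2 z) (p2 (z⁻¹ * f)), hR2' _ h,
          mul_one]
    refine ⟨hFc, fun f hf => ?_⟩
    by_cases hzz : p2 z * p2 z = 1
    · exact (hFsq f hf).elim id fun h => h.trans hzz
    -- the remaining group would be `Z₈ × E₈`
    exfalso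
    set w := p2 z * p2 z with hwdef
    have hw2 : w * w = 1 := by
      rw [hwdef, ← map_mul]
      exact hR2' _ (Subgroup.mem_sup_right (sq_mem_sqs hzF))
    have hR2' : R.map p2 ≤ Subgroup.zpowers w := by
      rw [Subgroup.map_le_iff_le_comap, hRdef]
      refine sup_le (Subgroup.commutator_le.2 fun q hq f hf => ?_) ?_
      · rw [Subgroup.mem_comap, map_commutatorElement,
          commutatorElement_eq_one_iff_commute.2 (hFc q hq f hf)]
        exact one_mem _
      · rw [sqs, Subgroup.closure_le]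
        rintro _ ⟨f, hf, rfl⟩
        show f * f ∈ (Subgroup.zpowers w).comap p2
        rw [Subgroup.mem_comap, map_mul]
        rcases hFsq f hf with h | h <;> rw [h]
        exacts [one_mem _, Subgroup.mem_zpowers _]
    let π2 : G ⧸ R2 →* SL32 := QuotientGroup.lift R2 π (((hR2R.trans hRF).trans hFQ).trans hQdef.le)
    have hπ2 : Function.Surjective π2 := fun a => by obtain ⟨g, rfl⟩ := hπ a; exact ⟨p2 g, rfl⟩
    have hker2 : π2.ker = Q.map p2 := by
      ext u
      obtain ⟨u, rfl⟩ := QuotientGroup.mk_surjective u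
      constructor
      · intro hu
        exact ⟨u, hu, rfl⟩
      · rintro ⟨v, hv, he⟩
        rw [← he]
        exact hv
    have hz4 : orderOf (p2 z) = 4 := by
      refine orderOf_eq_prime_pow (p := 2) (n := 1) ?_ ?_
      · rw [pow_one, pow_two]; exact hzz
      · rw [show 2 ^ (1 + 1) = 2 * 2 from rfl, pow_mul, pow_two, pow_two]; exact hw2
    have hwz : w ∈ Subgroup.zpowers (p2 z) := mul_mem (Subgroup.mem_zpowers _) (Subgroup.mem_zpowers _)
    have hF2 : F.map p2 = Subgroup.zpowers (p2 z) := by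
      refine le_antisymm ?_ (Subgroup.zpowers_le.2 ⟨z, hzF, rfl⟩)
      rintro _ ⟨f, hf, rfl⟩
      rcases htwo f hf with h | h
      · exact (Subgroup.zpowers_le.2 hwz) (hR2' ⟨f, h, rfl⟩)
      · have hfe : p2 f = p2 z * p2 (z⁻¹ * f) := by rw [← map_mul, mul_inv_cancel_left]
        rw [hfe]
        exact mul_mem (Subgroup.mem_zpowers _) ((Subgroup.zpowers_le.2 hwz) (hR2' ⟨_, h, rfl⟩))
    haveI : (F.map p2).Normal := hFn.map p2 (QuotientGroup.mk'_surjective R2)
    have hwval : ∀ r ∈ R, p2 r = 1 ∨ p2 r = w := fun r hr => mem_zpowers_two hw2 (hR2' ⟨r, hr, rfl⟩)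
    have hwc : ∀ g, g * w * g⁻¹ = w := by
      intro g
      obtain ⟨g, rfl⟩ := QuotientGroup.mk'_surjective R2 g
      have h1 : p2 g * w * (p2 g)⁻¹ = p2 (g * (z * z) * g⁻¹) := by
        show p2 g * (p2 z * p2 z) * (p2 g)⁻¹ = _
        rw [← map_inv, ← map_mul, ← map_mul, ← map_mul]
      rw [h1]
      refine (hwval _ (hRn.conj_mem _ (Subgroup.mem_sup_right (sq_mem_sqs hzF)) g)).resolve_left ?_
      rw [← h1, conj_eq_one_iff]
      exact hzz
    have hcardV : Nat.card (↥π2.ker ⧸ (F.map p2).subgroupOf π2.ker) = 16 := by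
      have e1 := card_quot_sub (P := π2.ker) (F := F.map p2) (by rw [hker2]; exact Subgroup.map_mono hFQ)
      have e2 := card_quot_sub (P := π'.ker) (F := F.map p) c.le
      have e3 := card_map_mk R hRF
      have e4 := card_map_mk R (hRF.trans hFQ)
      have e5 := card_map_mk R2 (hR2R.trans hRF)
      have e6 := card_map_mk R2 ((hR2R.trans hRF).trans hFQ)
      have c1 : Nat.card π'.ker = Nat.card (Q.map p) := by rw [hker]
      have c2 : Nat.card π2.ker = Nat.card (Q.map p2) := by rw [hker2]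
      rw [c1, hV] at e2
      rw [c2] at e1
      have h1 : 16 * Nat.card F = Nat.card Q := by rw [← e3, ← e4, ← mul_assoc, e2]
      have h2 : Nat.card (↥π2.ker ⧸ (F.map p2).subgroupOf π2.ker) * Nat.card F = Nat.card Q := by
        rw [← e5, ← e6, ← mul_assoc, e1]
      exact Nat.eq_of_mul_eq_mul_right Nat.card_pos (h2.trans h1.symm)
    obtain ⟨d, hd⟩ := hπ2 D7
    have hsq2 : ∀ a ∈ π2.ker, a * a ∈ F.map p2 := by
      rw [hker2]
      rintro _ ⟨q, hq, rfl⟩
      exact ⟨q * q, sq_mem_sqs hq, map_mul p2 q q⟩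
    have hcent2 : ∀ f ∈ F.map p2, ∀ q ∈ π2.ker, f * q = q * f := by
      rw [hker2]
      rintro _ ⟨f, hf, rfl⟩ _ ⟨q, hq, rfl⟩
      exact (hFc q hq f hf).symm.eq
    have hval2 : ∀ a ∈ π2.ker, ∀ b ∈ π2.ker, polar a b = 1 ∨ polar a b = w := by
      rw [hker2]
      rintro _ ⟨a, ha, rfl⟩ _ ⟨b, hb, rfl⟩
      rw [← hpκ]
      exact hwval _ (hκR a ha b hb)
    have hact2 : ∃ g, ∃ a ∈ π2.ker, a⁻¹ * (g * a * g⁻¹) ∉ F.map p2 := by
      refine ⟨p2 g0, p2 q0, by rw [hker2]; exact ⟨q0, hq0, rfl⟩, fun h => hg0 ?_⟩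
      rw [← map_inv, ← map_inv, ← map_mul, ← map_mul, ← map_mul] at h
      obtain ⟨v, hv, he⟩ := h
      rw [hp2, QuotientGroup.mk'_eq_mk'] at he
      obtain ⟨r, hr, he⟩ := he
      rw [← he]
      exact mul_mem hv ((hR2R.trans hRF) hr)
    have hk2 : π2.ker ≤ (secAut π2.ker (F.map p2)).ker := secAut_ker_of_comm fun q hq a ha => by
      rw [show a⁻¹ * (q * a * q⁻¹) = polar a q from rfl]
      rcases hval2 a ha q hq with h | h <;> rw [h]
      · exact one_mem _
      · rw [hF2]; exact hwz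
    have h7 : secAut π2.ker (F.map p2) d ^ 7 = 1 := by
      rw [← map_pow]
      exact hk2 (by rw [MonoidHom.mem_ker, map_pow, hd, D7_pow])
    obtain ⟨v, s⟩ := seven_of (quot_sq hsq2) hcardV h7 fun e =>
      secAut_ne_one' hact2 (hom_eq_one₃ hπ2 _ hk2 hd e)
    have hFle : F.map p2 ≤ π2.ker := by rw [hker2]; exact Subgroup.map_mono hFQ
    have hκc2 : ∀ a ∈ π2.ker, ∀ b ∈ π2.ker, ∀ g, g * polar a b * g⁻¹ = polar a b := fun a ha b hb g => by
      rcases hval2 a ha b hb with h | h <;> rw [h]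
      · group
      · exact hwc g
    have hab2 := comm_of_seven hFle s hcent2 hκc2
      (fun a ha b hb => by rcases hval2 a ha b hb with h | h <;> rw [h]; exacts [one_mul 1, hw2])
      (comm_diffs_of_two hFle s hcent2 hw2 hwc hval2)
    have hzsq : p2 x0 * p2 x0 = p2 z := (map_mul p2 x0 x0).symm
    refine false_cyclic_eight hπ2 (hR4.quotient R2) hab2 ?_ (x₀ := p2 x0)
      (by rw [hker2]; exact ⟨x0, hx0, rfl⟩) ?_ ?_ ?_ ?_
    · rw [← card_quot_sub hFle, hcardV, hF2, Nat.card_zpowers, hz4]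
    · rw [show 8 = 2 * 4 from rfl, pow_mul, pow_two, hzsq, ← hz4, pow_orderOf_eq_one]
    · rw [show 4 = 2 * 2 from rfl, pow_mul, pow_two, pow_two, hzsq]; exact hzz
    · rw [hzsq, ← hF2]; exact hsq2
    · rw [hzsq, ← hF2]; exact hact2
  -- now `F` is central and elementary
  have c : Ctx3 π F :=
    { surj := hπ
      le := hFQ
      normal := hFn
      sq := fun q hq => sq_mem_sqs hq
      cent := fun f hf q hq => by
        have h1 : ⁅q, f⁆ ∈ R := Subgroup.mem_sup_left (Subgroup.commutator_mem_commutator hq hf)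
        rw [hRbot, Subgroup.mem_bot, commutatorElement_eq_one_iff_commute] at h1
        exact h1.symm.eq
      exp := fun f hf => by
        have h1 : f * f ∈ R := Subgroup.mem_sup_right (sq_mem_sqs hf)
        rwa [hRbot, Subgroup.mem_bot] at h1
      rank := hR4
      act := ⟨g0, q0, hq0, hg0⟩
      gen := le_rfl }
  have hcard := card_quot_sub c.le
  by_cases hbot : F = ⊥
  · refine Or.inl ⟨fun q hq => ?_, ?_⟩
    · have := sq_mem_sqs hq
      rw [← hFdef, hbot, Subgroup.mem_bot] at this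
      exact this
    · rw [show Nat.card F = 1 by rw [hbot, Subgroup.card_bot], mul_one] at hcard
      rw [← hcard]
      exact c.card_cases
  obtain ⟨hV, hab, x, hx, hxF⟩ := c.central_cases.resolve_left fun h => hbot h.2
  have hx1 : x * x ≠ 1 := fun h => hbot (eq_bot_iff.2 fun f hf => Subgroup.mem_bot.2
    ((hxF f hf).elim id fun e => e.trans h))
  have hx4 : x * x * (x * x) = 1 := c.exp _ (sq_mem_sqs hx)
  have hFz : F = Subgroup.zpowers (x * x) := le_antisymm (fun f hf => by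
    rcases hxF f hf with rfl | rfl
    exacts [one_mem _, Subgroup.mem_zpowers _]) (Subgroup.zpowers_le.2 (sq_mem_sqs hx))
  refine Or.inr ⟨hab, ?_, x, hx, hx1, hx4, fun q hq => hxF _ (sq_mem_sqs hq)⟩
  rw [← hcard, hV, show Nat.card F = 2 by
    rw [hFz, Nat.card_zpowers, orderOf_eq_prime (by rw [pow_two, hx4]) hx1]]

theorem vec_basis : ∀ v : Fin 3 → ZMod 2, (v 0).val • (Pi.single 0 1 : Fin 3 → ZMod 2) +
    (v 1).val • (Pi.single 1 1 : Fin 3 → ZMod 2) + (v 2).val • (Pi.single 2 1 : Fin 3 → ZMod 2) = v := by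
  decide +kernel

/-- A finite abelian group of order thirty-two with a single nontrivial square is `Z₄ × E₈`. -/
theorem four_eight_iso {Q : Type*} [Group Q] [Finite Q] (hab : ∀ a b : Q, a * b = b * a)
    (h32 : Nat.card Q = 32) {x : Q} (hx : x * x ≠ 1) (hx4 : x * x * (x * x) = 1)
    (hsq : ∀ q : Q, q * q = 1 ∨ q * q = x * x) :
    Nonempty (Q ≃* Multiplicative (ZMod 4) × (Fin 3 → Multiplicative (ZMod 2))) := by
  classical
  haveI : Fact (Nat.Prime 2) := ⟨Nat.prime_two⟩
  letI : CommGroup Q := { (inferInstance : Group Q) with mul_comm := hab }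
  have hpw : ∀ (n : ℕ) [NeZero n] (a : Q), a ^ n = 1 → ∃ f : Multiplicative (ZMod n) →* Q,
      ∀ i : ZMod n, f (Multiplicative.ofAdd i) = a ^ i.val := by
    intro n _ a ha
    refine ⟨MonoidHom.mk' (fun i => a ^ i.toAdd.val) fun i j => ?_, fun i => rfl⟩
    rw [← pow_add, pow_eq_pow_iff_modEq, toAdd_mul, ZMod.val_add]
    exact Nat.ModEq.of_dvd (orderOf_dvd_of_pow_eq_one ha) (Nat.mod_modEq _ _)
  have ho : orderOf x = 4 := by
    refine orderOf_eq_prime_pow (p := 2) (n := 1) ?_ ?_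
    · rw [pow_one, pow_two]; exact hx
    · rw [show 2 ^ (1 + 1) = 2 * 2 from rfl, pow_mul, pow_two, pow_two]; exact hx4
  let N := Subgroup.zpowers x
  have hN : Nat.card N = 4 := by rw [Nat.card_zpowers, ho]
  have h8 : Nat.card (Q ⧸ N) = 8 := by
    have h := N.card_eq_card_quotient_mul_card_subgroup
    rw [h32, hN] at h
    omega
  have h2 : ∀ v : Q ⧸ N, v * v = 1 := by
    intro v
    obtain ⟨q, rfl⟩ := QuotientGroup.mk_surjective v
    rw [← QuotientGroup.mk_mul, QuotientGroup.eq_one_iff]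
    rcases hsq q with h | h <;> rw [h]
    exacts [one_mem _, mul_mem (Subgroup.mem_zpowers x) (Subgroup.mem_zpowers x)]
  obtain ⟨e, he⟩ := exists_coord h2 h8
  have hlift : ∀ v, ∃ q : Q, q * q = 1 ∧ e q = v := by
    intro v
    obtain ⟨q, hq⟩ := QuotientGroup.mk_surjective (e.symm v)
    rcases hsq q with h | h
    · exact ⟨q, h, by rw [hq, e.apply_symm_apply]⟩
    · refine ⟨q * x, by rw [mul_mul_mul_comm, h, hx4], ?_⟩
      rw [QuotientGroup.mk_mul, (QuotientGroup.eq_one_iff x).2 (Subgroup.mem_zpowers x), mul_one, hq,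
        e.apply_symm_apply]
  choose l hl hle using hlift
  obtain ⟨f4, hf4⟩ := hpw 4 x (by rw [show 4 = 2 * 2 from rfl, pow_mul, pow_two, pow_two]; exact hx4)
  have hf2 : ∀ i : Fin 3, ∃ f : Multiplicative (ZMod 2) →* Q,
      ∀ j : ZMod 2, f (Multiplicative.ofAdd j) = l (Pi.single i 1) ^ j.val := fun i =>
    hpw 2 _ (by rw [pow_two]; exact hl _)
  choose f2 hf2 using hf2
  let Φ : Multiplicative (ZMod 4) × (Fin 3 → Multiplicative (ZMod 2)) →* Q :=
    f4.coprod ((f2 0).comp (Pi.evalMonoidHom _ 0) * (f2 1).comp (Pi.evalMonoidHom _ 1) *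
      (f2 2).comp (Pi.evalMonoidHom _ 2))
  have hsurj : Function.Surjective Φ := by
    intro q
    let v := e (q : Q ⧸ N)
    let u : Q := l (Pi.single 0 1) ^ (v 0).val * l (Pi.single 1 1) ^ (v 1).val * l (Pi.single 2 1) ^ (v 2).val
    have he0 : e (1 : Q ⧸ N) = 0 := by
      have := he 1 1
      rw [mul_one] at this
      exact left_eq_add.1 this
    have hepow : ∀ (a : Q) (n : ℕ), e ((a ^ n : Q) : Q ⧸ N) = n • e (a : Q ⧸ N) := by
      intro a n
      induction n with
      | zero => rw [pow_zero, zero_smul, QuotientGroup.mk_one, he0]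
      | succ n ih => rw [pow_succ, QuotientGroup.mk_mul, he, ih, succ_nsmul]
    have hu : e (u : Q ⧸ N) = v := by
      simp only [u, QuotientGroup.mk_mul, he, hepow, hle]
      exact vec_basis v
    have hmem : u⁻¹ * q ∈ N := QuotientGroup.eq.1 (e.injective hu)
    obtain ⟨j, hj⟩ := (Submonoid.mem_powers_iff _ x).1 (mem_powers_iff_mem_zpowers.2 hmem)
    refine ⟨(Multiplicative.ofAdd (j : ZMod 4), fun i => Multiplicative.ofAdd (v i)), ?_⟩
    show f4 (Multiplicative.ofAdd (j : ZMod 4)) * (f2 0 (Multiplicative.ofAdd (v 0)) *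
      f2 1 (Multiplicative.ofAdd (v 1)) * f2 2 (Multiplicative.ofAdd (v 2))) = q
    rw [hf4, hf2, hf2, hf2]
    rw [ZMod.val_natCast, ← ho, pow_mod_orderOf, hj]
    show u⁻¹ * q * u = q
    rw [mul_comm, mul_inv_cancel_left]
  refine ⟨(MulEquiv.ofBijective Φ ?_).symm⟩
  haveI := Fintype.ofFinite Q
  rw [Fintype.bijective_iff_surjective_and_card]
  refine ⟨hsurj, ?_⟩
  rw [← Nat.card_eq_fintype_card (α := Q), h32]
  rfl

end CfsgLib.SmallRadical
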