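import Cfsg.Prelude.Def_Local
import Cfsg.Agent.Constrained.Basic
import Cfsg.Agent.SmallRadical.Stage

/-! Reduction of the frozen hypotheses. -/

set_option autoImplicit false

namespace CfsgLib.SmallRadical

theorem centralizer_pCore_le {X : Type*} [Group X] [Finite X] (hc : Cfsg.IsPConstrained 2 X)
    (hO : Cfsg.oddCore X = ⊥) :
    Subgroup.centralizer (Cfsg.pCore 2 X : Set X) ≤ Cfsg.pCore 2 X := by
  haveI : Fact (Nat.Prime 2) := ⟨Nat.prime_two⟩
  have hQ : IsPGroup 2 ↥(Cfsg.pCore 2 X) := CfsgLib.Constrained.isPGroup_pCore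
  have hPP : Cfsg.pPrimePCore 2 X = Cfsg.pCore 2 X := by
    refine le_antisymm (CfsgLib.Constrained.le_pCore (Subgroup.Normal.comap inferInstance _) ?_) ?_
    · refine CfsgLib.Constrained.isPGroup_comap_mk ?_ CfsgLib.Constrained.isPGroup_pCore
      rw [show Cfsg.pPrimeCore 2 X = ⊥ from hO]
      exact IsPGroup.of_bot
    · exact CfsgLib.Constrained.le_pPrimePCore inferInstance (hQ.map _)
  obtain ⟨P⟩ : Nonempty (Sylow 2 ↥(Cfsg.pPrimePCore 2 X)) := inferInstance
  have hall : IsPGroup 2 ↥(Cfsg.pPrimePCore 2 X) := hPP ▸ hQ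
  have htop : (P : Subgroup ↥(Cfsg.pPrimePCore 2 X)) = ⊤ :=
    (P.is_maximal' (hall.to_subgroup ⊤) le_top).symm
  have h := hc P
  rw [htop, ← MonoidHom.range_eq_map, Subgroup.range_subtype, hPP] at h
  exact h

theorem RankFour.subgroup {X : Type*} [Group X] (h : RankFour X) (Y : Subgroup X) : RankFour ↥Y := by
  intro H N hle hn hsq
  have h1 := h (H.map Y.subtype) (N.map Y.subtype) (Subgroup.map_mono hle) (by
    rintro _ ⟨a, ha, rfl⟩ _ ⟨b, hb, rfl⟩
    exact ⟨_, hn a ha b hb, by simp⟩) (by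
    rintro _ ⟨a, ha, rfl⟩
    exact ⟨_, hsq a ha, by simp⟩)
  rwa [Subgroup.card_map_of_injective Y.subtype_injective,
    Subgroup.card_map_of_injective Y.subtype_injective] at h1

end CfsgLib.SmallRadical
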