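import Cfsg.Agent.SmallRadical.Stage
import Cfsg.Agent.SmallRadical.Central
import Cfsg.Agent.Frobenius57.ElementOrder

/-! The radical of a 2-constrained group of sectional 2-rank four over the alternating group of degree
five. -/

set_option autoImplicit false

namespace CfsgLib.SmallRadical

open scoped commutatorElement

variable {G : Type*} [Group G]

/-- The subgroup generated by the squares of the elements of a subgroup. -/
def sqs (Q : Subgroup G) : Subgroup G := Subgroup.closure ((fun q => q * q) '' (Q : Set G))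

theorem sq_mem_sqs {Q : Subgroup G} {q : G} (hq : q ∈ Q) : q * q ∈ sqs Q :=
  Subgroup.subset_closure ⟨q, hq, rfl⟩

theorem sqs_le (Q : Subgroup G) : sqs Q ≤ Q := by
  rw [sqs, Subgroup.closure_le]
  rintro _ ⟨q, hq, rfl⟩
  exact mul_mem hq hq

theorem sqs_normal (Q : Subgroup G) [Q.Normal] : (sqs Q).Normal := by
  refine ⟨fun n hn g => ?_⟩
  suffices sqs Q ≤ (sqs Q).comap (MulAut.conj g).toMonoidHom from this hn
  rw [sqs, Subgroup.closure_le]
  rintro _ ⟨q, hq, rfl⟩
  show g * (q * q) * g⁻¹ ∈ sqs Q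
  have : g * (q * q) * g⁻¹ = (g * q * g⁻¹) * (g * q * g⁻¹) := by group
  rw [this]
  exact sq_mem_sqs (‹Q.Normal›.conj_mem q hq g)

theorem map_sqs {G' : Type*} [Group G'] (f : G →* G') (Q : Subgroup G) :
    (sqs Q).map f = sqs (Q.map f) := by
  rw [sqs, sqs, MonoidHom.map_closure, Subgroup.coe_map, Set.image_image, Set.image_image]
  simp only [map_mul]

theorem comm_mem_sqs {Q : Subgroup G} {a b : G} (ha : a ∈ Q) (hb : b ∈ Q) :
    a * b * a⁻¹ * b⁻¹ ∈ sqs Q := by
  have e : a * b * a⁻¹ * b⁻¹ = a * a * ((a⁻¹ * b) * (a⁻¹ * b)) * (b * b)⁻¹ := by group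
  rw [e]
  exact mul_mem (mul_mem (sq_mem_sqs ha) (sq_mem_sqs (mul_mem (inv_mem ha) hb)))
    (inv_mem (sq_mem_sqs hb))

/-- A normal subgroup of a 2-group generated by its commutators with the whole group and its squares
is trivial. -/
theorem eq_bot_of_le_comm_sqs [Finite G] {Q R : Subgroup G} [Q.Normal] [R.Normal] (hQ : IsPGroup 2 Q)
    (hRQ : R ≤ Q) (h : R ≤ ⁅Q, R⁆ ⊔ sqs R) : R = ⊥ := by
  haveI : Fact (Nat.Prime 2) := ⟨Nat.prime_two⟩
  have hle : R ≤ ⁅Q, R⁆ := by
    set p := QuotientGroup.mk' ⁅Q, R⁆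
    have hab : ∀ a ∈ R.map p, ∀ b ∈ R.map p, a * b = b * a := by
      rintro _ ⟨a, ha, rfl⟩ _ ⟨b, hb, rfl⟩
      have h1 : p ⁅a, b⁆ = 1 :=
        (QuotientGroup.eq_one_iff _).2 (Subgroup.commutator_mem_commutator (hRQ ha) hb)
      rw [map_commutatorElement, commutatorElement_eq_one_iff_commute] at h1
      exact h1.eq
    let s : ↥(R.map p) →* ↥(R.map p) := MonoidHom.mk' (fun a => a * a) fun a b => by
      have hba : b * a = a * b := Subtype.ext (hab _ b.2 _ a.2)
      rw [mul_assoc, ← mul_assoc b a b, hba, mul_assoc a b b, ← mul_assoc]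
    have hsurj : Function.Surjective s := by
      rw [← MonoidHom.range_eq_top, eq_top_iff]
      rintro ⟨u, a, ha, rfl⟩ -
      have hmem : p a ∈ (⁅Q, R⁆ ⊔ sqs R).map p := ⟨a, h ha, rfl⟩
      rw [Subgroup.map_sup, show (⁅Q, R⁆).map p = ⊥ from QuotientGroup.map_mk'_self _, bot_sup_eq,
        map_sqs] at hmem
      have hle : sqs (R.map p) ≤ s.range.map (R.map p).subtype := by
        rw [sqs, Subgroup.closure_le]
        rintro _ ⟨q, hq, rfl⟩
        exact ⟨s ⟨q, hq⟩, ⟨_, rfl⟩, rfl⟩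
      obtain ⟨v, hv, he⟩ := hle hmem
      have hve : v = ⟨p a, a, ha, rfl⟩ := Subtype.ext he
      exact hve ▸ hv
    have hinj : Function.Injective s := Finite.injective_iff_surjective.2 hsurj
    have hP : IsPGroup 2 ↥(R.map p) := (hQ.to_le hRQ).map p
    intro a ha
    by_contra hne
    have hu : (⟨p a, a, ha, rfl⟩ : ↥(R.map p)) ≠ 1 := fun e =>
      hne ((QuotientGroup.eq_one_iff a).1 (congrArg Subtype.val e))
    haveI : Nontrivial ↥(R.map p) := ⟨⟨_, _, hu⟩⟩
    obtain ⟨n, hn, hcard⟩ := hP.nontrivial_iff_card.1 inferInstance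
    obtain ⟨v, hv⟩ := exists_prime_orderOf_dvd_card' (G := ↥(R.map p)) 2
      (hcard ▸ dvd_pow_self 2 (by omega))
    have h1 : v = 1 := hinj (by
      rw [map_one]
      show v * v = 1
      rw [← pow_two, ← hv, pow_orderOf_eq_one])
    rw [h1, orderOf_one] at hv
    omega
  obtain ⟨k, hk⟩ := (Subgroup.isNilpotent_iff_lowerCentralSeries Q).1 hQ.isNilpotent
  have key : ∀ i, R ≤ Q.lowerCentralSeries i := by
    intro i
    induction i with
    | zero => simpa using hRQ
    | succ i ih =>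
      rw [Subgroup.lowerCentralSeries_succ]
      refine hle.trans ?_
      rw [Subgroup.commutator_comm]
      exact Subgroup.commutator_mono ih le_rfl
  exact le_bot_iff.1 (hk ▸ key k)

theorem act_of_selfCentralizing [Finite G] {π : G →* A5} (hπ : Function.Surjective π)
    (hQ : IsPGroup 2 π.ker) (hC : Subgroup.centralizer (π.ker : Set G) ≤ π.ker) :
    ∃ g : G, ∃ q ∈ π.ker, g * q * g⁻¹ * q⁻¹ ∉ sqs π.ker := by
  haveI : Fact (Nat.Prime 5) := ⟨by norm_num⟩
  haveI : Fact (Nat.Prime 2) := ⟨Nat.prime_two⟩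
  by_contra hall
  simp only [not_exists, not_and, not_not] at hall
  have h5 : 5 ∣ Nat.card G := by
    refine Dvd.dvd.trans ?_ (Subgroup.card_dvd_of_surjective π hπ)
    rw [← orderOf_eq_prime d₀_pow d₀_ne]
    exact orderOf_dvd_natCard _
  obtain ⟨g, hg⟩ := exists_prime_orderOf_dvd_card' (G := G) 5 h5
  have hσ : (MulAut.conjNormal g : MulAut ↥π.ker) ^ 5 ^ 1 = 1 := by
    have hg5 := pow_orderOf_eq_one g
    rw [hg] at hg5
    rw [pow_one, ← map_pow, hg5, map_one]
  have hone := CfsgLib.Frobenius57.aut_eq_one_of_frattini (show (2 : ℕ) ≠ 5 by norm_num) hQ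
    (MulAut.conjNormal g) hσ (fun x => by
      have hle : sqs π.ker ≤ (frattini ↥π.ker).map π.ker.subtype := by
        rw [sqs, Subgroup.closure_le]
        rintro _ ⟨q, hq, rfl⟩
        refine ⟨(⟨q, hq⟩ : ↥π.ker) ^ 2, (CfsgLib.Frobenius57.pow_mem_frattini hQ _ 1).1, ?_⟩
        simp [pow_two]
      have h1 := hall g x x.2
      haveI := sqs_normal π.ker
      have h2 := (sqs_normal π.ker).conj_mem _ h1 (x : G)⁻¹
      have h3 := hle h2
      obtain ⟨u, hu, he⟩ := h3
      have hxu : x⁻¹ * (MulAut.conjNormal g : MulAut ↥π.ker) x = u := by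
        apply Subtype.ext
        rw [Subgroup.coe_mul, Subgroup.coe_inv, MulAut.conjNormal_apply]
        exact Eq.trans (by group) he.symm
      rw [hxu]
      exact hu)
  have hgQ : g ∈ π.ker := hC (Subgroup.mem_centralizer_iff.2 fun y hy => by
    have h := congrArg (fun a : MulAut ↥π.ker => ((a ⟨y, hy⟩ : ↥π.ker) : G)) hone
    simp only [MulAut.conjNormal_apply, MulAut.one_apply] at h
    exact (mul_inv_eq_iff_eq_mul.1 h).symm)
  obtain ⟨k, hk⟩ := IsPGroup.iff_orderOf.1 hQ ⟨g, hgQ⟩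
  rw [Subgroup.orderOf_mk, hg] at hk
  have h2 : 5 ∣ 2 := (show Nat.Prime 5 by norm_num).dvd_of_dvd_pow (dvd_of_eq hk)
  norm_num at h2

/-- The kernel is elementary abelian of order sixteen or the central product. -/
theorem kernel_structure [Finite G] {π : G →* A5} (hπ : Function.Surjective π)
    (hQ : IsPGroup 2 π.ker) (hC : Subgroup.centralizer (π.ker : Set G) ≤ π.ker) (hR4 : RankFour G) :
    ((∀ q : ↥π.ker, q * q = 1) ∧ Nat.card π.ker = 16) ∨ ∃ z : ↥π.ker, MinusData ↥π.ker z := by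
  haveI : Fact (Nat.Prime 2) := ⟨Nat.prime_two⟩
  obtain ⟨g0, q0, hq0, hg0⟩ := act_of_selfCentralizing hπ hQ hC
  set Q := π.ker with hQdef
  set F := sqs Q with hFdef
  haveI hFn : F.Normal := sqs_normal Q
  haveI : (sqs F).Normal := sqs_normal F
  set R := ⁅Q, F⁆ ⊔ sqs F with hRdef
  have hRF : R ≤ F := sup_le (Subgroup.commutator_le_right Q F) (sqs_le F)
  have hFQ : F ≤ Q := sqs_le Q
  haveI hRn : R.Normal := by rw [hRdef]; infer_instance
  -- the quotient by `R`
  have hRbot : R = ⊥ := by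
    set p := QuotientGroup.mk' R with hp
    let π' : G ⧸ R →* A5 := QuotientGroup.lift R π ((hRF.trans hFQ).trans hQdef.le)
    have hker : π'.ker = Q.map p := by
      ext u
      obtain ⟨u, rfl⟩ := QuotientGroup.mk_surjective u
      constructor
      · intro hu
        exact ⟨u, hu, rfl⟩
      · rintro ⟨v, hv, he⟩
        rw [← he]
        exact hv
    haveI : (F.map p).Normal := hFn.map p (QuotientGroup.mk'_surjective R)
    have hpmem : ∀ u : G, p u ∈ F.map p ↔ u ∈ F := by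
      intro u
      refine ⟨fun ⟨v, hv, he⟩ => ?_, fun h => ⟨u, h, rfl⟩⟩
      rw [hp, QuotientGroup.mk'_eq_mk'] at he
      obtain ⟨r, hr, rfl⟩ := he
      exact mul_mem hv (hRF hr)
    have c : Ctx π' (F.map p) :=
      { surj := fun a => by obtain ⟨g, rfl⟩ := hπ a; exact ⟨p g, rfl⟩
        le := by rw [hker]; exact Subgroup.map_mono hFQ
        normal := inferInstance
        sq := by
          rw [hker]
          rintro _ ⟨q, hq, rfl⟩
          exact ⟨q * q, sq_mem_sqs hq, map_mul p q q⟩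
        cent := by
          rw [hker]
          rintro _ ⟨f, hf, rfl⟩ _ ⟨q, hq, rfl⟩
          have h1 : p ⁅q, f⁆ = 1 := (QuotientGroup.eq_one_iff _).2
            (Subgroup.mem_sup_left (Subgroup.commutator_mem_commutator hq hf))
          rw [map_commutatorElement, commutatorElement_eq_one_iff_commute] at h1
          exact h1.symm.eq
        exp := by
          rintro _ ⟨f, hf, rfl⟩
          rw [← map_mul]
          exact (QuotientGroup.eq_one_iff _).2 (Subgroup.mem_sup_right (sq_mem_sqs hf))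
        rank := hR4.quotient R
        act := ⟨p g0, p q0, by rw [hker]; exact ⟨q0, hq0, rfl⟩, fun h => hg0 (by
          rwa [← map_inv, ← map_inv, ← map_mul, ← map_mul, ← map_mul, hpmem] at h)⟩
        gen := by rw [hFdef, map_sqs, hker, sqs] }
    obtain ⟨hF2, -, hrest⟩ := c.main
    set R2 := ⁅Q, R⁆ ⊔ sqs R with hR2
    haveI : (sqs R).Normal := sqs_normal R
    haveI hR2n : R2.Normal := by rw [hR2]; infer_instance
    refine eq_bot_of_le_comm_sqs hQ (hRF.trans hFQ) ?_
    change R ≤ R2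
    set p2 := QuotientGroup.mk' R2 with hp2
    have hRc : ∀ r ∈ R, ∀ q ∈ Q, Commute (p2 r) (p2 q) := fun r hr q hq => by
      have h1 : p2 ⁅q, r⁆ = 1 := (QuotientGroup.eq_one_iff _).2
        (Subgroup.mem_sup_left (Subgroup.commutator_mem_commutator hq hr))
      rw [map_commutatorElement, commutatorElement_eq_one_iff_commute] at h1
      exact h1.symm
    have hR2' : ∀ r ∈ R, p2 r * p2 r = 1 := fun r hr => by
      rw [← map_mul]
      exact (QuotientGroup.eq_one_iff _).2 (Subgroup.mem_sup_right (sq_mem_sqs hr))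
    suffices hsuf : (∀ q ∈ Q, ∀ f ∈ F, Commute (p2 q) (p2 f)) ∧ ∀ f ∈ F, p2 f * p2 f = 1 by
      refine sup_le (Subgroup.commutator_le.2 fun q hq f hf => ?_) ?_
      · refine (QuotientGroup.eq_one_iff _).1 ?_
        show p2 ⁅q, f⁆ = 1
        rw [map_commutatorElement, commutatorElement_eq_one_iff_commute]
        exact hsuf.1 q hq f hf
      · rw [sqs, Subgroup.closure_le]
        rintro _ ⟨f, hf, rfl⟩
        refine (QuotientGroup.eq_one_iff _).1 ?_
        show p2 (f * f) = 1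
        rw [map_mul]
        exact hsuf.2 f hf
    by_cases hbot : F.map p = ⊥
    · have hFR : ∀ f ∈ F, f ∈ R := fun f hf => (QuotientGroup.eq_one_iff f).1
        (Subgroup.mem_bot.1 (hbot ▸ ⟨f, hf, rfl⟩ : p f ∈ (⊥ : Subgroup (G ⧸ R))))
      exact ⟨fun q hq f hf => (hRc f (hFR f hf) q hq).symm, fun f hf => hR2' f (hFR f hf)⟩
    obtain ⟨hgen, hcenter, -⟩ := hrest hbot
    rw [hker] at hgen hcenter
    obtain ⟨x0, hx0, hz⟩ : ∃ x ∈ Q, x * x ∉ R := by
      by_contra hall
      simp only [not_exists, not_and, not_not] at hall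
      refine hbot ((Subgroup.map_eq_bot_iff F).2 ?_)
      rw [hp, QuotientGroup.ker_mk', hFdef, sqs, Subgroup.closure_le]
      rintro _ ⟨q, hq, rfl⟩
      exact hall q hq
    set z := x0 * x0 with hzdef
    have hzF : z ∈ F := sq_mem_sqs hx0
    have htwo : ∀ f ∈ F, f ∈ R ∨ z⁻¹ * f ∈ R := by
      intro f hf
      by_contra hcon
      rw [not_or] at hcon
      haveI := Fintype.ofFinite ↥(F.map p)
      classical
      have e1 : (1 : ↥(F.map p)) ≠ ⟨p f, f, hf, rfl⟩ := fun h =>
        hcon.1 ((QuotientGroup.eq_one_iff f).1 (congrArg Subtype.val h).symm)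
      have e2 : (1 : ↥(F.map p)) ≠ ⟨p z, z, hzF, rfl⟩ := fun h =>
        hz ((QuotientGroup.eq_one_iff z).1 (congrArg Subtype.val h).symm)
      have e3 : (⟨p z, z, hzF, rfl⟩ : ↥(F.map p)) ≠ ⟨p f, f, hf, rfl⟩ := fun h =>
        hcon.2 (QuotientGroup.eq.1 (congrArg Subtype.val h))
      have h3 : ({1, ⟨p z, z, hzF, rfl⟩, ⟨p f, f, hf, rfl⟩} : Finset ↥(F.map p)).card = 3 := by
        simp [e1, e2, e3]
      have h4 := Finset.card_le_univ ({1, ⟨p z, z, hzF, rfl⟩, ⟨p f, f, hf, rfl⟩} : Finset ↥(F.map p))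
      rw [h3, ← Nat.card_eq_fintype_card] at h4
      omega
    -- `z` commutes with the kernel modulo `R2`
    let T : Subgroup G := (Subgroup.centralizer ({p2 z} : Set (G ⧸ R2))).comap p2
    have hT : ∀ g, g ∈ T ↔ Commute (p2 g) (p2 z) := fun g => Subgroup.mem_centralizer_singleton_iff
    have hgT : ∀ x ∈ Q, x * x ∉ R → x ∈ T := by
      intro x hx hxR
      rw [hT]
      have hr : z⁻¹ * (x * x) ∈ R := (htwo _ (sq_mem_sqs hx)).resolve_left hxR
      have hzx : p2 z = p2 x * p2 x * (p2 (z⁻¹ * (x * x)))⁻¹ := by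
        rw [← map_mul, ← map_inv, ← map_mul]
        congr 1
        group
      rw [hzx]
      exact ((Commute.refl _).mul_right (Commute.refl _)).mul_right (hRc _ hr x hx).symm.inv_right
    have hQT : Q ≤ T := by
      intro q hq
      have h1 : p q ∈ (T ⊓ Q).map p := by
        refine ((Subgroup.closure_le _).2 ?_ (hgen ⟨q, hq, rfl⟩))
        rintro _ ⟨⟨x, hx, rfl⟩, hxx⟩
        refine ⟨x, ⟨hgT x hx fun h => hxx ?_, hx⟩, rfl⟩
        rw [← map_mul]
        exact (QuotientGroup.eq_one_iff _).2 h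
      obtain ⟨u, ⟨huT, huQ⟩, he⟩ := h1
      rw [hp, QuotientGroup.mk'_eq_mk'] at he
      obtain ⟨r, hr, rfl⟩ := he
      refine T.mul_mem huT ((hT r).2 (hRc r hr z (hFQ hzF)))
    have hzc : ∀ q ∈ Q, Commute (p2 q) (p2 z) := fun q hq => (hT q).1 (hQT hq)
    have hFc : ∀ q ∈ Q, ∀ f ∈ F, Commute (p2 q) (p2 f) := by
      intro q hq f hf
      rcases htwo f hf with h | h
      · exact (hRc f h q hq).symm
      · have := (hzc q hq).mul_right (hRc _ h q hq).symm
        rwa [← map_mul, mul_inv_cancel_left] at this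
    -- a commutator outside `R`
    obtain ⟨y, hy, hxy⟩ : ∃ y ∈ Q, x0 * y * x0⁻¹ * y⁻¹ ∉ R := by
      by_contra hall
      simp only [not_exists, not_and, not_not] at hall
      have h1 : p x0 ∈ F.map p := hcenter (p x0) ⟨x0, hx0, rfl⟩ (by
        rintro _ ⟨y, hy, rfl⟩
        have h2 : p (x0 * y * x0⁻¹ * y⁻¹) = 1 := (QuotientGroup.eq_one_iff _).2 (hall y hy)
        rw [map_mul, map_mul, map_mul, map_inv, map_inv, mul_inv_eq_one, mul_inv_eq_iff_eq_mul] at h2
        exact h2)
      exact hz (Subgroup.mem_sup_right (sq_mem_sqs ((hpmem x0).1 h1)))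
    set w := x0 * y * x0⁻¹ * y⁻¹ with hwdef
    have hwF : w ∈ F := comm_mem_sqs hx0 hy
    have hw2 : p2 w * p2 w = 1 := by
      have hxx := hFc y hy z hzF
      have hwc := hFc x0 hx0 w hwF
      have e : p2 w = p2 x0 * p2 y * (p2 x0)⁻¹ * (p2 y)⁻¹ := by
        simp only [hwdef, map_mul, map_inv]
      have ez : p2 z = p2 x0 * p2 x0 := map_mul _ _ _
      have h1 : p2 x0 * p2 w * (p2 x0)⁻¹ = p2 w := by rw [hwc.eq, mul_inv_cancel_right]
      have h2 : p2 x0 * p2 w * (p2 x0)⁻¹ * p2 w = p2 z * p2 y * (p2 z)⁻¹ * (p2 y)⁻¹ := by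
        rw [e, ez]; group
      rw [h1, ← hxx.eq, mul_inv_cancel_right, mul_inv_cancel] at h2
      exact h2
    refine ⟨hFc, fun f hf => ?_⟩
    have hwr : z⁻¹ * w ∈ R := (htwo w hwF).resolve_left hxy
    have hzz : p2 z * p2 z = 1 := by
      have h3 : p2 z = p2 w * (p2 (z⁻¹ * w))⁻¹ := by rw [← map_inv, ← map_mul]; congr 1; group
      have hc3 : Commute (p2 (z⁻¹ * w))⁻¹ (p2 w) := (hRc _ hwr w (hFQ hwF)).inv_left
      rw [h3, mul_assoc, ← mul_assoc (p2 (z⁻¹ * w))⁻¹, hc3.eq, mul_assoc (p2 w), ← mul_assoc,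
        hw2, one_mul, ← mul_inv_rev, hR2' _ hwr, inv_one]
    rcases htwo f hf with h | h
    · exact hR2' f h
    · have hfe : p2 f = p2 z * p2 (z⁻¹ * f) := by rw [← map_mul, mul_inv_cancel_left]
      have hc4 : Commute (p2 (z⁻¹ * f)) (p2 z) := hRc _ h z (hFQ hzF)
      rw [hfe, mul_assoc, ← mul_assoc (p2 (z⁻¹ * f)), hc4.eq, mul_assoc (p2 z) (p2 (z⁻¹ * f)), hR2' _ h,
        mul_one, hzz]
  -- now `F` is central and elementary
  have c : Ctx π F :=
    { surj := hπ
      le := hFQ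
      normal := hFn
      sq := fun q hq => sq_mem_sqs hq
      cent := fun f hf q hq => by
        have h1 : ⁅q, f⁆ ∈ R := Subgroup.mem_sup_left (Subgroup.commutator_mem_commutator hq hf)
        rw [hRbot, Subgroup.mem_bot, commutatorElement_eq_one_iff_commute] at h1
        exact h1.symm.eq
      exp := fun f hf => by
        have h1 : f * f ∈ R := Subgroup.mem_sup_right (sq_mem_sqs hf)
        rwa [hRbot, Subgroup.mem_bot] at h1
      rank := hR4
      act := ⟨g0, q0, hq0, hg0⟩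
      gen := le_rfl }
  obtain ⟨hF2, hV, hrest⟩ := c.main
  have hcardQ := c.card_quot
  rw [hV] at hcardQ
  by_cases hbot : F = ⊥
  · refine Or.inl ⟨fun q => Subtype.ext ?_, ?_⟩
    · have := sq_mem_sqs q.2
      rw [← hFdef, hbot, Subgroup.mem_bot] at this
      exact this
    · rw [← hcardQ, hbot, Subgroup.card_bot]
  refine Or.inr ?_
  obtain ⟨hgen, hcenter, hcount⟩ := hrest hbot
  have hF : Nat.card F = 2 := by
    have h1 : Nat.card F ≠ 1 := fun h => hbot (Subgroup.card_eq_one.1 h)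
    have h2 : 0 < Nat.card F := Nat.card_pos
    omega
  obtain ⟨a, b, hab, huniv⟩ := Nat.card_eq_two_iff.1 hF
  obtain ⟨z, hzF, hz1⟩ := (Subgroup.bot_or_exists_ne_one F).resolve_left hbot
  have htwo : ∀ f ∈ F, f = 1 ∨ f = z := by
    intro f hf
    by_contra hcon
    rw [not_or] at hcon
    have h1 : ∀ u : ↥F, u = a ∨ u = b := fun u => by
      have := (huniv ▸ Set.mem_univ u : u ∈ ({a, b} : Set ↥F))
      simpa using this
    have e0 := h1 1
    have e1 := h1 ⟨f, hf⟩
    have e2 := h1 ⟨z, hzF⟩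
    have n1 : (⟨f, hf⟩ : ↥F) ≠ 1 := fun h => hcon.1 (congrArg Subtype.val h)
    have n2 : (⟨z, hzF⟩ : ↥F) ≠ 1 := fun h => hz1 (congrArg Subtype.val h)
    have n3 : (⟨f, hf⟩ : ↥F) ≠ ⟨z, hzF⟩ := fun h => hcon.2 (congrArg Subtype.val h)
    grind
  refine ⟨⟨z, hFQ hzF⟩, ⟨by rw [← hcardQ, hF], ?_, ?_, ?_, ?_, ?_, ?_, ?_⟩⟩
  · exact fun h => hz1 (congrArg Subtype.val h)
  · exact Subtype.ext (c.exp z hzF)
  · exact fun g => Subtype.ext (c.cent z hzF g g.2)
  · intro g
    rcases htwo _ (sq_mem_sqs g.2) with h | h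
    exacts [Or.inl (Subtype.ext h), Or.inr (Subtype.ext h)]
  · intro g hg
    rcases htwo _ (hcenter g g.2 fun q hq => congrArg Subtype.val (hg ⟨q, hq⟩)) with h | h
    exacts [Or.inl (Subtype.ext h), Or.inr (Subtype.ext h)]
  · rw [eq_top_iff]
    rintro ⟨q, hq⟩ -
    have h1 : q ∈ (Subgroup.closure {g : ↥Q | g * g ≠ 1}).map Q.subtype := by
      refine (Subgroup.closure_le _).2 ?_ (hgen hq)
      rintro x ⟨hx, hxx⟩
      exact ⟨⟨x, hx⟩, Subgroup.subset_closure (fun h => hxx (congrArg Subtype.val h)), rfl⟩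
    obtain ⟨u, hu, he⟩ := h1
    have : u = ⟨q, hq⟩ := Subtype.ext he
    exact this ▸ hu
  · classical
    have hset : {g : ↥Q | g * g = 1} = (QuotientGroup.mk : ↥Q → ↥Q ⧸ F.subgroupOf Q) ⁻¹'
        {v | ∀ u : ↥Q, (u : ↥Q ⧸ F.subgroupOf Q) = v → (u : G) * u = 1} := by
      ext g
      simp only [Set.mem_setOf_eq, Set.mem_preimage]
      constructor
      · intro hg u hu
        rw [eq_comm, mk_eq_mk_iff] at hu
        generalize hf : (g : G)⁻¹ * u = f at hu
        have hu' : (u : G) = g * f := by rw [← hf]; group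
        rw [hu', mul_assoc, ← mul_assoc f, c.cent f hu g g.2, mul_assoc (g : G) f f, c.exp f hu, mul_one]
        exact congrArg Subtype.val hg
      · intro h
        exact Subtype.ext (h g rfl)
    have h6 : Nat.card {v : ↥Q ⧸ F.subgroupOf Q //
        ∀ u : ↥Q, (u : ↥Q ⧸ F.subgroupOf Q) = v → (u : G) * u = 1} = 6 := by
      haveI := Fintype.ofFinite (↥Q ⧸ F.subgroupOf Q)
      rw [Nat.card_eq_fintype_card, Fintype.card_subtype]
      rw [Nat.card_eq_fintype_card, Fintype.card_subtype] at hcount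
      have h1 : (1 : ↥Q ⧸ F.subgroupOf Q) ∈ Finset.univ.filter (fun v : ↥Q ⧸ F.subgroupOf Q =>
          ∀ u : ↥Q, (u : ↥Q ⧸ F.subgroupOf Q) = v → (u : G) * u = 1) := by
        rw [Finset.mem_filter]
        refine ⟨Finset.mem_univ _, fun u hu => ?_⟩
        rw [QuotientGroup.eq_one_iff, Subgroup.mem_subgroupOf] at hu
        exact c.exp _ hu
      rw [← Finset.card_erase_add_one h1, ← Finset.filter_erase, ← Finset.filter_ne',
        Finset.filter_filter, hcount]
    calc Nat.card {g : ↥Q // g * g = 1}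
        = Nat.card ↥{g : ↥Q | g * g = 1} := rfl
      _ = 12 := by
        rw [hset, Nat.card_congr (QuotientGroup.preimageMkEquivSubgroupProdSet _ _), Nat.card_prod,
          Nat.card_congr (Subgroup.subgroupOfEquivOfLe hFQ).toEquiv, hF]
        exact (congrArg (2 * ·) h6).trans (by norm_num)

end CfsgLib.SmallRadical
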