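import Cfsg.Agent.SmallRadical.Tools

/-! With quotient `L₃(2)`, the Frattini part modulo its commutators with the radical is central. -/

set_option autoImplicit false

namespace CfsgLib.SmallRadical

/-- The standing hypotheses. -/
structure Ctx3 {G : Type*} [Group G] (π : G →* SL32) (F : Subgroup G) : Prop where
  surj : Function.Surjective π
  le : F ≤ π.ker
  normal : F.Normal
  sq : ∀ q ∈ π.ker, q * q ∈ F
  cent : ∀ f ∈ F, ∀ q ∈ π.ker, f * q = q * f
  exp : ∀ f ∈ F, f * f = 1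
  rank : RankFour G
  act : ∃ g : G, ∃ a ∈ π.ker, a⁻¹ * (g * a * g⁻¹) ∉ F
  gen : F ≤ Subgroup.closure ((fun q => q * q) '' (π.ker : Set G))

section Pre

variable {G : Type*} [Group G] {Q F : Subgroup G} [F.Normal]

/-- The preimage in the group of a subgroup of a section. -/
def pre (H : Subgroup (↥Q ⧸ F.subgroupOf Q)) : Subgroup G :=
  (H.comap (QuotientGroup.mk' (F.subgroupOf Q))).map Q.subtype

theorem mem_pre {H : Subgroup (↥Q ⧸ F.subgroupOf Q)} {x : G} :
    x ∈ pre H ↔ ∃ hx : x ∈ Q, ((⟨x, hx⟩ : ↥Q) : ↥Q ⧸ F.subgroupOf Q) ∈ H :=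
  ⟨fun ⟨a, ha, he⟩ => ⟨he ▸ a.2, by subst he; exact ha⟩, fun ⟨hx, h⟩ => ⟨⟨x, hx⟩, h, rfl⟩⟩

theorem pre_le (H : Subgroup (↥Q ⧸ F.subgroupOf Q)) : pre H ≤ Q := fun _ hx => (mem_pre.1 hx).1

theorem le_pre (hFQ : F ≤ Q) (H : Subgroup (↥Q ⧸ F.subgroupOf Q)) : F ≤ pre H := fun f hf =>
  mem_pre.2 ⟨hFQ hf, by
    rw [(QuotientGroup.eq_one_iff _).2 (show (⟨f, hFQ hf⟩ : ↥Q) ∈ F.subgroupOf Q from hf)]
    exact one_mem H⟩

theorem card_pre [Finite G] (hFQ : F ≤ Q) (H : Subgroup (↥Q ⧸ F.subgroupOf Q)) :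
    Nat.card (pre H) = Nat.card H * Nat.card F := by
  rw [pre, Subgroup.card_map_of_injective Q.subtype_injective]
  have h1 := (H.comap (QuotientGroup.mk' (F.subgroupOf Q))).card_mul_index
  rw [Subgroup.index_comap_of_surjective _ (QuotientGroup.mk'_surjective _), ← card_quot_sub hFQ,
    ← H.card_mul_index, mul_right_comm] at h1
  exact Nat.eq_of_mul_eq_mul_right (Nat.pos_of_ne_zero H.index_ne_zero_of_finite) h1

theorem pre_normal [Q.Normal] (H : Subgroup (↥Q ⧸ F.subgroupOf Q))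
    (hH : ∀ g, ∀ v ∈ H, secAut Q F g v ∈ H) : (pre H).Normal := by
  refine ⟨fun x hx g => ?_⟩
  obtain ⟨hxQ, hxH⟩ := mem_pre.1 hx
  refine mem_pre.2 ⟨‹Q.Normal›.conj_mem x hxQ g, ?_⟩
  have := hH g _ hxH
  rw [secAut_mk] at this
  have e : (⟨g * x * g⁻¹, ‹Q.Normal›.conj_mem x hxQ g⟩ : ↥Q) = MulAut.conjNormal g ⟨x, hxQ⟩ := by
    ext; simp
  rw [e]
  exact this

end Pre

variable {G : Type*} [Group G] [Finite G] {π : G →* SL32} {F : Subgroup G}

theorem seven_of {W : Type*} [Group W] [Finite W] (h2 : ∀ w : W, w * w = 1) (h16 : Nat.card W = 16)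
    {σ : MulAut W} (h7 : σ ^ 7 = 1) (hne : σ ≠ 1) : ∃ z, Seven W σ z := by
  rcases seven_fixed h2 h16.le h7 hne with ⟨h, -⟩ | ⟨-, hf⟩
  · rw [h16] at h; omega
  obtain ⟨z, hz, hz1⟩ := (Subgroup.bot_or_exists_ne_one (fixed σ)).resolve_left fun h => by
    rw [h, Subgroup.card_bot] at hf
    omega
  refine ⟨z, h2, h16, h7, hz1, fun v => ⟨fun hv => ?_, ?_⟩⟩
  · classical
    haveI := Fintype.ofFinite ↥(fixed σ)
    by_contra hcon
    rw [not_or] at hcon
    have h3 : ({1, ⟨z, hz⟩, ⟨v, mem_fixed.2 hv⟩} : Finset ↥(fixed σ)).card = 3 := by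
      have e1 : (1 : ↥(fixed σ)) ≠ ⟨z, hz⟩ := fun h => hz1 (congrArg Subtype.val h).symm
      have e2 : (1 : ↥(fixed σ)) ≠ ⟨v, mem_fixed.2 hv⟩ := fun h => hcon.1 (congrArg Subtype.val h).symm
      have e3 : (⟨z, hz⟩ : ↥(fixed σ)) ≠ ⟨v, mem_fixed.2 hv⟩ := fun h => hcon.2 (congrArg Subtype.val h).symm
      simp [e1, e2, e3]
    have h4 := Finset.card_le_univ ({1, ⟨z, hz⟩, ⟨v, mem_fixed.2 hv⟩} : Finset ↥(fixed σ))
    rw [h3, ← Nat.card_eq_fintype_card, hf] at h4
    omega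
  · rintro (rfl | rfl)
    · exact map_one σ
    · exact hz

/-- A group with a fixed point free element of order seven has a nontrivial action. -/
theorem moves_diffs {W : Type*} [Group W] [Finite W] {σ : MulAut W} {z : W} (s : Seven W σ z) :
    ∃ v ∈ diffs s.h2 σ, v⁻¹ * σ v ≠ 1 := by
  by_contra h
  simp only [not_exists, not_and, not_not] at h
  have hbot : diffs s.h2 σ = ⊥ := by
    rw [eq_bot_iff]
    intro v hv
    exact Subgroup.mem_bot.2 (s.fix_diffs hv (inv_mul_eq_one.1 (h v hv)).symm)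
  have := s.card_diffs
  rw [hbot, Subgroup.card_bot] at this
  omega

namespace Ctx3

variable (c : Ctx3 π F)
include c

theorem pow_seven {M : Type*} [Group M] (φ : G →* M) (hφ : π.ker ≤ φ.ker) {d : G} (hd : π d = D7) :
    φ d ^ 7 = 1 := by
  rw [← map_pow]
  exact hφ (by rw [MonoidHom.mem_ker, map_pow, hd, D7_pow])

theorem comm_mem {a q : G} (ha : a ∈ π.ker) (hq : q ∈ π.ker) : a⁻¹ * (q * a * q⁻¹) ∈ F := by
  have e : a⁻¹ * (q * a * q⁻¹) = (a * a)⁻¹ * ((a * q) * (a * q)) * (q * q)⁻¹ := by group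
  rw [e]
  exact F.mul_mem (F.mul_mem (F.inv_mem (c.sq a ha)) (c.sq _ (mul_mem ha hq))) (F.inv_mem (c.sq q hq))

theorem sec_ker [F.Normal] : π.ker ≤ (secAut π.ker F).ker :=
  secAut_ker_of_comm fun _ hq _ ha => c.comm_mem ha hq

theorem sec_ne [F.Normal] : secAut π.ker F ≠ 1 := secAut_ne_one' c.act

theorem card_cases [F.Normal] :
    Nat.card (↥π.ker ⧸ F.subgroupOf π.ker) = 8 ∨ Nat.card (↥π.ker ⧸ F.subgroupOf π.ker) = 16 := by
  obtain ⟨d, hd⟩ := c.surj D7
  have h := c.rank π.ker F c.le (fun h _ n hn => ‹F.Normal›.conj_mem n hn h) c.sq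
  rw [← card_quot_sub c.le] at h
  have h16 := Nat.le_of_mul_le_mul_right h Nat.card_pos
  rcases seven_fixed (quot_sq c.sq) h16 (c.pow_seven _ c.sec_ker hd)
    (fun e => c.sec_ne (hom_eq_one₃ c.surj _ c.sec_ker hd e)) with ⟨h, -⟩ | ⟨h, -⟩
  exacts [Or.inl h, Or.inr h]

theorem seven_V [F.Normal] (hV : Nat.card (↥π.ker ⧸ F.subgroupOf π.ker) = 16) {d : G} (hd : π d = D7) :
    ∃ z, Seven (↥π.ker ⧸ F.subgroupOf π.ker) (secAut π.ker F d) z :=
  seven_of (quot_sq c.sq) hV (c.pow_seven _ c.sec_ker hd)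
    (fun e => c.sec_ne (hom_eq_one₃ c.surj _ c.sec_ker hd e))

/-- Passing to a quotient by a central subgroup. -/
theorem quot (N : Subgroup G) [N.Normal] (hN : N ≤ π.ker)
    (hact : ∃ g : G, ∃ a ∈ π.ker, a⁻¹ * (g * a * g⁻¹) ∉ F ⊔ N) :
    ∃ π' : G ⧸ N →* SL32, π'.ker = π.ker.map (QuotientGroup.mk' N) ∧
      Ctx3 π' (F.map (QuotientGroup.mk' N)) := by
  haveI := c.normal
  set p := QuotientGroup.mk' N with hp
  let π' : G ⧸ N →* SL32 := QuotientGroup.lift N π hN
  have hker : π'.ker = π.ker.map p := by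
    ext u
    obtain ⟨u, rfl⟩ := QuotientGroup.mk_surjective u
    constructor
    · intro hu
      exact ⟨u, hu, rfl⟩
    · rintro ⟨v, hv, he⟩
      rw [← he]
      exact hv
  refine ⟨π', hker,
    { surj := fun a => by obtain ⟨g, rfl⟩ := c.surj a; exact ⟨p g, rfl⟩
      le := by rw [hker]; exact Subgroup.map_mono c.le
      normal := c.normal.map p (QuotientGroup.mk'_surjective N)
      sq := by
        rw [hker]
        rintro _ ⟨q, hq, rfl⟩
        exact ⟨q * q, c.sq q hq, map_mul p q q⟩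
      cent := by
        rw [hker]
        rintro _ ⟨f, hf, rfl⟩ _ ⟨q, hq, rfl⟩
        rw [← map_mul, c.cent f hf q hq, map_mul]
      exp := by
        rintro _ ⟨f, hf, rfl⟩
        rw [← map_mul, c.exp f hf, map_one]
      rank := c.rank.quotient N
      act := ?_
      gen := ?_ }⟩
  · obtain ⟨g, a, ha, hga⟩ := hact
    refine ⟨p g, p a, by rw [hker]; exact ⟨a, ha, rfl⟩, ?_⟩
    rintro ⟨f, hf, he⟩
    apply hga
    rw [← map_inv, ← map_inv, ← map_mul, ← map_mul, ← map_mul, hp, QuotientGroup.mk'_eq_mk'] at he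
    obtain ⟨n, hn, he⟩ := he
    rw [← he]
    exact Subgroup.mul_mem_sup hf hn
  · rintro _ ⟨f, hf, rfl⟩
    have h1 : p f ∈ (Subgroup.closure ((fun q => q * q) '' (π.ker : Set G))).map p := ⟨f, c.gen hf, rfl⟩
    rw [MonoidHom.map_closure] at h1
    refine Subgroup.closure_mono ?_ h1
    rintro _ ⟨_, ⟨q, hq, rfl⟩, rfl⟩
    exact ⟨p q, by rw [hker]; exact ⟨q, hq, rfl⟩, (map_mul p q q).symm⟩

/-- The smallest case. -/
theorem false_small [F.Normal] (hV : Nat.card (↥π.ker ⧸ F.subgroupOf π.ker) = 8) (hF : Nat.card F = 8)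
    (hactF : ∃ g : G, ∃ w ∈ F, g * w ≠ w * g) : False := by
  have hcard : Nat.card π.ker = 8 * Nat.card F := by rw [← card_quot_sub c.le, hV]
  obtain ⟨hab, hker, -⟩ := square_linear c.surj c.rank (P := π.ker) (F := F) (W := F) c.le le_rfl le_rfl
    c.exp (fun f hf a ha => c.cent f hf a ha) c.cent (fun q hq a ha => c.comm_mem ha hq) hcard hF c.sq
    c.act hactF
  obtain ⟨π', hπ', hk, ⟨C⟩⟩ := exists_coordM c.surj (M := π.ker) (W := F) c.le hab
    (by rw [hcard, hF]) hF c.exp c.sq hker (fun q hq a ha => c.comm_mem ha hq) c.act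
  exact C.false_of_top c.rank hπ' hk.le

/-- A central involution in the radical outside the Frattini part reduces to the smallest case. -/
theorem false_central [F.Normal] (hV : Nat.card (↥π.ker ⧸ F.subgroupOf π.ker) = 16) (hF : Nat.card F = 8)
    (hactF : ∃ g : G, ∃ w ∈ F, g * w ≠ w * g) {x : G} (hx : x ∈ π.ker) (hxF : x ∉ F) (hx2 : x * x = 1)
    (hxc : ∀ g, g * x = x * g)
    (hact : ∃ g : G, ∃ a ∈ π.ker, a⁻¹ * (g * a * g⁻¹) ∉ F ∧ a⁻¹ * (g * a * g⁻¹) * x ∉ F) : False := by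
  have hN : ∀ n ∈ Subgroup.zpowers x, n = 1 ∨ n = x := by
    rintro _ ⟨m, rfl⟩
    rcases Int.even_or_odd m with ⟨j, rfl⟩ | ⟨j, rfl⟩
    · left
      show x ^ (j + j) = 1
      rw [← two_mul, zpow_mul, zpow_two, hx2, one_zpow]
    · right
      show x ^ (2 * j + 1) = x
      rw [zpow_add, zpow_one, zpow_mul, zpow_two, hx2, one_zpow, one_mul]
  haveI : (Subgroup.zpowers x).Normal := ⟨fun n hn g => by
    rcases hN n hn with rfl | rfl
    · simp
    · rw [hxc, mul_inv_cancel_right]; exact Subgroup.mem_zpowers _⟩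
  set N := Subgroup.zpowers x with hNdef
  set p := QuotientGroup.mk' N with hp
  obtain ⟨π', hker, c'⟩ := c.quot N ((Subgroup.zpowers_le).2 hx) (by
    obtain ⟨g, a, ha, h1, h2⟩ := hact
    refine ⟨g, a, ha, fun h => ?_⟩
    obtain ⟨f, hf, n, hn, he⟩ := Subgroup.mem_sup_of_normal_left.1 h
    rcases hN n hn with rfl | rfl
    · exact h1 (by rw [← he, mul_one]; exact hf)
    · exact h2 (by rw [← he, mul_assoc, hx2, mul_one]; exact hf))
  haveI := c'.normal
  have hFN : ∀ f ∈ F, f ∈ N → f = 1 := fun f hf hfN => by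
    rcases hN f hfN with h | h
    · exact h
    · exact absurd (h ▸ hf) hxF
  have hF' : Nat.card (F.map p) = 8 := by
    rw [← hF]
    refine (Nat.card_congr (Equiv.ofBijective (fun f : ↥F => (⟨p f, f, f.2, rfl⟩ : ↥(F.map p)))
      ⟨fun a b h => ?_, fun ⟨_, f, hf, rfl⟩ => ⟨⟨f, hf⟩, rfl⟩⟩)).symm
    have h1 := congrArg Subtype.val h
    simp only [hp, QuotientGroup.mk'_apply, QuotientGroup.eq] at h1
    exact Subtype.ext (inv_mul_eq_one.1 (hFN _ (F.mul_mem (F.inv_mem a.2) b.2) h1))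
  have hV' : Nat.card (↥π'.ker ⧸ (F.map p).subgroupOf π'.ker) = 8 := by
    have h1 := card_quot_sub c'.le
    have h2 := card_quot_sub c.le
    rw [hV, hF] at h2
    have h3 : Nat.card π'.ker * 2 = Nat.card π.ker := by
      rw [hker]
      have h4 := (N.subgroupOf π.ker).card_mul_index
      have h5 : Nat.card N = 2 := by
        rw [hNdef, Nat.card_zpowers, orderOf_eq_prime (by rw [pow_two, hx2]) (fun e => hxF (by rw [e]; exact F.one_mem))]
      rw [Nat.card_congr (Subgroup.subgroupOfEquivOfLe ((Subgroup.zpowers_le).2 hx)).toEquiv, h5] at h4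
      have h6 : (N.subgroupOf π.ker).index = Nat.card (π.ker.map p) := by
        rw [Subgroup.index, show π.ker.map p = (p.comp π.ker.subtype).range by
          rw [MonoidHom.range_comp, Subgroup.range_subtype]]
        refine Nat.card_congr ?_
        refine ((QuotientGroup.quotientMulEquivOfEq ?_).trans
          (QuotientGroup.quotientKerEquivRange (p.comp π.ker.subtype))).toEquiv
        ext u
        rw [Subgroup.mem_subgroupOf, MonoidHom.mem_ker]
        exact (QuotientGroup.eq_one_iff _).symm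
      rw [← h6]
      omega
    rw [hF'] at h1
    rw [← hp] at h1
    omega
  refine c'.false_small hV' hF' ?_
  obtain ⟨g, w, hw, hgw⟩ := hactF
  refine ⟨p g, p w, ⟨w, hw, rfl⟩, fun h => hgw ?_⟩
  rw [← map_mul, ← map_mul, hp, QuotientGroup.mk'_apply, QuotientGroup.mk'_apply, QuotientGroup.eq] at h
  have h1 : (g * w)⁻¹ * (w * g) ∈ F := by
    have e : (g * w)⁻¹ * (w * g) = w⁻¹ * (g⁻¹ * w * g⁻¹⁻¹) := by group
    rw [e]
    exact F.mul_mem (F.inv_mem hw) (‹F.Normal›.conj_mem w hw g⁻¹)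
  exact (inv_mul_eq_one.1 (hFN _ h1 h))

/-- An involution fixing an element of an invariant coset of involutions. -/
theorem false_coset [F.Normal] (hV : Nat.card (↥π.ker ⧸ F.subgroupOf π.ker) = 16) (hF : Nat.card F = 8)
    (hactF : ∃ g : G, ∃ w ∈ F, g * w ≠ w * g) {x : G} (hx : x ∈ π.ker) (hxF : x ∉ F) (hx2 : x * x = 1)
    (hab : ∀ q ∈ π.ker, q * x = x * q) (hinv : ∀ g, x⁻¹ * (g * x * g⁻¹) ∈ F)
    (hact : ∃ g : G, ∃ a ∈ π.ker, a⁻¹ * (g * a * g⁻¹) ∉ F ∧ a⁻¹ * (g * a * g⁻¹) * x ∉ F)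
    {t : G} (ht : t ∉ π.ker) (ht2 : t * t ∈ π.ker) {f : G} (hf : f ∈ F)
    (hfix : t * (x * f) * t⁻¹ = x * f) : False := by
  haveI : Fact (Nat.Prime 7) := ⟨by norm_num⟩
  obtain ⟨d, hd⟩ := c.surj D7
  let α := {y : G // x⁻¹ * y ∈ F}
  have hα : ∀ (g : G) (y : α), x⁻¹ * (g * y.1 * g⁻¹) ∈ F := fun g y => by
    have e : x⁻¹ * (g * y.1 * g⁻¹) = x⁻¹ * (g * x * g⁻¹) * (g * (x⁻¹ * y.1) * g⁻¹) := by group
    rw [e]
    exact F.mul_mem (hinv g) (‹F.Normal›.conj_mem _ y.2 g)
  let φ : G →* Equiv.Perm α :=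
    { toFun := fun g => ⟨fun y => ⟨g * y.1 * g⁻¹, hα g y⟩, fun y => ⟨g⁻¹ * y.1 * g⁻¹⁻¹, hα g⁻¹ y⟩,
        fun y => Subtype.ext (by simp [mul_assoc]), fun y => Subtype.ext (by simp [mul_assoc])⟩
      map_one' := Equiv.ext fun y => Subtype.ext (show 1 * y.1 * 1⁻¹ = y.1 by group)
      map_mul' := fun g h => Equiv.ext fun y => Subtype.ext
        (show g * h * y.1 * (g * h)⁻¹ = g * (h * y.1 * h⁻¹) * g⁻¹ by group) }
  have hyx : ∀ y : α, ∀ q ∈ π.ker, q * y.1 = y.1 * q := fun y q hq => by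
    have h1 : y.1 = x * (x⁻¹ * y.1) := by group
    rw [h1, ← mul_assoc q, hab q hq, mul_assoc x q, ← c.cent _ y.2 q hq]
    group
  have hker : π.ker ≤ φ.ker := fun q hq => MonoidHom.mem_ker.2 (Equiv.ext fun y => Subtype.ext (by
    show q * y.1 * q⁻¹ = y.1
    rw [hyx y q hq, mul_inv_cancel_right]))
  have hcard : Nat.card α = 8 := by
    rw [← hF]
    exact Nat.card_congr
      { toFun := fun y => ⟨x⁻¹ * y.1, y.2⟩
        invFun := fun w => ⟨x * w.1, by simp⟩
        left_inv := fun y => Subtype.ext (by simp)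
        right_inv := fun w => Subtype.ext (by simp) }
  have hker' : π.ker ≤ (MulAut.conjNormal : G →* MulAut ↥F).ker := conjNormal_ker c.cent
  have hχ : ∀ w : ↥F, (MulAut.conjNormal d : MulAut ↥F) w = w → w = 1 := by
    rcases seven_fixed (W := ↥F) (fun w => Subtype.ext (c.exp w w.2)) (by rw [hF]; norm_num)
      (c.pow_seven _ hker' hd)
      (fun e => conjNormal_ne_one hactF (hom_eq_one₃ c.surj _ hker' hd e)) with ⟨-, h⟩ | ⟨h, -⟩
    · intro v hv
      exact Subgroup.mem_bot.1 ((Subgroup.card_eq_one.1 h) ▸ mem_fixed.2 hv)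
    · rw [hF] at h; omega
  have hone : ∀ y y' : α, φ d y = y → φ d y' = y' → y = y' := by
    intro y y' hy hy'
    have hy1 : d * y.1 * d⁻¹ = y.1 := congrArg Subtype.val hy
    have hy2 : d * y'.1 * d⁻¹ = y'.1 := congrArg Subtype.val hy'
    have hm : y.1⁻¹ * y'.1 ∈ F := by
      have e : y.1⁻¹ * y'.1 = (x⁻¹ * y.1)⁻¹ * (x⁻¹ * y'.1) := by group
      rw [e]
      exact F.mul_mem (F.inv_mem y.2) y'.2
    have h1 := hχ ⟨_, hm⟩ (Subtype.ext (by
      rw [MulAut.conjNormal_apply]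
      show d * (y.1⁻¹ * y'.1) * d⁻¹ = y.1⁻¹ * y'.1
      calc d * (y.1⁻¹ * y'.1) * d⁻¹ = (d * y.1 * d⁻¹)⁻¹ * (d * y'.1 * d⁻¹) := by group
        _ = _ := by rw [hy1, hy2]))
    exact Subtype.ext (inv_mul_eq_one.1 (congrArg Subtype.val h1))
  obtain ⟨x₀, hx₀⟩ : ∃ x₀, φ d x₀ = x₀ := by
    have hmod := modEq_fix (φ d) 7 (c.pow_seven φ hker hd)
    rw [hcard, Nat.ModEq] at hmod
    have : Nonempty {a : α // φ d a = a} := by
      rw [← not_isEmpty_iff]
      intro he
      rw [Nat.card_eq_zero.2 (Or.inl he)] at hmod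
      omega
    obtain ⟨a, ha⟩ := this
    exact ⟨a, ha⟩
  have hy : φ t ⟨x * f, by simpa using hf⟩ = ⟨x * f, by simpa using hf⟩ := Subtype.ext hfix
  have hall := eight c.surj φ hker hcard.le hd (x₀ := x₀)
    (fun y => ⟨fun h => hone y x₀ h hx₀, fun h => h ▸ hx₀⟩) (fun h => ht h)
    (by rw [← map_mul]; exact ht2) hy
  have hx₀F : x₀.1 ∉ F := fun h => hxF (by
    have := F.mul_mem h (F.inv_mem x₀.2)
    simpa [mul_assoc] using this)
  have hx₀Q : x₀.1 ∈ π.ker := by
    have e : x₀.1 = x * (x⁻¹ * x₀.1) := by group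
    rw [e]
    exact mul_mem hx (c.le x₀.2)
  refine c.false_central hV hF hactF hx₀Q hx₀F ?_ (fun g => ?_) ?_
  · have h1 : x₀.1 = x * (x⁻¹ * x₀.1) := by group
    rw [h1, mul_assoc, ← mul_assoc (x⁻¹ * x₀.1) x, c.cent _ x₀.2 x hx, mul_assoc x, c.exp _ x₀.2, mul_one, hx2]
  · exact mul_inv_eq_iff_eq_mul.1 (congrArg Subtype.val (hall g))
  · obtain ⟨g, a, ha, h1, h2⟩ := hact
    refine ⟨g, a, ha, h1, fun h => h2 ?_⟩
    have e : a⁻¹ * (g * a * g⁻¹) * x = a⁻¹ * (g * a * g⁻¹) * x₀.1 * (x⁻¹ * x₀.1)⁻¹ := by group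
    rw [e]
    exact F.mul_mem h (F.inv_mem x₀.2)

/-- The middle case. -/
theorem false_mid [F.Normal] (hV : Nat.card (↥π.ker ⧸ F.subgroupOf π.ker) = 16) (hF : Nat.card F = 8)
    (hactF : ∃ g : G, ∃ w ∈ F, g * w ≠ w * g) : False := by
  classical
  obtain ⟨d, hd⟩ := c.surj D7
  let ψ := secAut π.ker F
  obtain ⟨z, s⟩ := c.seven_V hV hd
  set H0 := diffs s.h2 (ψ d) with hH0
  obtain ⟨z0, rfl⟩ := QuotientGroup.mk_surjective z
  have hzQ : (z0 : G) ∈ π.ker := z0.2
  have hz0F : (z0 : G) ∉ F := fun h => s.ne_one ((QuotientGroup.eq_one_iff _).2 h)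
  have hχk : π.ker ≤ (MulAut.conjNormal : G →* MulAut ↥F).ker := conjNormal_ker c.cent
  have hχfix : ∀ f ∈ F, d * f * d⁻¹ = f → f = 1 := by
    intro f hf hdf
    rcases seven_fixed (W := ↥F) (fun w => Subtype.ext (c.exp w w.2)) (by rw [hF]; norm_num)
      (c.pow_seven _ hχk hd)
      (fun e => conjNormal_ne_one hactF (hom_eq_one₃ c.surj _ hχk hd e)) with ⟨-, h⟩ | ⟨h, -⟩
    · have h1 : (⟨f, hf⟩ : ↥F) ∈ fixed (MulAut.conjNormal d) :=
        mem_fixed.2 (Subtype.ext (by rw [MulAut.conjNormal_apply]; exact hdf))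
      rw [Subgroup.card_eq_one.1 h, Subgroup.mem_bot] at h1
      exact congrArg Subtype.val h1
    · rw [hF] at h; omega
  have hmk : ∀ a b : ↥π.ker, (a : ↥π.ker ⧸ F.subgroupOf π.ker) = b ↔ (a : G)⁻¹ * b ∈ F :=
    mk_eq_mk_iff π.ker F
  -- the representative of the fixed point squares to one
  have hz2 : (z0 : G) * z0 = 1 := by
    refine hχfix _ (c.sq _ hzQ) ?_
    have h1 := ((s.fix _).2 (Or.inr rfl) : ψ d (z0 : ↥π.ker ⧸ F.subgroupOf π.ker) = z0)
    rw [secAut_mk, eq_comm, hmk, MulAut.conjNormal_apply] at h1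
    generalize hf : (z0 : G)⁻¹ * (d * z0 * d⁻¹) = f at h1
    have e : d * (z0 : G) * d⁻¹ = z0 * f := by rw [← hf]; group
    calc d * ((z0 : G) * z0) * d⁻¹ = (d * z0 * d⁻¹) * (d * z0 * d⁻¹) := by group
      _ = (z0 : G) * z0 := by
        rw [e, mul_assoc, ← mul_assoc f, c.cent f h1 _ hzQ, mul_assoc (z0 : G) f f, c.exp f h1, mul_one]
  have hzf2 : ∀ f ∈ F, (z0 : G) * f * (z0 * f) = 1 := fun f hf => by
    rw [mul_assoc, ← mul_assoc f, c.cent f hf _ hzQ, mul_assoc (z0 : G) f f, c.exp f hf, mul_one, hz2]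
  by_cases hinv : ∀ g, ∀ v ∈ H0, ψ g v ∈ H0
  · -- an invariant complement
    let P := pre H0
    haveI hPn : P.Normal := pre_normal H0 hinv
    have hPQ : P ≤ π.ker := pre_le H0
    have hFP : F ≤ P := le_pre c.le H0
    have hcP : Nat.card P = 8 * Nat.card F := by rw [card_pre c.le, s.card_diffs]
    have hzP : (z0 : G) ∉ P := fun h => s.z_notMem (mem_pre.1 h).2
    have hactP : ∃ g : G, ∃ a ∈ P, a⁻¹ * (g * a * g⁻¹) ∉ F := by
      obtain ⟨v, hv, hne⟩ := moves_diffs s
      obtain ⟨a, rfl⟩ := QuotientGroup.mk_surjective v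
      refine ⟨d, a, mem_pre.2 ⟨a.2, hv⟩, fun h => hne ?_⟩
      rw [inv_mul_eq_one, secAut_mk, hmk, MulAut.conjNormal_apply]
      exact h
    obtain ⟨hab, hPker, -⟩ := square_linear c.surj c.rank (P := P) (F := F) (W := F) hFP hPQ le_rfl
      c.exp (fun f hf a ha => c.cent f hf a (hPQ ha)) c.cent (fun q hq a ha => c.comm_mem (hPQ ha) hq)
      hcP hF (fun a ha => c.sq a (hPQ ha)) hactP hactF
    obtain ⟨π', hπ', hk, ⟨C⟩⟩ := exists_coordM c.surj (M := P) (W := F) hFP hab (by rw [hcP, hF]) hF c.exp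
      (fun a ha => c.sq a (hPQ ha)) hPker (fun q hq a ha => c.comm_mem (hPQ ha) hq) hactP
    -- the kernel is the union of two cosets
    have hsplit : ∀ q ∈ π.ker, q ∉ P → (z0 : G)⁻¹ * q ∈ P := by
      intro q hq hqP
      refine mem_pre.2 ⟨mul_mem (inv_mem hzQ) hq, ?_⟩
      rw [show (⟨(z0 : G)⁻¹ * q, mul_mem (inv_mem hzQ) hq⟩ : ↥π.ker) = z0⁻¹ * ⟨q, hq⟩ from rfl,
        QuotientGroup.mk_mul, QuotientGroup.mk_inv]
      exact (Subgroup.mul_mem_iff_of_index_two s.index_diffs).2 (iff_of_false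
        (fun h => s.z_notMem (inv_mem_iff.1 h)) (fun h => hqP (mem_pre.2 ⟨hq, h⟩)))
    have hgz : ∀ g, (z0 : G)⁻¹ * (g * z0 * g⁻¹) ∈ P := fun g => by
      refine hsplit _ ((MonoidHom.normal_ker π).conj_mem _ hzQ g) fun h => hzP ?_
      have := hPn.conj_mem _ h g⁻¹
      simpa [mul_assoc] using this
    have hzred : ∀ v, red (C.act (z0 : G) v) = red v := fun v => by
      rw [C.act_red, MonoidHom.mem_ker.1 (hk.symm ▸ hzQ : (z0 : G) ∈ π'.ker)]
      simp
    have hzc : ∀ g v, C.act (z0 : G) (C.act g v) = C.act g (C.act (z0 : G) v) := by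
      intro g v
      have h1 : C.act (g * z0) = C.act ((z0 : G) * g) := by
        have e : g * (z0 : G) = (z0 : G) * ((z0 : G)⁻¹ * (g * z0 * g⁻¹)) * g := by group
        rw [e, C.act_mul, C.act_mul, C.act_mem (hgz g), C.act_mul]
        rfl
      have h2 := congrArg (fun f : V4 →+ V4 => f v) h1
      rw [C.act_mul, C.act_mul] at h2
      exact h2.symm
    obtain ⟨r, hrc, hr⟩ := exists_commutator_lift hπ' R0
    have hkQ : r * r * (r * r) ∈ π.ker := by
      rw [← hk, MonoidHom.mem_ker, map_mul, map_mul, hr]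
      decide +kernel
    have hwQ : ∀ y₁ y₂ : G, π' y₁ = R0 * R0 → π' y₂ = S0 → y₁ * y₂ * (y₁ * y₂) ∈ π.ker := by
      intro y₁ y₂ h1 h2
      rw [← hk, MonoidHom.mem_ker, map_mul, map_mul, h1, h2]
      decide +kernel
    rcases C.commutant hπ' (C.act z0) hzred hzc with hid | hneg
    swap
    · -- inversion is no square of a transvection
      have hin : ∀ y, (π' y = R0 * R0 ∨ π' y = R0 * R0 * S0) → y * y ∈ π.ker → y * y ∈ P := by
        intro y hy hyQ
        by_contra hyP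
        refine C.no_neg_sq hy fun v => ?_
        have e : y * y = (z0 : G) * ((z0 : G)⁻¹ * (y * y)) := by group
        rw [e, C.act_mul, C.act_mem (hsplit _ hyQ hyP)]
        exact hneg v
      exact C.false_of_lifts c.rank hπ' hr hrc (hin _ (Or.inl (by rw [map_mul, hr])) hkQ)
        (fun y₁ y₂ h1 h2 _ _ => hin _ (Or.inr (by rw [map_mul, h1, h2])) (hwQ y₁ y₂ h1 h2))
    · have hzP' : ∀ v, (z0 : G) * C.φ v = C.φ v * z0 := fun v => by
        have h1 := C.act_spec (z0 : G) v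
        rw [hid] at h1
        exact mul_inv_eq_iff_eq_mul.1 h1
      have habz : ∀ q ∈ π.ker, q * (z0 : G) = z0 * q := by
        intro q hq
        by_cases hqP : q ∈ P
        · obtain ⟨v, rfl⟩ := C.surj q hqP
          exact (hzP' v).symm
        · obtain ⟨v, hv⟩ := C.surj _ (hsplit q hq hqP)
          have e : q = (z0 : G) * C.φ v := by rw [hv]; group
          rw [e, mul_assoc (z0 : G) (C.φ v), ← hzP' v]
      have hzinv : ∀ g, (z0 : G)⁻¹ * (g * z0 * g⁻¹) ∈ F := fun g => by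
        refine hPker _ (hgz g) ?_
        have hcm : ((z0 : G)⁻¹ * (g * z0 * g⁻¹)) * z0 = z0 * ((z0 : G)⁻¹ * (g * z0 * g⁻¹)) :=
          habz _ (hPQ (hgz g))
        generalize hp : (z0 : G)⁻¹ * (g * z0 * g⁻¹) = q at hcm
        have e : g * (z0 : G) * g⁻¹ = z0 * q := by rw [← hp]; group
        have h1 : (z0 : G) * q * (z0 * q) = 1 := by
          rw [← e]
          calc g * (z0 : G) * g⁻¹ * (g * z0 * g⁻¹) = g * ((z0 : G) * z0) * g⁻¹ := by group
            _ = 1 := by rw [hz2]; group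
        rw [mul_assoc, ← mul_assoc q, hcm, mul_assoc (z0 : G) q q, ← mul_assoc, hz2, one_mul] at h1
        exact h1
      have hact' : ∃ g : G, ∃ a ∈ π.ker, a⁻¹ * (g * a * g⁻¹) ∉ F ∧ a⁻¹ * (g * a * g⁻¹) * z0 ∉ F := by
        obtain ⟨g, a, ha, hga⟩ := hactP
        refine ⟨g, a, hPQ ha, hga, fun h => hzP ?_⟩
        have h1 : a⁻¹ * (g * a * g⁻¹) ∈ P := mul_mem (inv_mem ha) (hPn.conj_mem a ha g)
        have := P.mul_mem (P.inv_mem h1) (hFP h)
        simpa [mul_assoc] using this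
      have hfixed : ∀ t k, π' t = R0 * R0 → t * t ∈ π.ker → k ∈ π.ker → k ∉ P →
          (t * k * t⁻¹ = k ∨ t * k * t⁻¹ = k⁻¹) →
          (∀ v, k = (z0 : G) * C.φ v → red v = 0 ∨ red v = red (1, 0, 1)) → False := by
        intro t k ht ht2 hkQ' hkP hcase hcent
        obtain ⟨v, hv⟩ := C.surj _ (hsplit k hkQ' hkP)
        have hk' : k = (z0 : G) * C.φ v := by rw [hv]; group
        have htt : ∀ w, C.act t (C.act t w) = w := fun w => by
          rw [← AddMonoidHom.comp_apply, ← C.act_mul, C.act_of_commute (t * t) fun u => ?_]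
          · rfl
          · by_cases htP : t * t ∈ P
            · exact hab _ htP _ (C.mem u)
            · obtain ⟨a, ha⟩ := C.surj _ (hsplit _ ht2 htP)
              have e : t * t = (z0 : G) * C.φ a := by rw [ha]; group
              rw [e, mul_assoc, hab _ (C.mem a) _ (C.mem u), ← mul_assoc, hzP', mul_assoc]
        obtain ⟨u, hu⟩ := C.fixed_in_coset hzP' hz2 ht htt (hcent v hk') (by rw [← hk']; exact hcase)
        refine c.false_coset hV hF hactF hzQ hz0F hz2 habz hzinv hact' (t := t) ?_ ht2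
          (f := C.φ (2 • u)) ?_ hu
        · intro h
          rw [MonoidHom.mem_ker.1 (hk.symm ▸ h : t ∈ π'.ker)] at ht
          exact absurd ht (by decide +kernel)
        · rw [two_nsmul, C.map_add]
          exact c.sq _ (hPQ (C.mem u))
      have hmod : ∀ (g : G) v, g * ((z0 : G) * C.φ v) * g⁻¹ =
          (z0 : G) * (((z0 : G)⁻¹ * (g * z0 * g⁻¹)) * C.φ (C.act g v)) := fun g v => by
        rw [← C.act_spec]; group
      have hF2 : ∀ f ∈ F, ∃ u, f = C.φ (2 • u) := fun f hf => by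
        obtain ⟨w, rfl⟩ := C.surj f (hFP hf)
        have h1 : C.φ (w + w) = C.φ 0 := by rw [C.map_add, c.exp _ hf, C.map_zero]
        obtain ⟨u, hu⟩ := exists_half w (by rw [two_nsmul]; exact C.inj h1)
        exact ⟨u, by rw [hu]⟩
      have hredfix : ∀ g v (m : ℤ), g * ((z0 : G) * C.φ v) * g⁻¹ = (z0 : G) * C.φ (m • v) → Odd m →
          ((π' g : SL32) : Matrix (Fin 3) (Fin 3) (ZMod 2)).mulVec (red v) = red v := by
        intro g v m h hm
        rw [hmod] at h
        obtain ⟨u, hu⟩ := hF2 _ (hzinv g)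
        rw [hu, ← C.map_add] at h
        have h1 := C.inj (mul_left_cancel h)
        rw [← C.act_red, red_eq_iff]
        obtain ⟨j, rfl⟩ := hm
        have h3 := congrArg (fun w : V4 => (2 : ℕ) • w) h1
        simp only [smul_add] at h3
        rw [(by decide +kernel : ∀ u : V4, (2 : ℕ) • ((2 : ℕ) • u) = 0) u, zero_add] at h3
        rw [h3, add_zsmul, one_zsmul, smul_add, mul_zsmul, two_zsmul, smul_add,
          (by decide +kernel : ∀ u : V4, (2 : ℕ) • u + (2 : ℕ) • u = 0), zero_add]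
      refine C.false_of_lifts c.rank hπ' hr hrc ?_ ?_
      · by_contra hkP
        refine hfixed (r * r) _ (by rw [map_mul, hr]) hkQ hkQ hkP
          (Or.inl (mul_inv_eq_iff_eq_mul.2 (by simp only [mul_assoc]))) fun v hv => ?_
        refine fix_centre _ (Or.inl ?_)
        have hfx := hredfix r v 1 (by
          rw [one_zsmul, ← hv]; exact mul_inv_eq_iff_eq_mul.2 (by simp only [mul_assoc])) odd_one
        rwa [hr] at hfx
      · intro y₁ y₂ h1 h2 e1 e2
        by_contra hwP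
        have i1 := inv_eq_of_mul_eq_one_right e1
        have i2 := inv_eq_of_mul_eq_one_right e2
        have inv1 : y₁ * (y₁ * y₂ * (y₁ * y₂)) * y₁⁻¹ = (y₁ * y₂ * (y₁ * y₂))⁻¹ := by
          simp only [mul_inv_rev, i1, i2, mul_assoc]
          rw [← mul_assoc y₁ y₁, e1, one_mul]
        have inv2 : y₂ * (y₁ * y₂ * (y₁ * y₂)) * y₂⁻¹ = (y₁ * y₂ * (y₁ * y₂))⁻¹ := by
          simp only [mul_inv_rev, i1, i2, mul_assoc]
          rw [e2, mul_one]
        refine hfixed y₁ _ h1 (by rw [e1]; exact one_mem _) (hwQ y₁ y₂ h1 h2) hwP (Or.inr inv1) fun v hv => ?_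
        have hni : ((z0 : G) * C.φ v)⁻¹ = (z0 : G) * C.φ ((-1 : ℤ) • v) := by
          rw [neg_one_zsmul, C.map_neg, mul_inv_rev, inv_eq_of_mul_eq_one_right hz2, ← C.map_neg, hzP']
        refine fix_centre _ (Or.inr ⟨?_, ?_⟩)
        · have hfx := hredfix y₁ v (-1) (by rw [← hni, ← hv]; exact inv1) (by decide)
          rwa [h1] at hfx
        · have hfx := hredfix y₂ v (-1) (by rw [← hni, ← hv]; exact inv2) (by decide)
          rwa [h2] at hfx
  · -- a fixed point without complement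
    have hzfix : ∀ g, ψ g (z0 : ↥π.ker ⧸ F.subgroupOf π.ker) = z0 :=
      (split16 c.surj c.sec_ker hd s).resolve_right hinv
    have hzinv : ∀ g, (z0 : G)⁻¹ * (g * z0 * g⁻¹) ∈ F := fun g => by
      have h1 := hzfix g
      rw [secAut_mk, eq_comm, hmk, MulAut.conjNormal_apply] at h1
      exact h1
    obtain ⟨t, ht⟩ := c.surj (R0 * R0)
    have htne : π t ≠ 1 := by rw [ht]; decide +kernel
    have htsq : π t * π t = 1 := by rw [ht]; decide +kernel
    have htQ : t * t ∈ π.ker := by rw [MonoidHom.mem_ker, map_mul, htsq]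
    obtain ⟨v, hvz⟩ : ∃ v, v * ψ t v = z0 := by
      by_contra hno
      simp only [not_exists] at hno
      exact hinv (complement16 c.surj c.sec_ker hd s hzfix htne htsq hno)
    obtain ⟨a, rfl⟩ := QuotientGroup.mk_surjective v
    have hta : (a : G)⁻¹ * (t * a * t⁻¹) * z0 ∈ F := by
      have h1 : ψ t (a : ↥π.ker ⧸ F.subgroupOf π.ker) = ((a * z0 : ↥π.ker) : ↥π.ker ⧸ F.subgroupOf π.ker) := by
        rw [QuotientGroup.mk_mul, ← hvz, ← mul_assoc, s.h2, one_mul]
      rw [secAut_mk, hmk, MulAut.conjNormal_apply] at h1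
      have e : (a : G)⁻¹ * (t * a * t⁻¹) * z0 =
          (z0 : G) * ((t * a * t⁻¹)⁻¹ * (a * z0 : ↥π.ker))⁻¹ * z0 := by
        rw [Subgroup.coe_mul]; group
      rw [e, ← c.cent _ (F.inv_mem h1) _ hzQ, mul_assoc, hz2, mul_one]
      exact F.inv_mem h1
    -- the polar with the fixed point
    let κ : G → G := fun q => (z0 : G) * q * (z0 : G)⁻¹ * q⁻¹
    have hκF : ∀ q ∈ π.ker, κ q ∈ F := fun q hq => by
      have h1 := c.comm_mem hq hzQ
      have h2 := ‹F.Normal›.conj_mem _ h1 q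
      simpa [κ, mul_assoc] using h2
    have hκmul : ∀ q ∈ π.ker, ∀ q' ∈ π.ker, κ (q * q') = κ q * κ q' := fun q hq q' hq' => by
      have e : κ (q * q') = κ q * (q * κ q' * q⁻¹) := by simp only [κ]; group
      rw [e, ← c.cent _ (hκF q' hq') q hq, mul_inv_cancel_right]
    have hzg : ∀ g : G, ∃ f ∈ F, g * (z0 : G) * g⁻¹ = z0 * f := fun g => ⟨_, hzinv g, by group⟩
    have hκeq : ∀ g, ∀ q ∈ π.ker, g * κ q * g⁻¹ = κ (g * q * g⁻¹) := by
      intro g q hq
      obtain ⟨f, hf, he⟩ := hzg g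
      have hqc : g * q * g⁻¹ ∈ π.ker := (MonoidHom.normal_ker π).conj_mem q hq g
      have e : g * κ q * g⁻¹ = (g * z0 * g⁻¹) * (g * q * g⁻¹) * (g * z0 * g⁻¹)⁻¹ * (g * q * g⁻¹)⁻¹ := by
        simp only [κ]; group
      rw [e, he]
      simp only [κ]
      rw [mul_assoc (z0 : G) f, c.cent f hf _ hqc]
      group
    let K : Subgroup (↥π.ker ⧸ F.subgroupOf π.ker) :=
      { carrier := {v | ∀ q : ↥π.ker, (q : ↥π.ker ⧸ F.subgroupOf π.ker) = v → κ q = 1}
        one_mem' := fun q hq => by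
          rw [QuotientGroup.eq_one_iff, Subgroup.mem_subgroupOf] at hq
          show κ q = 1
          simp only [κ]
          rw [← c.cent _ hq _ hzQ]
          group
        mul_mem' := by
          intro u v hu hv q hq
          obtain ⟨u', rfl⟩ := QuotientGroup.mk_surjective u
          have h1 : κ q = κ u' * κ (u'⁻¹ * q : ↥π.ker) := by
            rw [← hκmul _ u'.2 _ (u'⁻¹ * q).2, ← Subgroup.coe_mul, mul_inv_cancel_left]
          rw [h1, hu u' rfl, hv (u'⁻¹ * q) (by rw [QuotientGroup.mk_mul, QuotientGroup.mk_inv, hq,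
            inv_mul_cancel_left]), one_mul]
        inv_mem' := fun {v} hv => by rwa [inv_eq_of_mul_eq_one_right (s.h2 v)] }
    have hKmem : ∀ q : ↥π.ker, (q : ↥π.ker ⧸ F.subgroupOf π.ker) ∈ K ↔ κ q = 1 := fun q =>
      ⟨fun h => h q rfl, fun h q' hq' => by
        have h1 : (q' : G) = (q : G) * ((q : G)⁻¹ * q') := by group
        rw [eq_comm, hmk] at hq'
        rw [h1, hκmul _ q.2 _ (c.le hq'), h, one_mul]
        simp only [κ]
        rw [← c.cent _ hq' _ hzQ]
        group⟩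
    have hKG : ∀ g v, ψ g v ∈ K ↔ v ∈ K := by
      intro g v
      obtain ⟨q, rfl⟩ := QuotientGroup.mk_surjective v
      rw [secAut_mk, hKmem, hKmem, MulAut.conjNormal_apply, ← hκeq g q q.2]
      constructor
      · intro h; simpa [mul_assoc] using congrArg (fun w => g⁻¹ * w * g) h
      · intro h; rw [h]; group
    have hzK : (z0 : ↥π.ker ⧸ F.subgroupOf π.ker) ∈ K := (hKmem z0).2 (by simp [κ])
    have hκ : ∀ q ∈ π.ker, κ q = 1 := by
      by_contra hne
      have hdis : ∀ v ∈ H0, v ∈ K → v = 1 := by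
        intro v hv hvK
        by_contra hv1
        apply hne
        intro q hq
        refine (hKmem ⟨q, hq⟩).1 ?_
        by_cases hq0 : ((⟨q, hq⟩ : ↥π.ker) : ↥π.ker ⧸ F.subgroupOf π.ker) ∈ H0
        · by_cases hq1 : ((⟨q, hq⟩ : ↥π.ker) : ↥π.ker ⧸ F.subgroupOf π.ker) = 1
          · rw [hq1]; exact one_mem K
          · exact s.const_diffs (fun v => v ∈ K) (hKG d) hv hv1 hvK _ hq0 hq1
        · have h1 := (Subgroup.mul_mem_iff_of_index_two s.index_diffs).2 (iff_of_false hq0 s.z_notMem)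
          have h2 : ((⟨q, hq⟩ : ↥π.ker) : ↥π.ker ⧸ F.subgroupOf π.ker) * z0 ∈ K := by
            by_cases hq1 : ((⟨q, hq⟩ : ↥π.ker) : ↥π.ker ⧸ F.subgroupOf π.ker) * z0 = 1
            · rw [hq1]; exact one_mem K
            · exact s.const_diffs (fun v => v ∈ K) (hKG d) hv hv1 hvK _ h1 hq1
          exact (K.mul_mem_cancel_right hzK).1 h2
      -- the squares are values of the polar
      let k : ↥H0 → ↥F := fun u => ⟨κ ((u : ↥π.ker ⧸ F.subgroupOf π.ker).out : ↥π.ker), hκF _ (SetLike.coe_mem _)⟩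
      have hkinj : Function.Injective k := by
        intro u u' h
        have h1 : κ ((u : ↥π.ker ⧸ F.subgroupOf π.ker).out : ↥π.ker) =
            κ ((u' : ↥π.ker ⧸ F.subgroupOf π.ker).out : ↥π.ker) := congrArg Subtype.val h
        have h2 : (u : ↥π.ker ⧸ F.subgroupOf π.ker) * u' ∈ K := by
          rw [← QuotientGroup.out_eq' (u : ↥π.ker ⧸ F.subgroupOf π.ker),
            ← QuotientGroup.out_eq' (u' : ↥π.ker ⧸ F.subgroupOf π.ker), ← QuotientGroup.mk_mul, hKmem,
            Subgroup.coe_mul, hκmul _ (SetLike.coe_mem _) _ (SetLike.coe_mem _), h1]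
          exact c.exp _ (hκF _ (SetLike.coe_mem _))
        have h3 := hdis _ (mul_mem u.2 u'.2) h2
        exact Subtype.ext ((eq_inv_of_mul_eq_one_left h3).trans (inv_eq_of_mul_eq_one_right (s.h2 _)))
      have hksurj : Function.Surjective k := by
        haveI := Fintype.ofFinite ↥H0
        haveI := Fintype.ofFinite ↥F
        exact ((Fintype.bijective_iff_injective_and_card k).2 ⟨hkinj,
          by rw [← Nat.card_eq_fintype_card, ← Nat.card_eq_fintype_card, hF]; exact s.card_diffs⟩).2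
      obtain ⟨u, hu⟩ := hksurj ⟨(a : G) * a, c.sq _ a.2⟩
      set b : ↥π.ker := (u : ↥π.ker ⧸ F.subgroupOf π.ker).out
      have hb : κ b = (a : G) * a := congrArg Subtype.val hu
      -- conjugate the square
      have h1 : t * ((a : G) * a) * t⁻¹ = (a : G) * a * κ a := by
        generalize hf : (a : G)⁻¹ * (t * a * t⁻¹) * z0 = f at hta
        have e : t * (a : G) * t⁻¹ = a * f * z0 := by
          rw [← hf]
          simp only [mul_assoc]
          rw [hz2, mul_one, mul_inv_cancel_left]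
        calc t * ((a : G) * a) * t⁻¹ = (t * a * t⁻¹) * (t * a * t⁻¹) := by group
          _ = ((a : G) * f * z0) * (a * f * z0) := by rw [e]
          _ = (a : G) * a * κ a := by
            have hf1 : ∀ q ∈ π.ker, f * q = q * f := c.cent f hta
            have hκa : ∀ q ∈ π.ker, κ a * q = q * κ a := c.cent _ (hκF _ a.2)
            have e2 : (z0 : G) * a = κ a * a * z0 := by simp only [κ]; group
            calc (a : G) * f * z0 * (a * f * z0) = a * f * ((z0 : G) * a) * (f * z0) := by group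
              _ = (a : G) * f * (κ a * a * z0) * (z0 * f) := by rw [e2, hf1 _ hzQ]
              _ = (a : G) * (f * (κ a * a)) * ((z0 : G) * z0) * f := by group
              _ = (a : G) * ((κ a * a) * f) * f := by
                rw [hz2, mul_one, hf1 _ (mul_mem (c.le (hκF _ a.2)) a.2)]
              _ = (a : G) * (κ a * a) * (f * f) := by group
              _ = (a : G) * a * κ a := by rw [c.exp f hta, mul_one, hκa _ a.2, mul_assoc]
      have hbQ : t * (b : G) * t⁻¹ ∈ π.ker := (MonoidHom.normal_ker π).conj_mem _ b.2 t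
      have h2 : κ ((a : G) * ((b : G) * (t * b * t⁻¹))) = 1 := by
        rw [hκmul _ a.2 _ (mul_mem b.2 hbQ), hκmul _ b.2 _ hbQ, ← hκeq t b b.2, hb, h1]
        rw [← mul_assoc (κ a), ← c.cent _ (c.sq _ a.2) (κ a) (c.le (hκF _ a.2)),
          show (a : G) * a * κ a * ((a : G) * a * κ a) = 1 from c.exp _ (F.mul_mem (c.sq _ a.2) (hκF _ a.2))]
      have h3 := (hKmem (a * (b * ⟨_, hbQ⟩))).2 h2
      have hKeq : ∀ v ∈ K, v = 1 ∨ v = (z0 : ↥π.ker ⧸ F.subgroupOf π.ker) := by
        intro v hv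
        by_cases hv0 : v ∈ H0
        · exact Or.inl (hdis v hv0 hv)
        · refine Or.inr ?_
          have h4 := hdis _ ((Subgroup.mul_mem_iff_of_index_two s.index_diffs).2 (iff_of_false hv0 s.z_notMem))
            (mul_mem hv hzK)
          exact (eq_inv_of_mul_eq_one_left h4).trans (inv_eq_of_mul_eq_one_right (s.h2 _))
      have hbt : ((⟨_, hbQ⟩ : ↥π.ker) : ↥π.ker ⧸ F.subgroupOf π.ker) = ψ t b := by
        rw [secAut_mk]; congr 1
      rw [QuotientGroup.mk_mul, QuotientGroup.mk_mul, hbt] at h3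
      have htt : ∀ w, ψ t (ψ t w) = w := fun w => by
        rw [← MulAut.mul_apply, ← _root_.map_mul, MonoidHom.mem_ker.1 (c.sec_ker htQ), MulAut.one_apply]
      have hcom := comm_of_exp_two s.h2
      -- apply `t` to the relation
      rcases hKeq _ h3 with h4 | h4 <;>
      · have h5 := congrArg (ψ t) h4
        simp only [_root_.map_mul, map_one, htt, hzfix] at h5
        have h6 : ψ t (a : ↥π.ker ⧸ F.subgroupOf π.ker) = a := by
          rw [hcom (ψ t b) b] at h5
          exact mul_right_cancel (h5.trans h4.symm)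
        rw [h6, s.h2] at hvz
        exact s.ne_one hvz.symm
    -- the kernel is abelian
    let Z := pre (Subgroup.closure ({(z0 : ↥π.ker ⧸ F.subgroupOf π.ker)} : Set _))
    have hZc : ∀ v ∈ Subgroup.closure ({(z0 : ↥π.ker ⧸ F.subgroupOf π.ker)} : Set _),
        v = 1 ∨ v = (z0 : ↥π.ker ⧸ F.subgroupOf π.ker) := by
      intro v hv
      induction hv using Subgroup.closure_induction with
      | mem x hx => exact Or.inr hx
      | one => exact Or.inl rfl
      | mul x y _ _ hx hy =>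
        rcases hx with rfl | rfl <;> rcases hy with rfl | rfl
        · exact Or.inl (one_mul 1)
        · exact Or.inr (one_mul _)
        · exact Or.inr (mul_one _)
        · exact Or.inl (s.h2 _)
      | inv x _ hx =>
        rw [inv_eq_of_mul_eq_one_right (s.h2 x)]
        exact hx
    haveI hZn : Z.Normal := pre_normal _ fun g v hv => by
      rcases hZc v hv with rfl | rfl
      · rw [map_one]; exact one_mem _
      · rw [hzfix]; exact Subgroup.mem_closure_singleton_self _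
    have hzZ : (z0 : G) ∈ Z := mem_pre.2 ⟨hzQ, Subgroup.mem_closure_singleton_self _⟩
    have hZmem : ∀ y ∈ Z, y ∈ F ∨ (z0 : G) * y ∈ F := by
      intro y hy
      obtain ⟨hyQ, hy'⟩ := mem_pre.1 hy
      rcases hZc _ hy' with h | h
      · exact Or.inl (by rwa [QuotientGroup.eq_one_iff, Subgroup.mem_subgroupOf] at h)
      · refine Or.inr ?_
        rw [eq_comm, hmk, inv_eq_of_mul_eq_one_right hz2] at h
        exact h
    have hZ2 : ∀ y ∈ Z, y * y = 1 := by
      intro y hy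
      rcases hZmem y hy with h | h
      · exact c.exp y h
      · have h1 := hzf2 _ h
        rw [← mul_assoc (z0 : G) z0 y, hz2, one_mul] at h1
        exact h1
    have hzc : ∀ q ∈ π.ker, q * (z0 : G) = z0 * q := fun q hq => by
      have h1 := hκ q hq
      simp only [κ] at h1
      rw [mul_inv_eq_one, mul_inv_eq_iff_eq_mul] at h1
      exact h1.symm
    have hZcent : ∀ y ∈ Z, ∀ q ∈ π.ker, y * q = q * y := by
      intro y hy q hq
      rcases hZmem y hy with h | h
      · exact c.cent y h q hq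
      · have e : y = (z0 : G) * ((z0 : G) * y) := by rw [← mul_assoc, hz2, one_mul]
        rw [e, mul_assoc, c.cent _ h q hq, ← mul_assoc, ← hzc q hq, mul_assoc]
    have hcard : Nat.card (Subgroup.closure ({(z0 : ↥π.ker ⧸ F.subgroupOf π.ker)} : Set _)) = 2 := by
      rw [← Subgroup.zpowers_eq_closure, Nat.card_zpowers,
        orderOf_eq_prime (by rw [pow_two, s.h2]) s.ne_one]
    have hcQ : Nat.card π.ker = 128 := by rw [← card_quot_sub c.le, hV, hF]
    have hZQ : Z ≤ π.ker := pre_le _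
    have hcZ : Nat.card π.ker = 8 * Nat.card Z := by rw [card_pre c.le, hcard, hF, hcQ]
    have hactZ : ∃ g : G, ∃ q ∈ π.ker, q⁻¹ * (g * q * g⁻¹) ∉ Z := by
      obtain ⟨v, hv, hne⟩ := moves_diffs s
      obtain ⟨q, rfl⟩ := QuotientGroup.mk_surjective v
      refine ⟨d, q, q.2, fun h => ?_⟩
      obtain ⟨hq, hq'⟩ := mem_pre.1 h
      have e : ((⟨_, hq⟩ : ↥π.ker) : ↥π.ker ⧸ F.subgroupOf π.ker) =
          (q : ↥π.ker ⧸ F.subgroupOf π.ker)⁻¹ * ψ d q := by
        rw [secAut_mk, ← QuotientGroup.mk_inv, ← QuotientGroup.mk_mul]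
        congr 1
      rw [e] at hq'
      rcases hZc _ hq' with h1 | h1
      · exact hne h1
      · have h2 := mul_mem (inv_mem hv) (diffs_apply (h2 := s.h2) hv)
        rw [h1] at h2
        exact s.z_notMem h2
    obtain ⟨hab, -, -⟩ := square_linear c.surj c.rank (P := π.ker) (F := Z) (W := F) hZQ le_rfl
      (le_pre c.le _) hZ2 (fun y hy q hq => hZcent y hy q hq) c.cent
      (fun q hq a ha => le_pre c.le _ (c.comm_mem ha hq)) hcZ hF c.sq hactZ hactF
    generalize hf : (a : G)⁻¹ * (t * a * t⁻¹) * z0 = f at hta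
    have hk : (a : G)⁻¹ * (t * a * t⁻¹) = z0 * f := by
      rw [← c.cent f hta _ hzQ, ← hf, mul_assoc _ (z0 : G) z0, hz2, mul_one]
    refine c.false_coset hV hF hactF hzQ hz0F hz2 hzc hzinv ?_ (t := t) (fun h => htne h) htQ hta ?_
    · obtain ⟨g, q, hq, hgq⟩ := hactZ
      refine ⟨g, q, hq, fun h => hgq (le_pre c.le _ h), fun h => hgq ?_⟩
      have := Z.mul_mem (le_pre c.le _ h) (Z.inv_mem hzZ)
      simpa using this
    · have h1 : t * ((a : G)⁻¹ * (t * a * t⁻¹)) * t⁻¹ = ((a : G)⁻¹ * (t * a * t⁻¹))⁻¹ := by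
        have e1 : t * t * (a : G) * (t * t)⁻¹ = a := by
          rw [hab _ htQ _ a.2, mul_inv_cancel_right]
        have e2 : t * ((a : G)⁻¹ * (t * a * t⁻¹)) * t⁻¹ =
            (t * a * t⁻¹)⁻¹ * (t * t * (a : G) * (t * t)⁻¹) := by group
        rw [e2, e1]; group
      rw [hk] at h1
      rw [h1]
      exact inv_eq_of_mul_eq_one_right (hzf2 f hta)

end Ctx3

end CfsgLib.SmallRadical
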