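import Cfsg.Agent.SmallRadical.Modules
import Cfsg.Agent.QuadMap.Gauss

/-! Elementary abelian groups of order sixteen acted on by `L₃(2)`. -/

set_option autoImplicit false

namespace CfsgLib.SmallRadical

variable {V : Type*} [Group V]

theorem modEq_one_on {α : Type*} [Finite α] (f : Equiv.Perm α) (p : ℕ) [Fact p.Prime] (hf : f ^ p = 1)
    (P : α → Prop) (hP : ∀ a, P (f a) ↔ P a) {a₀ : α} (h₀ : P a₀) (hf₀ : f a₀ = a₀)
    (huniq : ∀ a, P a → f a = a → a = a₀) : Nat.card {a // P a} ≡ 1 [MOD p] := by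
  have h := modEq_fix (f.subtypePerm (p := P) hP) p (by
    ext a
    rw [Equiv.Perm.subtypePerm_pow]
    simp [hf])
  have h1 : Nat.card {a : {a // P a} // f.subtypePerm hP a = a} = 1 := by
    rw [Nat.card_eq_one_iff_exists]
    refine ⟨⟨⟨a₀, h₀⟩, Subtype.ext hf₀⟩, fun b => ?_⟩
    exact Subtype.ext (Subtype.ext (huniq _ b.1.2 (congrArg Subtype.val b.2)))
  rwa [h1] at h

/-- The image of `v ↦ v * σ v`. -/
def diffs (h2 : ∀ v : V, v * v = 1) (σ : MulAut V) : Subgroup V :=
  (MonoidHom.mk' (fun v => v * σ v) fun a b => by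
    rw [_root_.map_mul, mul_assoc, mul_assoc, ← mul_assoc b, ← mul_assoc (σ a),
      comm_of_exp_two h2 b (σ a)]).range

theorem mem_diffs {h2 : ∀ v : V, v * v = 1} {σ : MulAut V} {x : V} :
    x ∈ diffs h2 σ ↔ ∃ v, v * σ v = x := Iff.rfl

theorem diffs_apply {h2 : ∀ v : V, v * v = 1} {σ : MulAut V} {x : V} (hx : x ∈ diffs h2 σ) :
    σ x ∈ diffs h2 σ := by
  obtain ⟨v, rfl⟩ := hx
  exact ⟨σ v, (_root_.map_mul σ v (σ v)).symm⟩

/-- The facts about the element of order seven on a group of order sixteen. -/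
structure Seven (V : Type*) [Group V] (σ : MulAut V) (z : V) : Prop where
  h2 : ∀ v : V, v * v = 1
  card : Nat.card V = 16
  h7 : σ ^ 7 = 1
  ne_one : z ≠ 1
  fix : ∀ v, σ v = v ↔ v = 1 ∨ v = z

namespace Seven

variable [Finite V] {σ : MulAut V} {z : V} (s : Seven V σ z)
include s

theorem card_fixed : Nat.card (fixed σ) = 2 := by
  classical
  haveI := Fintype.ofFinite V
  rw [Nat.card_eq_fintype_card]
  rw [Fintype.card_subtype]
  have : Finset.univ.filter (fun v => v ∈ fixed σ) = {1, z} := by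
    ext v
    simp [mem_fixed, s.fix]
  rw [this, Finset.card_pair (Ne.symm s.ne_one)]

theorem z_notMem : z ∉ diffs s.h2 σ := by
  rintro ⟨v, hv⟩
  change v * σ v = z at hv
  have hσv : σ v = v * z := by rw [← hv, ← mul_assoc, s.h2, one_mul]
  have hσz : σ z = z := (s.fix z).2 (Or.inr rfl)
  have hpow : ∀ n : ℕ, (σ ^ n) v = v * z ^ n := by
    intro n
    induction n with
    | zero => simp
    | succ n ih => rw [pow_succ', MulAut.mul_apply, ih, _root_.map_mul, map_pow, hσv, hσz, mul_assoc, ← pow_succ']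
  have h := hpow 7
  rw [s.h7, MulAut.one_apply, eq_comm, mul_eq_left] at h
  have hz : z ^ 7 = z := by
    rw [show 7 = 2 * 3 + 1 from rfl, pow_succ, pow_mul, pow_two, s.h2, one_pow, one_mul]
  exact s.ne_one (hz ▸ h)

theorem card_diffs : Nat.card (diffs s.h2 σ) = 8 := by
  let f : V →* V := MonoidHom.mk' (fun v => v * σ v) fun a b => by
    rw [_root_.map_mul, mul_assoc, mul_assoc, ← mul_assoc b, ← mul_assoc (σ a),
      comm_of_exp_two s.h2 b (σ a)]
  have hker : f.ker = fixed σ := by
    ext v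
    rw [MonoidHom.mem_ker, mem_fixed, MonoidHom.mk'_apply, mul_eq_one_iff_inv_eq,
      inv_eq_of_mul_eq_one_right (s.h2 v)]
    exact eq_comm
  have h := f.ker.card_mul_index
  rw [Subgroup.index_ker, hker, s.card_fixed, s.card] at h
  change Nat.card f.range = 8
  omega

theorem index_diffs : (diffs s.h2 σ).index = 2 := by
  have h := (diffs s.h2 σ).card_mul_index
  rw [s.card_diffs, s.card] at h
  omega

theorem fix_diffs {x : V} (hx : x ∈ diffs s.h2 σ) (h : σ x = x) : x = 1 :=
  ((s.fix x).1 h).resolve_right fun e => s.z_notMem (e ▸ hx)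

/-- An invariant predicate on the complement is all or nothing away from the identity. -/
theorem const_diffs (P : V → Prop) (hP : ∀ v, P (σ v) ↔ P v) {x : V} (hx : x ∈ diffs s.h2 σ) (hx1 : x ≠ 1)
    (hPx : P x) : ∀ y ∈ diffs s.h2 σ, y ≠ 1 → P y := by
  haveI : Fact (Nat.Prime 7) := ⟨by norm_num⟩
  classical
  haveI := Fintype.ofFinite V
  have hperm : (MulEquiv.toEquiv σ : Equiv.Perm V) ^ 7 = 1 := by
    have := congrArg (MulAut.toPerm V) s.h7
    rwa [map_pow, map_one] at this
  have hiff : ∀ v, (σ v ∈ diffs s.h2 σ ∧ σ v ≠ 1 ∧ ¬ P (σ v)) ↔ (v ∈ diffs s.h2 σ ∧ v ≠ 1 ∧ ¬ P v) := by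
    intro v
    rw [hP, MulEquiv.map_ne_one_iff]
    refine and_congr_left fun _ => ⟨fun h => ?_, diffs_apply⟩
    have hp : ∀ (n : ℕ), ∀ w ∈ diffs s.h2 σ, (σ ^ n) w ∈ diffs s.h2 σ := by
      intro n
      induction n with
      | zero => exact fun w hw => hw
      | succ n ih =>
        intro w hw
        rw [pow_succ, MulAut.mul_apply]
        exact ih _ (diffs_apply hw)
    have e : (σ ^ 6) (σ v) = v := by rw [← MulAut.mul_apply, ← pow_succ, s.h7, MulAut.one_apply]
    exact e ▸ hp 6 _ h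
  let p : V → Prop := fun v => v ∈ diffs s.h2 σ ∧ v ≠ 1 ∧ ¬ P v
  have h := modEq_fix (Equiv.Perm.subtypePerm (p := p) (MulEquiv.toEquiv σ : Equiv.Perm V) hiff) 7 (by
    ext a
    rw [Equiv.Perm.subtypePerm_pow]
    exact congrFun (congrArg DFunLike.coe hperm) a.1)
  have h0 : Nat.card {a : Subtype p // Equiv.Perm.subtypePerm (MulEquiv.toEquiv σ : Equiv.Perm V) hiff a = a} = 0 := by
    rw [Nat.card_eq_zero]
    refine Or.inl ⟨fun a => ?_⟩
    exact a.1.2.2.1 (s.fix_diffs a.1.2.1 (congrArg Subtype.val a.2))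
  rw [h0] at h
  intro y hy hy1
  by_contra hPy
  have hpos : 0 < Nat.card (Subtype p) := by
    haveI : Nonempty (Subtype p) := ⟨⟨y, hy, hy1, hPy⟩⟩
    exact Nat.card_pos
  have hlt : Nat.card (Subtype p) < 7 := by
    rw [Nat.card_eq_fintype_card, Fintype.card_subtype]
    have hsub : Finset.univ.filter p ⊆ ((Finset.univ.filter fun v => v ∈ diffs s.h2 σ).erase 1).erase x := by
      intro v hv
      rw [Finset.mem_filter] at hv
      simp only [Finset.mem_erase, Finset.mem_filter, Finset.mem_univ, true_and]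
      exact ⟨fun e => hv.2.2.2 (e ▸ hPx), hv.2.2.1, hv.2.1⟩
    refine lt_of_le_of_lt (Finset.card_le_card hsub) ?_
    rw [Finset.card_erase_of_mem (by simp [hx, hx1]), Finset.card_erase_of_mem (by simp),
      ← Fintype.card_subtype, ← Nat.card_eq_fintype_card]
    change Nat.card (diffs s.h2 σ) - 1 - 1 < 7
    rw [s.card_diffs]
    norm_num
  change Nat.card (Subtype p) ≡ 0 [MOD 7] at h
  rw [Nat.ModEq] at h
  omega

end Seven

section Action

variable [Finite V] {G : Type*} [Group G] [Finite G] {π : G →* SL32}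

/-- A group of order sixteen with a nontrivial action has a fixed point or an invariant complement. -/
theorem split16 (hπ : Function.Surjective π) {ψ : G →* MulAut V} (hker : π.ker ≤ ψ.ker) {d : G}
    (hd : π d = D7) {z : V} (s : Seven V (ψ d) z) :
    (∀ g, ψ g z = z) ∨ ∀ g, ∀ v ∈ diffs s.h2 (ψ d), ψ g v ∈ diffs s.h2 (ψ d) := by
  classical
  haveI := Fintype.ofFinite V
  haveI : Fact (Nat.Prime 7) := ⟨by norm_num⟩
  set H0 := diffs s.h2 (ψ d) with hH0
  by_contra hcon
  rw [not_or] at hcon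
  obtain ⟨hz, hH⟩ := hcon
  simp only [not_forall] at hH hz
  obtain ⟨g1, hg1⟩ := hz
  let O : Set V := Set.range fun g => ψ g z
  have hO : ∀ g v, v ∈ O → ψ g v ∈ O := by
    rintro g _ ⟨h, rfl⟩
    exact ⟨g * h, by simp⟩
  have hzO : z ∈ O := ⟨1, by simp⟩
  have hOσ : ∀ v, ψ d v ∈ O ↔ v ∈ O := fun v => ⟨fun h => by simpa using hO d⁻¹ _ h, hO d v⟩
  have hO1 : ∀ v ∈ O, v ≠ 1 := by
    rintro _ ⟨g, rfl⟩
    exact (MulEquiv.map_ne_one_iff _).2 s.ne_one
  have hperm : (MulEquiv.toEquiv (ψ d) : Equiv.Perm V) ^ 7 = 1 := by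
    have := congrArg (MulAut.toPerm V) s.h7
    rwa [map_pow, map_one] at this
  -- the orbit
  letI : MulAction G V := MulAction.compHom V ((MulAut.toPerm V).comp ψ)
  have horb : MulAction.orbit G z = O := rfl
  let S := MulAction.stabilizer G z
  have hQS : π.ker ≤ S := fun q hq => by
    show ψ q z = z
    rw [MonoidHom.mem_ker.1 (hker hq)]; rfl
  have hdvd : Nat.card O ∣ 168 := by
    have h1 : (S.map π).index = Nat.card O := by
      rw [S.index_map_eq hπ hQS, MulAction.index_stabilizer, horb, ← Nat.card_coe_set_eq]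
    rw [← card_sl32, ← (S.map π).index_mul_card, h1]
    exact dvd_mul_right _ _
  have hOcard : Nat.card O = 8 := by
    have hne : Nat.card O ≠ 1 := by
      intro h
      obtain ⟨⟨w, hw⟩, hw'⟩ := Nat.card_eq_one_iff_exists.1 h
      have h1 := congrArg Subtype.val (hw' ⟨ψ g1 z, g1, rfl⟩)
      have h2 := congrArg Subtype.val (hw' ⟨z, hzO⟩)
      exact hg1 (h1.trans h2.symm)
    have hmod := modEq_one_on _ 7 hperm (fun v => v ∈ O) hOσ (a₀ := z) hzO
      ((s.fix z).2 (Or.inr rfl)) (fun v hvO hv => ((s.fix v).1 hv).resolve_left (hO1 v hvO))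
    have hle : Nat.card O ≤ 15 := by
      have h1 : O ⊆ {v | v ≠ 1} := hO1
      have h2 := Set.ncard_le_ncard h1 (Set.toFinite _)
      rw [← Nat.card_coe_set_eq] at h2
      have h3 : ({v | v ≠ 1} : Set V).ncard = 15 := by
        have : ({v | v ≠ 1} : Set V) = {1}ᶜ := by ext; simp
        rw [this, Set.ncard_compl, Set.ncard_singleton, s.card]
      omega
    have hpos : 0 < Nat.card O := by
      haveI : Nonempty O := ⟨⟨z, hzO⟩⟩
      exact Nat.card_pos
    change Nat.card O ≡ 1 [MOD 7] at hmod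
    rw [Nat.ModEq] at hmod
    have h3 : Nat.card O = 8 ∨ Nat.card O = 15 := by omega
    rcases h3 with h | h
    · exact h
    · rw [h] at hdvd; omega
  -- the seven other points
  have hiffH : ∀ v, v ∈ H0 → ψ d v ∈ H0 := fun v hv => diffs_apply hv
  by_cases hex : ∃ x ∈ O, x ∈ H0
  · obtain ⟨x, hxO, hxH⟩ := hex
    have hsub : ∀ y ∈ H0, y ≠ 1 → y ∈ O := s.const_diffs (fun v => v ∈ O) hOσ hxH (hO1 x hxO) hxO
    have hOeq : ∀ v ∈ O, v ≠ z → v ∈ H0 := by
      intro v hv hvz
      by_contra hvH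
      haveI := Fintype.ofFinite V
      let T : Finset V := insert v (insert z ((Finset.univ.filter fun y => y ∈ H0).erase 1))
      have hT : (T : Set V) ⊆ O := by
        intro y hy
        simp only [T, Finset.coe_insert, Set.mem_insert_iff, Finset.mem_coe, Finset.mem_erase, Finset.mem_filter,
          Finset.mem_univ, true_and] at hy
        rcases hy with rfl | rfl | ⟨h1, h2⟩
        exacts [hv, hzO, hsub y h2 h1]
      have h1 := Set.ncard_le_ncard hT (Set.toFinite _)
      rw [Set.ncard_coe_finset, ← Nat.card_coe_set_eq, hOcard] at h1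
      simp only [T] at h1
      have hzn : z ∉ H0 := s.z_notMem
      rw [Finset.card_insert_of_notMem (by simp [hvH, hvz]), Finset.card_insert_of_notMem (by simp [hzn]),
        Finset.card_erase_of_mem (by simp [one_mem H0]), ← Fintype.card_subtype, ← Nat.card_eq_fintype_card] at h1
      change Nat.card H0 - 1 + 1 + 1 ≤ 8 at h1
      rw [hH0, s.card_diffs] at h1
      omega
    have hne1 : ψ g1 z ≠ z := hg1
    have hh1 : ψ g1 z ∈ H0 := hOeq _ ⟨g1, rfl⟩ hne1
    obtain ⟨y, hy, hy1, hyne⟩ : ∃ y ∈ H0, y ≠ 1 ∧ y ≠ ψ g1 z := by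
      by_contra hall
      simp only [not_exists, not_and, not_not] at hall
      have hle : Nat.card H0 ≤ 2 := by
        rw [Nat.card_eq_fintype_card, Fintype.card_subtype]
        refine (Finset.card_le_card (t := {1, ψ g1 z}) fun y hy => ?_).trans Finset.card_le_two
        rw [Finset.mem_filter] at hy
        by_cases h1 : y = 1
        · simp [h1]
        · simp [hall y hy.2 h1]
      rw [hH0, s.card_diffs] at hle
      omega
    have hy' : y * ψ g1 z ∈ H0 := mul_mem hy hh1
    have hy'1 : y * ψ g1 z ≠ 1 := fun h => hyne (by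
      rw [eq_inv_of_mul_eq_one_left h, inv_eq_of_mul_eq_one_right (s.h2 _)])
    have e : ψ g1⁻¹ y * ψ g1⁻¹ (y * ψ g1 z) = z := by
      rw [← _root_.map_mul, ← mul_assoc, s.h2, one_mul]
      simp
    have m1 : ψ g1⁻¹ y ∈ H0 := by
      refine hOeq _ (hO _ _ (hsub y hy hy1)) fun h => hyne ?_
      rw [← h]
      simp
    have m2 : ψ g1⁻¹ (y * ψ g1 z) ∈ H0 := by
      refine hOeq _ (hO _ _ (hsub _ hy' hy'1)) fun h => hy1 ?_
      have h' : y * ψ g1 z = ψ g1 z := by
        conv_rhs => rw [← h]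
        simp
      exact mul_eq_right.1 h'
    have hm := mul_mem m1 m2
    rw [e] at hm
    exact s.z_notMem hm
  · simp only [not_exists, not_and] at hex
    -- the products of pairs lie in the complement
    let D := Subgroup.closure {w | ∃ a ∈ O, ∃ b ∈ O, w = a * b}
    have hDle : D ≤ H0 := by
      rw [Subgroup.closure_le]
      rintro _ ⟨a, ha, b, hb, rfl⟩
      exact (Subgroup.mul_mem_iff_of_index_two s.index_diffs).2 (iff_of_false (hex a ha) (hex b hb))
    have hDG : ∀ g, ∀ w ∈ D, ψ g w ∈ D := by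
      intro g
      suffices D ≤ D.comap (ψ g).toMonoidHom from fun w hw => this hw
      rw [Subgroup.closure_le]
      rintro _ ⟨a, ha, b, hb, rfl⟩
      refine Subgroup.subset_closure ⟨_, hO g a ha, _, hO g b hb, ?_⟩
      simp
    have hxD : z * ψ g1 z ∈ D := Subgroup.subset_closure ⟨z, hzO, _, ⟨g1, rfl⟩, rfl⟩
    have hx1 : z * ψ g1 z ≠ 1 := fun h => hg1 (by
      rw [eq_inv_of_mul_eq_one_right h, inv_eq_of_mul_eq_one_right (s.h2 z)])
    have hall := s.const_diffs (fun v => v ∈ D)
      (fun v => ⟨fun h => by simpa using hDG d⁻¹ _ h, hDG d v⟩) (hDle hxD) hx1 hxD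
    obtain ⟨g, v, hv, hgv⟩ := hH
    apply hgv
    by_cases hv1 : v = 1
    · rw [hv1, map_one]; exact one_mem _
    · exact hDle (hDG g v (hall v hv hv1))

/-- If a fixed point has no invariant complement then every involution moves some element by it. -/
theorem complement16 (hπ : Function.Surjective π) {ψ : G →* MulAut V} (hker : π.ker ≤ ψ.ker) {d : G}
    (hd : π d = D7) {z : V} (s : Seven V (ψ d) z) (hz : ∀ g, ψ g z = z) {t : G} (ht : π t ≠ 1)
    (ht2 : π t * π t = 1) (hno : ∀ v, v * ψ t v ≠ z) :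
    ∀ g, ∀ v ∈ diffs s.h2 (ψ d), ψ g v ∈ diffs s.h2 (ψ d) := by
  classical
  haveI := Fintype.ofFinite V
  set H0 := diffs s.h2 (ψ d) with hH0
  let α := {H : Subgroup V // H.index = 2 ∧ z ∉ H}
  have hmap : ∀ (g : G) (H : α), (H.1.map (ψ g).toMonoidHom).index = 2 ∧ z ∉ H.1.map (ψ g).toMonoidHom := by
    intro g H
    refine ⟨by rw [Subgroup.index_map_of_bijective (f := (ψ g).toMonoidHom) (ψ g).bijective]; exact H.2.1, ?_⟩
    rintro ⟨v, hv, he⟩
    apply H.2.2
    have : v = z := (ψ g).injective (he.trans (hz g).symm)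
    exact this ▸ hv
  let act : G → α → α := fun g H => ⟨H.1.map (ψ g).toMonoidHom, hmap g H⟩
  have hact_mem : ∀ g (H : α) v, v ∈ (act g H).1 ↔ ψ g⁻¹ v ∈ H.1 := by
    intro g H v
    constructor
    · rintro ⟨w, hw, rfl⟩
      simpa using hw
    · intro hv
      exact ⟨_, hv, by simp⟩
  have hact_mul : ∀ g h H, act (g * h) H = act g (act h H) := by
    intro g h H
    refine Subtype.ext (Subgroup.ext fun v => ?_)
    rw [hact_mem, hact_mem, hact_mem, mul_inv_rev, _root_.map_mul, MulAut.mul_apply]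
  have hact_one : ∀ H, act 1 H = H := fun H => Subtype.ext (Subgroup.ext fun v => by
    rw [hact_mem]; simp)
  let φ : G →* Equiv.Perm α :=
    { toFun := fun g => ⟨act g, act g⁻¹, fun H => by rw [← hact_mul, inv_mul_cancel, hact_one],
        fun H => by rw [← hact_mul, mul_inv_cancel, hact_one]⟩
      map_one' := Equiv.ext hact_one
      map_mul' := fun g h => Equiv.ext (hact_mul g h) }
  have hφker : π.ker ≤ φ.ker := fun q hq => by
    refine MonoidHom.mem_ker.2 (Equiv.ext fun H => Subtype.ext (Subgroup.ext fun v => ?_))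
    show v ∈ (act q H).1 ↔ v ∈ H.1
    rw [hact_mem, MonoidHom.mem_ker.1 (hker (inv_mem hq)), MulAut.one_apply]
  -- at most eight complements
  have h8 : Nat.card α ≤ 8 := by
    obtain ⟨e, he⟩ := exists_coord (W := ↥H0) (fun w => Subtype.ext (s.h2 _)) s.card_diffs
    let b : Fin 3 → V := fun i => (e.symm (Pi.single i 1) : ↥H0)
    have hgen : ∀ (K : Subgroup V), z ∈ K → (∀ i, b i ∈ K) → K = ⊤ := by
      intro K hzK hbK
      have hH0K : H0 ≤ K := by
        intro v hv
        have hv' : (⟨v, hv⟩ : ↥H0) = e.symm (e ⟨v, hv⟩) := (e.symm_apply_apply _).symm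
        have hs : ∀ x y, e.symm (x + y) = e.symm x * e.symm y := fun x y => by
          rw [Equiv.symm_apply_eq, he, e.apply_symm_apply, e.apply_symm_apply]
        have hall : ∀ x : Fin 3 → ZMod 2, ((e.symm x : ↥H0) : V) ∈ K := by
          intro x
          rcases (by decide : ∀ z : Fin 3 → ZMod 2, z = 0 + 0 ∨ z = Pi.single 0 1 ∨ z = Pi.single 1 1 ∨
              z = Pi.single 0 1 + Pi.single 1 1 ∨
              z = Pi.single 2 1 ∨ z = Pi.single 0 1 + Pi.single 2 1 ∨ z = Pi.single 1 1 + Pi.single 2 1 ∨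
              z = Pi.single 0 1 + Pi.single 1 1 + Pi.single 2 1) x with
            rfl | rfl | rfl | rfl | rfl | rfl | rfl | rfl
          · rw [hs, Subgroup.coe_mul, s.h2]; exact one_mem K
          · exact hbK 0
          · exact hbK 1
          · rw [hs, Subgroup.coe_mul]; exact mul_mem (hbK 0) (hbK 1)
          · exact hbK 2
          · rw [hs, Subgroup.coe_mul]; exact mul_mem (hbK 0) (hbK 2)
          · rw [hs, Subgroup.coe_mul]; exact mul_mem (hbK 1) (hbK 2)
          · rw [hs, hs, Subgroup.coe_mul, Subgroup.coe_mul]; exact mul_mem (mul_mem (hbK 0) (hbK 1)) (hbK 2)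
        have := hall (e ⟨v, hv⟩)
        rwa [← hv'] at this
      rw [Subgroup.eq_top_iff']
      intro v
      by_cases hv : v ∈ H0
      · exact hH0K hv
      · have h1 : v * z ∈ H0 :=
          (Subgroup.mul_mem_iff_of_index_two s.index_diffs).2 (iff_of_false hv s.z_notMem)
        have := K.mul_mem (hH0K h1) hzK
        rwa [mul_assoc, s.h2, mul_one] at this
    have hinj : Function.Injective (fun (H : α) (i : Fin 3) => decide (b i ∈ H.1)) := by
      intro H H' h
      let K : Subgroup V :=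
        { carrier := {v | v ∈ H.1 ↔ v ∈ H'.1}
          one_mem' := iff_of_true (one_mem _) (one_mem _)
          mul_mem' := fun {x y} (hx : x ∈ H.1 ↔ x ∈ H'.1) (hy : y ∈ H.1 ↔ y ∈ H'.1) => by
            show x * y ∈ H.1 ↔ x * y ∈ H'.1
            rw [Subgroup.mul_mem_iff_of_index_two H.2.1, Subgroup.mul_mem_iff_of_index_two H'.2.1, hx, hy]
          inv_mem' := fun {x} hx => by simpa using hx }
      have hK := hgen K (iff_of_false H.2.2 H'.2.2) (fun i => decide_eq_decide.1 (congrFun h i))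
      exact Subtype.ext (Subgroup.ext fun v => (hK ▸ Subgroup.mem_top v : v ∈ K))
    have := Nat.card_le_card_of_injective _ hinj
    simpa using this
  -- the fixed complement of the element of order seven
  let x₀ : α := ⟨H0, s.index_diffs, s.z_notMem⟩
  have huniq : ∀ H : α, φ d H = H ↔ H = x₀ := by
    intro H
    constructor
    · intro hH
      have hinv : ∀ v ∈ H.1, ψ d v ∈ H.1 := fun v hv => by
        have : ψ d v ∈ (act d H).1 := ⟨v, hv, rfl⟩
        exact (show act d H = H from hH) ▸ this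
      have hle : H0 ≤ H.1 := by
        rintro _ ⟨v, rfl⟩
        show v * ψ d v ∈ H.1
        by_cases hv : v ∈ H.1
        · exact mul_mem hv (hinv v hv)
        · have h1 : v * z ∈ H.1 := (Subgroup.mul_mem_iff_of_index_two H.2.1).2 (iff_of_false hv H.2.2)
          have h2 := hinv _ h1
          rw [_root_.map_mul, hz] at h2
          have h3 : v * ψ d v = (v * z) * (ψ d v * z) := by
            rw [comm_of_exp_two s.h2 (ψ d v) z, mul_assoc, ← mul_assoc z, s.h2, one_mul]
          rw [h3]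
          exact mul_mem h1 h2
      refine Subtype.ext (Subgroup.eq_of_le_of_card_ge hle ?_).symm
      have := H.1.card_mul_index
      rw [H.2.1, s.card] at this
      rw [hH0, s.card_diffs]
      omega
    · rintro rfl
      refine Subtype.ext (Subgroup.eq_of_le_of_card_ge ?_ ?_)
      · rintro _ ⟨v, hv, rfl⟩
        exact (diffs_apply (h2 := s.h2) hv : ψ d v ∈ diffs s.h2 (ψ d))
      · rw [show (φ d x₀).1 = H0.map (ψ d).toMonoidHom from rfl]
        exact (Subgroup.card_map_of_injective (ψ d).injective).ge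
  -- a complement fixed by the involution
  obtain ⟨H, hKH, hH2, hzH⟩ := CfsgLib.QuadMap.exists_index_two_not_mem (K := diffs s.h2 (ψ t)) (x := z)
    (fun g => by rw [s.h2]; exact one_mem _) (by rintro ⟨v, hv⟩; exact hno v hv)
  have hy : φ t ⟨H, hH2, hzH⟩ = ⟨H, hH2, hzH⟩ := by
    refine Subtype.ext (Subgroup.eq_of_le_of_card_ge ?_ ?_)
    · rintro _ ⟨v, hv, rfl⟩
      have h1 : v * ψ t v ∈ H := hKH ⟨v, rfl⟩
      have h2 := H.mul_mem (H.inv_mem hv) h1
      rwa [inv_mul_cancel_left] at h2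
    · exact (Subgroup.card_map_of_injective (ψ t).injective).ge
  have hfix := eight hπ φ hφker h8 hd huniq ht ht2 hy
  intro g v hv
  have h1 : ψ g v ∈ (φ g x₀).1 := ⟨v, hv, rfl⟩
  rwa [hfix g] at h1

end Action

end CfsgLib.SmallRadical
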