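import Cfsg.Agent.SmallRadical.Stage
import Cfsg.Agent.SmallRadical.Split

/-! Sections on which squaring is an isomorphism of natural modules. -/

set_option autoImplicit false

namespace CfsgLib.SmallRadical

variable {G : Type*} [Group G] [Finite G] {π : G →* SL32}

theorem conjNormal_ker {W : Subgroup G} [W.Normal] (h : ∀ w ∈ W, ∀ q ∈ π.ker, w * q = q * w) :
    π.ker ≤ (MulAut.conjNormal : G →* MulAut ↥W).ker := by
  intro q hq
  rw [MonoidHom.mem_ker]
  refine MulEquiv.ext fun w => Subtype.ext ?_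
  rw [MulAut.conjNormal_apply, MulAut.one_apply, ← h w w.2 q hq, mul_inv_cancel_right]

theorem secAut_ker_of_comm {P F : Subgroup G} [P.Normal] [F.Normal]
    (h : ∀ q ∈ π.ker, ∀ a ∈ P, a⁻¹ * (q * a * q⁻¹) ∈ F) : π.ker ≤ (secAut P F).ker := by
  intro q hq
  rw [MonoidHom.mem_ker]
  refine MulEquiv.ext fun v => ?_
  obtain ⟨a, rfl⟩ := QuotientGroup.mk_surjective v
  rw [secAut_mk, MulAut.one_apply, eq_comm, mk_eq_mk_iff, MulAut.conjNormal_apply]
  exact h q hq a a.2

theorem conjNormal_ne_one {W : Subgroup G} [W.Normal] (h : ∃ g : G, ∃ w ∈ W, g * w ≠ w * g) :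
    (MulAut.conjNormal : G →* MulAut ↥W) ≠ 1 := by
  obtain ⟨g, w, hw, hgw⟩ := h
  intro e
  apply hgw
  have h1 := congrArg (fun ψ : G →* MulAut ↥W => ((ψ g ⟨w, hw⟩ : ↥W) : G)) e
  simp only [MulAut.conjNormal_apply, MonoidHom.one_apply, MulAut.one_apply] at h1
  exact mul_inv_eq_iff_eq_mul.1 h1

theorem card_quot_sub {P F : Subgroup G} (h : F ≤ P) :
    Nat.card (↥P ⧸ F.subgroupOf P) * Nat.card F = Nat.card P := by
  rw [← Nat.card_congr (Subgroup.subgroupOfEquivOfLe h).toEquiv, mul_comm]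
  exact (F.subgroupOf P).card_mul_index

theorem quot_sq {P F : Subgroup G} [F.Normal] (h : ∀ a ∈ P, a * a ∈ F) (v : ↥P ⧸ F.subgroupOf P) :
    v * v = 1 := by
  obtain ⟨a, rfl⟩ := QuotientGroup.mk_surjective v
  rw [← QuotientGroup.mk_mul, QuotientGroup.eq_one_iff]
  exact h a a.2

theorem secAut_ne_one' {P F : Subgroup G} [P.Normal] [F.Normal]
    (h : ∃ g : G, ∃ a ∈ P, a⁻¹ * (g * a * g⁻¹) ∉ F) : secAut P F ≠ 1 := by
  obtain ⟨g, a, ha, hga⟩ := h
  intro e
  apply hga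
  have h1 : secAut P F g ((⟨a, ha⟩ : ↥P) : ↥P ⧸ F.subgroupOf P) = ((⟨a, ha⟩ : ↥P) : ↥P ⧸ F.subgroupOf P) := by
    rw [e]; rfl
  rw [secAut_mk, eq_comm, mk_eq_mk_iff, MulAut.conjNormal_apply] at h1
  exact h1

/-- If the squares of `P` lie in a natural module `W` then `P` is abelian and squaring is onto `W`,
with kernel `F`. -/
theorem square_linear (hπ : Function.Surjective π) (hR : RankFour G) {P F W : Subgroup G} [P.Normal]
    [F.Normal] [W.Normal] (hFP : F ≤ P) (hPQ : P ≤ π.ker) (hWF : W ≤ F)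
    (hexp : ∀ f ∈ F, f * f = 1) (hcent : ∀ f ∈ F, ∀ a ∈ P, f * a = a * f)
    (hWQ : ∀ w ∈ W, ∀ q ∈ π.ker, w * q = q * w)
    (hcomm : ∀ q ∈ π.ker, ∀ a ∈ P, a⁻¹ * (q * a * q⁻¹) ∈ F)
    (hcP : Nat.card P = 8 * Nat.card F) (hcW : Nat.card W = 8) (hsq : ∀ a ∈ P, a * a ∈ W)
    (hactP : ∃ g : G, ∃ a ∈ P, a⁻¹ * (g * a * g⁻¹) ∉ F) (hactW : ∃ g : G, ∃ w ∈ W, g * w ≠ w * g) :
    (∀ a ∈ P, ∀ b ∈ P, a * b = b * a) ∧ (∀ a ∈ P, a * a = 1 → a ∈ F) ∧
      ∀ w ∈ W, ∃ a ∈ P, a * a = w := by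
  classical
  haveI : Fact (Nat.Prime 7) := ⟨by norm_num⟩
  obtain ⟨d, hd⟩ := hπ D7
  let V := ↥P ⧸ F.subgroupOf P
  let ψ := secAut P F
  let χ : G →* MulAut ↥W := MulAut.conjNormal
  have hψk : π.ker ≤ ψ.ker := secAut_ker_of_comm hcomm
  have hχk : π.ker ≤ χ.ker := conjNormal_ker hWQ
  have hψne : ψ ≠ 1 := secAut_ne_one' hactP
  have hχne : χ ≠ 1 := conjNormal_ne_one hactW
  have hV2 : ∀ v : V, v * v = 1 := quot_sq fun a ha => hWF (hsq a ha)
  have hW2 : ∀ w : ↥W, w * w = 1 := fun w => Subtype.ext (hexp w (hWF w.2))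
  have hV8 : Nat.card V = 8 := by
    have := card_quot_sub hFP
    rw [hcP] at this
    exact Nat.eq_of_mul_eq_mul_right Nat.card_pos this
  have h7 : ∀ {M : Type _} [Group M] (φ : G →* M), π.ker ≤ φ.ker → φ d ^ 7 = 1 := by
    intro M _ φ hφ
    rw [← map_pow]
    exact hφ (by rw [MonoidHom.mem_ker, map_pow, hd, D7_pow])
  have hσ7 : ψ d ^ 7 = 1 := h7 ψ hψk
  have hτ7 : χ d ^ 7 = 1 := h7 χ hχk
  have hσne : ψ d ≠ 1 := fun h => hψne (hom_eq_one₃ hπ ψ hψk hd h)
  have hτne : χ d ≠ 1 := fun h => hχne (hom_eq_one₃ hπ χ hχk hd h)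
  have hσfix : ∀ v, ψ d v = v → v = 1 := by
    rcases seven_fixed hV2 (by rw [hV8]; norm_num) hσ7 hσne with ⟨-, h⟩ | ⟨h, -⟩
    · intro v hv
      exact Subgroup.mem_bot.1 ((Subgroup.card_eq_one.1 h) ▸ mem_fixed.2 hv)
    · rw [hV8] at h; omega
  have hτfix : ∀ w, χ d w = w → w = 1 := by
    rcases seven_fixed hW2 (by rw [hcW]; norm_num) hτ7 hτne with ⟨-, h⟩ | ⟨h, -⟩
    · intro v hv
      exact Subgroup.mem_bot.1 ((Subgroup.card_eq_one.1 h) ▸ mem_fixed.2 hv)
    · rw [hcW] at h; omega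
  have hσperm : (MulEquiv.toEquiv (ψ d) : Equiv.Perm V) ^ 7 = 1 := by
    have := congrArg (MulAut.toPerm V) hσ7
    rwa [map_pow, map_one] at this
  have hτperm : (MulEquiv.toEquiv (χ d) : Equiv.Perm ↥W) ^ 7 = 1 := by
    have := congrArg (MulAut.toPerm ↥W) hτ7
    rwa [map_pow, map_one] at this
  -- the squaring map
  have hwd : ∀ a b : ↥P, (a : G)⁻¹ * b ∈ F → (a : G) * a = (b : G) * b := by
    intro a b hab
    generalize hf : (a : G)⁻¹ * b = f at hab
    have hb : (b : G) = a * f := by rw [← hf]; group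
    rw [hb, mul_assoc, ← mul_assoc f, hcent f hab a a.2, mul_assoc (a : G) f f, hexp f hab, mul_one]
  obtain ⟨q, hq⟩ : ∃ q : V → ↥W, ∀ a : ↥P, ((q a : ↥W) : G) = (a : G) * a := by
    refine ⟨fun v => ⟨((v.out : ↥P) : G) * (v.out : ↥P), hsq _ v.out.2⟩, fun a => hwd _ _ ?_⟩
    rw [← mk_eq_mk_iff]
    exact QuotientGroup.out_eq' _
  have hqeq : ∀ g v, q (ψ g v) = χ g (q v) := by
    intro g v
    obtain ⟨a, rfl⟩ := QuotientGroup.mk_surjective v
    apply Subtype.ext
    rw [secAut_mk, hq, MulAut.conjNormal_apply, MulAut.conjNormal_apply, hq]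
    group
  have hq1 : q 1 = 1 := by
    apply Subtype.ext
    rw [← QuotientGroup.mk_one, hq]
    simp
  -- `q` is onto
  have hsurj : Function.Surjective q := by
    have hrange : ∀ w, χ d w ∈ Set.range q ↔ w ∈ Set.range q := by
      intro w
      constructor
      · rintro ⟨v, hv⟩
        refine ⟨ψ d⁻¹ v, ?_⟩
        rw [hqeq, hv, map_inv]
        exact (χ d).symm_apply_apply w
      · rintro ⟨v, rfl⟩
        exact ⟨ψ d v, hqeq d v⟩
    have hmod := modEq_one_of_invariant _ 7 hτperm (fun w => w ∈ Set.range q) hrange (a₀ := 1) ⟨1, hq1⟩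
      (map_one (χ d)) hτfix
    have hne : Nat.card {w : ↥W // w ∈ Set.range q} ≠ 1 := by
      intro h
      have hall : ∀ v, q v = 1 := by
        intro v
        obtain ⟨u, hu⟩ := Nat.card_eq_one_iff_exists.1 h
        exact congrArg Subtype.val ((hu ⟨q v, v, rfl⟩).trans (hu ⟨1, 1, hq1⟩).symm)
      have hP2 : ∀ a ∈ P, a * a = 1 := fun a ha => by
        have := congrArg Subtype.val (hall ((⟨a, ha⟩ : ↥P) : V))
        rw [hq] at this
        exact this
      have h1 := hR P ⊥ bot_le (fun x _ n hn => by rw [Subgroup.mem_bot.1 hn]; simp)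
        (fun a ha => Subgroup.mem_bot.2 (hP2 a ha))
      rw [hcP, Subgroup.card_bot] at h1
      have h2 := Subgroup.card_le_of_le hWF
      rw [hcW] at h2
      omega
    have hle : Nat.card {w : ↥W // w ∈ Set.range q} ≤ 8 := (Finite.card_subtype_le _).trans hcW.le
    have hpos : 0 < Nat.card {w : ↥W // w ∈ Set.range q} := by
      haveI : Nonempty {w : ↥W // w ∈ Set.range q} := ⟨⟨1, 1, hq1⟩⟩
      exact Nat.card_pos
    rw [Nat.ModEq] at hmod
    have h8 : Nat.card {w : ↥W // w ∈ Set.range q} = 8 := by omega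
    rw [← Set.range_eq_univ]
    refine Set.eq_of_subset_of_ncard_le (Set.subset_univ _) ?_ Set.finite_univ
    rw [Set.ncard_univ, hcW, ← Nat.card_coe_set_eq]
    exact h8.ge
  have hbij : Function.Bijective q := by
    haveI := Fintype.ofFinite V
    haveI := Fintype.ofFinite ↥W
    rw [Fintype.bijective_iff_surjective_and_card]
    exact ⟨hsurj, by rw [← Nat.card_eq_fintype_card, ← Nat.card_eq_fintype_card, hV8, hcW]⟩
  -- linearity
  obtain ⟨e, π', he, hπ'surj, -, hπ'⟩ := exists_proj hπ hV2 hV8 ψ hψk hψne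
  have he1 : e 1 = 0 := by
    have := he 1 1
    rw [mul_one] at this
    exact left_eq_add.1 this
  have hlin : ∀ u v, q (u * v) = q u * q v := by
    intro u v
    by_cases hu : u = 1
    · rw [hu, one_mul, hq1, one_mul]
    by_cases hv : v = 1
    · rw [hv, mul_one, hq1, mul_one]
    by_cases huv : u = v
    · rw [huv, hV2, hW2, hq1]
    obtain ⟨g', hg'⟩ := exists_fix_span (e u) (e v) (fun h => hu (e.injective (h.trans he1.symm)))
      (fun h => hv (e.injective (h.trans he1.symm))) (fun h => huv (e.injective h))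
    obtain ⟨g, rfl⟩ := hπ'surj g'
    have hfix : ∀ x, ψ g x = x ↔ x = 1 ∨ x = u ∨ x = v ∨ x = u * v := by
      intro x
      rw [← e.injective.eq_iff, hπ', hg', ← he1, ← he, e.injective.eq_iff, e.injective.eq_iff,
        e.injective.eq_iff, e.injective.eq_iff]
    obtain ⟨x, hx⟩ := hbij.2 (q u * q v)
    have hxfix : ψ g x = x := hbij.1 (by
      rw [hqeq, hx, _root_.map_mul, ← hqeq, ← hqeq, (hfix u).2 (Or.inr (Or.inl rfl)),
        (hfix v).2 (Or.inr (Or.inr (Or.inl rfl)))])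
    rcases (hfix x).1 hxfix with rfl | rfl | rfl | rfl
    · exfalso
      rw [hq1] at hx
      apply huv
      apply hbij.1
      rw [eq_inv_of_mul_eq_one_left hx.symm, inv_eq_of_mul_eq_one_right (hW2 _)]
    · exfalso
      exact hv (hbij.1 ((mul_eq_left.1 hx.symm).trans hq1.symm))
    · exfalso
      exact hu (hbij.1 ((mul_eq_right.1 hx.symm).trans hq1.symm))
    · exact hx
  refine ⟨fun a ha b hb => ?_, fun a ha ha2 => ?_, fun w hw => ?_⟩
  · have h := congrArg Subtype.val (hlin ((⟨a, ha⟩ : ↥P) : V) ((⟨b, hb⟩ : ↥P) : V))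
    rw [← QuotientGroup.mk_mul] at h
    simp only [Subgroup.coe_mul, hq] at h
    have h1 : a * (b * a) * b = a * (a * b) * b := by
      simp only [mul_assoc] at h ⊢
      exact h
    exact (mul_left_cancel (mul_right_cancel h1)).symm
  · have h : q ((⟨a, ha⟩ : ↥P) : V) = q 1 := by
      rw [hq1]
      apply Subtype.ext
      rw [hq]
      exact ha2
    have h1 := hbij.1 h
    rw [QuotientGroup.eq_one_iff, Subgroup.mem_subgroupOf] at h1
    exact h1
  · obtain ⟨v, hv⟩ := hbij.2 ⟨w, hw⟩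
    obtain ⟨a, rfl⟩ := QuotientGroup.mk_surjective v
    exact ⟨a, a.2, by rw [← hq, hv]⟩

/-- Coordinates on a homocyclic section. -/
theorem exists_coordM (hπ : Function.Surjective π) {M W : Subgroup G} [M.Normal] [W.Normal]
    (hWM : W ≤ M) (hab : ∀ a ∈ M, ∀ b ∈ M, a * b = b * a) (hcM : Nat.card M = 64) (hcW : Nat.card W = 8)
    (hexp : ∀ w ∈ W, w * w = 1) (hsq : ∀ a ∈ M, a * a ∈ W) (hker : ∀ a ∈ M, a * a = 1 → a ∈ W)
    (hcomm : ∀ q ∈ π.ker, ∀ a ∈ M, a⁻¹ * (q * a * q⁻¹) ∈ W)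
    (hact : ∃ g : G, ∃ a ∈ M, a⁻¹ * (g * a * g⁻¹) ∉ W) :
    ∃ π' : G →* SL32, Function.Surjective π' ∧ π'.ker = π.ker ∧ Nonempty (Coord π' M) := by
  classical
  let V := ↥M ⧸ W.subgroupOf M
  have hV8 : Nat.card V = 8 := by
    have := card_quot_sub hWM
    rw [hcM, hcW] at this
    change Nat.card (↥M ⧸ W.subgroupOf M) = 8
    omega
  obtain ⟨e, π', he, hπ's, hπ'k, hπ'⟩ := exists_proj hπ (quot_sq hsq) hV8 (secAut M W)
    (secAut_ker_of_comm hcomm) (secAut_ne_one' hact)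
  have hpre : ∀ x : Fin 3 → ZMod 2, ∃ a : ↥M, e a = x := fun x => by
    obtain ⟨a, ha⟩ := QuotientGroup.mk_surjective (e.symm x)
    exact ⟨a, by rw [ha, e.apply_symm_apply]⟩
  choose lf hlf using hpre
  set a0 := lf (red (1, 0, 0))
  set a1 := lf (red (0, 1, 0))
  set a2 := lf (red (0, 0, 1))
  have hp : ∀ (a : ↥M) (i j : ZMod 4), a ^ (i + j).val = a ^ i.val * a ^ j.val := by
    intro a i j
    rw [← pow_add, pow_eq_pow_iff_modEq]
    have h4 : a ^ 4 = 1 := by
      apply Subtype.ext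
      rw [show 4 = 2 * 2 from rfl, pow_mul, Subgroup.coe_pow, Subgroup.coe_pow, pow_two, pow_two,
        hexp _ (hsq a a.2)]
      rfl
    refine Nat.ModEq.of_dvd (orderOf_dvd_of_pow_eq_one h4) ?_
    rw [ZMod.val_add]
    exact Nat.mod_modEq _ _
  let Φ : V4 → ↥M := fun v => a0 ^ v.1.val * a1 ^ v.2.1.val * a2 ^ v.2.2.val
  have hadd : ∀ u v, Φ (u + v) = Φ u * Φ v := by
    intro u v
    simp only [Φ, Prod.fst_add, Prod.snd_add, hp]
    generalize a0 ^ u.1.val = x1
    generalize a0 ^ v.1.val = x2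
    generalize a1 ^ u.2.1.val = y1
    generalize a1 ^ v.2.1.val = y2
    generalize a2 ^ u.2.2.val = z1
    generalize a2 ^ v.2.2.val = z2
    letI : CommGroup ↥M := { (inferInstance : Group ↥M) with
      mul_comm := fun a b => Subtype.ext (hab a a.2 b b.2) }
    simp only [mul_comm, mul_assoc, mul_left_comm]
  let eh : ↥M → (Fin 3 → ZMod 2) := fun a => e (a : V)
  have ehmul : ∀ a b, eh (a * b) = eh a + eh b := fun a b => by
    show e _ = _
    rw [QuotientGroup.mk_mul, he]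
  have eh1 : eh 1 = 0 := by
    have := ehmul 1 1
    rw [mul_one] at this
    exact left_eq_add.1 this
  have ehpow : ∀ (a : ↥M) (n : ℕ), eh (a ^ n) = n • eh a := by
    intro a n
    induction n with
    | zero => rw [pow_zero, zero_smul, eh1]
    | succ n ih => rw [pow_succ, ehmul, ih, succ_nsmul]
  have hred : ∀ v, eh (Φ v) = red v := by
    intro v
    simp only [Φ, ehmul, ehpow]
    rw [show eh a0 = red (1, 0, 0) from hlf _, show eh a1 = red (0, 1, 0) from hlf _,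
      show eh a2 = red (0, 0, 1) from hlf _]
    exact (by decide +kernel : ∀ v : V4, v.1.val • red (1, 0, 0) + v.2.1.val • red (0, 1, 0) +
      v.2.2.val • red (0, 0, 1) = red v) v
  have heh0 : ∀ a : ↥M, eh a = 0 ↔ (a : G) ∈ W := by
    intro a
    rw [← eh1]
    show e _ = e _ ↔ _
    rw [e.injective.eq_iff, QuotientGroup.mk_one, QuotientGroup.eq_one_iff, Subgroup.mem_subgroupOf]
  have hΦ0 : ∀ v, Φ v = 1 → v = 0 := by
    intro v hv
    have h1 : red v = red 0 := by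
      rw [← hred, hv, eh1]
      decide
    obtain ⟨u, rfl⟩ := (by decide +kernel : ∀ w : V4, 2 • w = 0 → ∃ u, w = 2 • u) v
      (by simpa using (red_eq_iff 0 v).1 h1)
    rw [two_nsmul, hadd] at hv
    have h2 : (Φ u : G) ∈ W := hker _ (Φ u).2 (congrArg Subtype.val hv)
    rw [← heh0, hred] at h2
    exact (by decide +kernel : ∀ u : V4, red u = 0 → 2 • u = 0) u h2
  have hΦinj : Function.Injective Φ := by
    intro u v h
    have h0 : Φ (u - v) * Φ v = Φ u := by rw [← hadd, sub_add_cancel]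
    rw [← h, mul_eq_right] at h0
    exact sub_eq_zero.1 (hΦ0 _ h0)
  have hΦsurj : Function.Surjective Φ := by
    haveI := Fintype.ofFinite ↥M
    refine ((Fintype.bijective_iff_injective_and_card Φ).2 ⟨hΦinj, ?_⟩).2
    rw [← Nat.card_eq_fintype_card (α := ↥M), hcM]
    rfl
  refine ⟨π', hπ's, hπ'k, ⟨
    { φ := fun v => (Φ v : G)
      mem := fun v => (Φ v).2
      surj := fun m hm => by
        obtain ⟨v, hv⟩ := hΦsurj ⟨m, hm⟩
        exact ⟨v, congrArg Subtype.val hv⟩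
      inj := fun u v h => hΦinj (Subtype.ext h)
      map_add := fun u v => congrArg Subtype.val (hadd u v)
      conj := fun g v w h => ?_
      normal := inferInstance }⟩⟩
  rw [← hred v, ← hred w]
  show _ = e _
  rw [← hπ', secAut_mk]
  congr 2
  exact Subtype.ext (by rw [MulAut.conjNormal_apply]; exact h)

/-- Lifts in the derived subgroup. -/
theorem exists_commutator_lift {π : G →* SL32} (hπ : Function.Surjective π) (a : SL32) :
    ∃ g ∈ commutator G, π g = a := by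
  haveI := sl32_simple
  have hn : ((commutator G).map π).Normal := (inferInstance : (commutator G).Normal).map π hπ
  rcases hn.eq_bot_or_eq_top with hb | ht
  · exfalso
    obtain ⟨x, hx⟩ := hπ R0
    obtain ⟨y, hy⟩ := hπ D7
    have h : x * y * x⁻¹ * y⁻¹ ∈ commutator G := by
      rw [commutator_def]
      exact Subgroup.commutator_mem_commutator (Subgroup.mem_top x) (Subgroup.mem_top y)
    have := Subgroup.mem_bot.1 (hb ▸ ⟨_, h, rfl⟩ : π (x * y * x⁻¹ * y⁻¹) ∈ (⊥ : Subgroup SL32))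
    rw [map_mul, map_mul, map_mul, map_inv, map_inv, hx, hy] at this
    exact absurd this (by decide +kernel)
  · obtain ⟨g, hg, rfl⟩ := (ht ▸ Subgroup.mem_top a : a ∈ (commutator G).map π)
    exact ⟨g, hg, rfl⟩

/-- When the homocyclic section is the whole kernel. -/
theorem Coord.false_of_top {M : Subgroup G} (C : Coord π M) (hR : RankFour G) (hπ : Function.Surjective π)
    (hM : π.ker ≤ M) : False := by
  obtain ⟨r, hrc, hr⟩ := exists_commutator_lift hπ R0
  refine C.false_of_lifts hR hπ hr hrc (hM ?_) fun y₁ y₂ h1 h2 _ _ => hM ?_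
  · rw [MonoidHom.mem_ker, map_mul, map_mul, hr]; decide +kernel
  · rw [MonoidHom.mem_ker, map_mul, map_mul, h1, h2]; decide +kernel

/-- The linear map on `F₂³` with given images of the basis. -/
def lin (a b c x : Fin 3 → ZMod 2) : Fin 3 → ZMod 2 := fun i => x 0 * a i + x 1 * b i + x 2 * c i

set_option synthInstance.maxSize 4000 in
set_option synthInstance.maxHeartbeats 400000 in
theorem scalar_matrix : ∀ a b c : Fin 3 → ZMod 2,
    (lin a b c ((R0 : Matrix (Fin 3) (Fin 3) (ZMod 2)).mulVec ![1, 0, 0]) =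
      (R0 : Matrix (Fin 3) (Fin 3) (ZMod 2)).mulVec a) →
    (lin a b c ((R0 : Matrix (Fin 3) (Fin 3) (ZMod 2)).mulVec ![0, 1, 0]) =
      (R0 : Matrix (Fin 3) (Fin 3) (ZMod 2)).mulVec b) →
    (lin a b c ((R0 : Matrix (Fin 3) (Fin 3) (ZMod 2)).mulVec ![0, 0, 1]) =
      (R0 : Matrix (Fin 3) (Fin 3) (ZMod 2)).mulVec c) →
    (lin a b c ((D7 : Matrix (Fin 3) (Fin 3) (ZMod 2)).mulVec ![1, 0, 0]) =
      (D7 : Matrix (Fin 3) (Fin 3) (ZMod 2)).mulVec a) →
    (lin a b c ((D7 : Matrix (Fin 3) (Fin 3) (ZMod 2)).mulVec ![0, 1, 0]) =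
      (D7 : Matrix (Fin 3) (Fin 3) (ZMod 2)).mulVec b) →
    (lin a b c ((D7 : Matrix (Fin 3) (Fin 3) (ZMod 2)).mulVec ![0, 0, 1]) =
      (D7 : Matrix (Fin 3) (Fin 3) (ZMod 2)).mulVec c) →
    (a = 0 ∧ b = 0 ∧ c = 0) ∨ (a = ![1, 0, 0] ∧ b = ![0, 1, 0] ∧ c = ![0, 0, 1]) := by
  decide +kernel

end CfsgLib.SmallRadical
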