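import Cfsg.Agent.SmallRadical.Natural

/-! Tools on coordinates: the commutant, squares of lifts of transvections, fixed points in cosets. -/

set_option autoImplicit false

namespace CfsgLib.SmallRadical

/-- An additive map commuting with `L₃(2)` is zero or the identity. -/
theorem scalar_hom (β : (Fin 3 → ZMod 2) →+ (Fin 3 → ZMod 2))
    (h : ∀ (g : SL32) x, β ((g : Matrix (Fin 3) (Fin 3) (ZMod 2)).mulVec x) =
      (g : Matrix (Fin 3) (Fin 3) (ZMod 2)).mulVec (β x)) :
    (∀ x, β x = 0) ∨ ∀ x, β x = x := by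
  have hlin : ∀ x, β x = lin (β ![1, 0, 0]) (β ![0, 1, 0]) (β ![0, 0, 1]) x := by
    intro x
    have hx : x = (x 0).val • (![1, 0, 0] : Fin 3 → ZMod 2) + (x 1).val • (![0, 1, 0] : Fin 3 → ZMod 2) +
        (x 2).val • (![0, 0, 1] : Fin 3 → ZMod 2) :=
      (by decide : ∀ x : Fin 3 → ZMod 2, x = (x 0).val • (![1, 0, 0] : Fin 3 → ZMod 2) +
        (x 1).val • (![0, 1, 0] : Fin 3 → ZMod 2) + (x 2).val • (![0, 0, 1] : Fin 3 → ZMod 2)) x

    conv_lhs => rw [hx, map_add, map_add, map_nsmul, map_nsmul, map_nsmul]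
    funext i
    simp only [lin, Pi.add_apply, nsmul_eq_mul, Pi.mul_apply, Pi.natCast_apply, ZMod.natCast_zmod_val]
  have hs := scalar_matrix (β ![1, 0, 0]) (β ![0, 1, 0]) (β ![0, 0, 1])
    (by rw [← hlin, h]) (by rw [← hlin, h]) (by rw [← hlin, h]) (by rw [← hlin, h]) (by rw [← hlin, h])
    (by rw [← hlin, h])
  rcases hs with ⟨e0, e1, e2⟩ | ⟨e0, e1, e2⟩
  · refine Or.inl fun x => ?_
    rw [hlin, e0, e1, e2]
    funext i
    simp [lin]
  · refine Or.inr fun x => ?_
    rw [hlin, e0, e1, e2]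
    funext i
    fin_cases i <;> simp [lin]

/-- Halving on the even vectors. -/
def hv (v : V4) : Fin 3 → ZMod 2 :=
  ![if v.1 = 2 then 1 else 0, if v.2.1 = 2 then 1 else 0, if v.2.2 = 2 then 1 else 0]

theorem hv_two : ∀ u : V4, hv (2 • u) = red u := by decide +kernel

theorem red_surj : ∀ x : Fin 3 → ZMod 2, ∃ u : V4, red u = x := by decide +kernel

theorem red_add : ∀ u v : V4, red (u + v) = red u + red v := by decide +kernel

theorem exists_half : ∀ w : V4, 2 • w = 0 → ∃ u : V4, w = 2 • u := by decide +kernel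

theorem exists_sub_half {u v : V4} (h : red u = red v) : ∃ w : V4, u - v = 2 • w := by
  refine exists_half _ ?_
  rw [smul_sub, (red_eq_iff v u).1 h, sub_self]

theorem neg_sq_all : ([((0, 0, 1), (1, 1, 1), (1, 0, 0)), ((1, 0, 0), (1, 1, 1), (0, 0, 1))] : List (V4 × V4 × V4)).all
    (fun c => (liftV c.1).all fun a => (liftV c.2.1).all fun b => (liftV c.2.2).all fun e =>
      !(app a b e a == -(1, 0, 0) && app a b e b == -(0, 1, 0) && app a b e e == -(0, 0, 1))) = true := by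
  decide +kernel

theorem transvection_cols :
    ((R0 * R0 : SL32) : Matrix (Fin 3) (Fin 3) (ZMod 2)).mulVec (red (1, 0, 0)) = red (0, 0, 1) ∧
    ((R0 * R0 : SL32) : Matrix (Fin 3) (Fin 3) (ZMod 2)).mulVec (red (0, 1, 0)) = red (1, 1, 1) ∧
    ((R0 * R0 : SL32) : Matrix (Fin 3) (Fin 3) (ZMod 2)).mulVec (red (0, 0, 1)) = red (1, 0, 0) ∧
    ((R0 * R0 * S0 : SL32) : Matrix (Fin 3) (Fin 3) (ZMod 2)).mulVec (red (1, 0, 0)) = red (1, 0, 0) ∧
    ((R0 * R0 * S0 : SL32) : Matrix (Fin 3) (Fin 3) (ZMod 2)).mulVec (red (0, 1, 0)) = red (1, 1, 1) ∧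
    ((R0 * R0 * S0 : SL32) : Matrix (Fin 3) (Fin 3) (ZMod 2)).mulVec (red (0, 0, 1)) = red (0, 0, 1) := by
  decide +kernel

/-- The vectors fixed modulo two by the relevant elements lie in the common centre. -/
theorem fix_centre : ∀ x : Fin 3 → ZMod 2,
    ((R0 : Matrix (Fin 3) (Fin 3) (ZMod 2)).mulVec x = x ∨
      (((R0 * R0 : SL32) : Matrix (Fin 3) (Fin 3) (ZMod 2)).mulVec x = x ∧
        (S0 : Matrix (Fin 3) (Fin 3) (ZMod 2)).mulVec x = x)) → x = 0 ∨ x = red (1, 0, 1) := by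
  decide +kernel

theorem centre_norm : ∀ x : Fin 3 → ZMod 2, x = 0 ∨ x = red (1, 0, 1) → ∃ u : V4,
    x = red u + ((R0 * R0 : SL32) : Matrix (Fin 3) (Fin 3) (ZMod 2)).mulVec (red u) := by
  decide +kernel

variable {G : Type*} [Group G] {π : G →* SL32} {M : Subgroup G} (C : Coord π M)

/-- An endomorphism commuting with the action and trivial modulo two is `1` or `-1`. -/
theorem Coord.commutant (hπ : Function.Surjective π) (f : V4 →+ V4) (hf : ∀ v, red (f v) = red v)
    (hc : ∀ g v, f (C.act g v) = C.act g (f v)) : (∀ v, f v = v) ∨ ∀ v, f v = -v := by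
  have hex : ∀ v, ∃ w, f v - v = 2 • w := fun v => exists_sub_half (hf v)
  -- the halved difference only depends on the class modulo two
  have hwd : ∀ u v, red u = red v → hv (f u - u) = hv (f v - v) := by
    intro u v h
    obtain ⟨w, hw⟩ := exists_sub_half h
    obtain ⟨w', hw'⟩ := hex w
    have h2 : (f u - u) - (f v - v) = 2 • (2 • w') := by
      rw [← hw', smul_sub, ← map_nsmul, ← hw, map_sub]
      abel
    rw [show (2 : ℕ) • (2 • w') = (0 : V4) from (by decide +kernel : ∀ w : V4, (2 : ℕ) • (2 • w) = 0) w',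
      sub_eq_zero] at h2
    rw [h2]
  choose L hL using red_surj
  let β : (Fin 3 → ZMod 2) →+ (Fin 3 → ZMod 2) := AddMonoidHom.mk' (fun x => hv (f (L x) - L x)) fun x y => by
    obtain ⟨a, ha⟩ := hex (L x)
    obtain ⟨b, hb⟩ := hex (L y)
    rw [hwd (L (x + y)) (L x + L y) (by rw [hL, red_add, hL, hL]), ha, hb, hv_two, hv_two, _root_.map_add,
      show f (L x) + f (L y) - (L x + L y) = 2 • (a + b) by rw [smul_add, ← ha, ← hb]; abel, hv_two, red_add]
  have hβ : ∀ (g : SL32) x, β ((g : Matrix (Fin 3) (Fin 3) (ZMod 2)).mulVec x) =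
      (g : Matrix (Fin 3) (Fin 3) (ZMod 2)).mulVec (β x) := by
    intro g x
    obtain ⟨g, rfl⟩ := hπ g
    obtain ⟨a, ha⟩ := hex (L x)
    show hv _ = Matrix.mulVec _ (hv _)
    rw [hwd _ (C.act g (L x)) (by rw [hL, C.act_red, hL]), hc, ← map_sub, ha, map_nsmul, hv_two, hv_two,
      C.act_red]
  have hdet : ∀ v, hv (f v - v) = β (red v) := fun v => hwd _ _ (by rw [hL])
  rcases scalar_hom β hβ with h | h
  · refine Or.inl fun v => ?_
    obtain ⟨w, hw⟩ := hex v
    have h1 := hdet v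
    rw [h, hw, hv_two] at h1
    rw [← sub_eq_zero, hw]
    exact (by decide +kernel : ∀ w : V4, red w = 0 → 2 • w = 0) w h1
  · refine Or.inr fun v => ?_
    obtain ⟨w, hw⟩ := hex v
    have h1 := hdet v
    rw [h, hw, hv_two] at h1
    have h2 : 2 • w = 2 • v := (red_eq_iff v w).1 h1
    rw [sub_eq_iff_eq_add, h2] at hw
    rw [hw]
    exact (by decide +kernel : ∀ v : V4, (2 : ℕ) • v + v = -v) v

/-- A lift of a transvection does not square to an element inverting the section. -/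
theorem Coord.no_neg_sq {y : G} (hy : π y = R0 * R0 ∨ π y = R0 * R0 * S0) :
    ¬ ∀ v, C.act (y * y) v = -v := by
  intro h
  obtain ⟨t0, t1, t2, s0, s1, s2⟩ := transvection_cols
  have hr := C.act_red y
  have hall := neg_sq_all
  simp only [List.all_eq_true] at hall
  have happ := addHom_eq_app (C.act y)
  have h3 : ∀ v, app (C.act y (1, 0, 0)) (C.act y (0, 1, 0)) (C.act y (0, 0, 1)) (C.act y v) = -v := fun v => by
    rw [← happ, ← AddMonoidHom.comp_apply, ← C.act_mul, h]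
  rcases hy with hy | hy <;> rw [hy] at hr
  · have := hall ((0, 0, 1), (1, 1, 1), (1, 0, 0)) (by simp) _ (liftV_complete _ (C.act y (1, 0, 0))
      ((red_eq_iff _ _).1 (by rw [hr, t0]))) _ (liftV_complete _ (C.act y (0, 1, 0))
      ((red_eq_iff _ _).1 (by rw [hr, t1]))) _ (liftV_complete _ (C.act y (0, 0, 1))
      ((red_eq_iff _ _).1 (by rw [hr, t2])))
    simp [h3] at this
  · have := hall ((1, 0, 0), (1, 1, 1), (0, 0, 1)) (by simp) _ (liftV_complete _ (C.act y (1, 0, 0))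
      ((red_eq_iff _ _).1 (by rw [hr, s0]))) _ (liftV_complete _ (C.act y (0, 1, 0))
      ((red_eq_iff _ _).1 (by rw [hr, s1]))) _ (liftV_complete _ (C.act y (0, 0, 1))
      ((red_eq_iff _ _).1 (by rw [hr, s2])))
    simp [h3] at this

/-- A fixed or inverted element of a coset produces a fixed point. -/
theorem Coord.fixed_in_coset {x₀ : G} (hx0 : ∀ v, x₀ * C.φ v = C.φ v * x₀) (hx2 : x₀ * x₀ = 1) {t : G}
    (ht : π t = R0 * R0) (ht2 : ∀ w, C.act t (C.act t w) = w) {v : V4}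
    (hv' : red v = 0 ∨ red v = red (1, 0, 1))
    (h : t * (x₀ * C.φ v) * t⁻¹ = x₀ * C.φ v ∨ t * (x₀ * C.φ v) * t⁻¹ = (x₀ * C.φ v)⁻¹) :
    ∃ u : V4, t * (x₀ * C.φ (2 • u)) * t⁻¹ = x₀ * C.φ (2 • u) := by
  obtain ⟨u, hu⟩ := centre_norm (red v) hv'
  have hau : red (C.act t u) = ((R0 * R0 : SL32) : Matrix (Fin 3) (Fin 3) (ZMod 2)).mulVec (red u) := by
    rw [C.act_red, ht]
  have hconj : ∀ w, t * (x₀ * C.φ w) * t⁻¹ = (t * (x₀ * C.φ v) * t⁻¹) * C.φ (C.act t (w - v)) := by
    intro w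
    rw [← C.act_spec, sub_eq_add_neg, C.map_add, C.map_neg]
    have e : C.φ w * (C.φ v)⁻¹ = (C.φ v)⁻¹ * C.φ w := by
      rw [← C.map_neg, ← C.map_add, ← C.map_add, add_comm]
    rw [e]
    group
  have hdouble : ∀ w : V4, (2 : ℕ) • w = -((2 : ℕ) • w) := by decide +kernel
  rcases h with h | h
  · obtain ⟨w, hw⟩ := exists_sub_half (u := v) (v := u + C.act t u) (by rw [red_add, hau, ← hu])
    refine ⟨w, ?_⟩
    rw [hconj, h, ← hw, mul_assoc, ← C.map_add]
    congr 2
    rw [_root_.map_sub, _root_.map_sub, _root_.map_add, ht2]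
    abel
  · obtain ⟨w, hw⟩ := exists_sub_half (u := v) (v := C.act t u - u) (by
      rw [(by decide +kernel : ∀ a b : V4, red (a - b) = red a + red b), hau, hu, add_comm])
    refine ⟨w, ?_⟩
    have hx0i : ∀ a, (x₀ * C.φ a)⁻¹ = x₀ * C.φ (-a) := fun a => by
      rw [mul_inv_rev, inv_eq_of_mul_eq_one_right hx2, C.map_neg]
      rw [← C.map_neg, hx0]
    rw [hconj, h, hx0i, mul_assoc, ← C.map_add]
    congr 2
    -- both sides
    have h2 : C.act t ((2 : ℕ) • w - v) = C.act t u - u := by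
      rw [← hw, show v - (C.act t u - u) - v = u - C.act t u by abel, _root_.map_sub, ht2]
    rw [h2]
    have h3 : -v + (C.act t u - u) = -((2 : ℕ) • w) := by rw [← hw]; abel
    rw [h3, ← hdouble]

end CfsgLib.SmallRadical
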